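import Mathlib
import Cfsg.Agent.H13.GA1

/-!
Similarity groups of symmetric and alternating matrices: characteristic two, orders, determinants.
-/

set_option autoImplicit false

namespace Cfsg.Agent.H13

open Matrix Module QuadraticMap
open scoped MatrixGroups

section Sym
variable {F W : Type*} [Field F] [AddCommGroup W] [Module F W] [CharP F 2] [Finite F]
  {γ : W →ₗ[F] W →ₗ[F] F}

theorem SymND.equiv_UG_ker (h : SymND γ) {e : W} (he : ∀ u, γ e u ^ 2 = γ u u) (h1 : γ e e = 1) :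
    Nonempty (H12.UG (σ := RingHom.id F) γ ≃*
      H12.UG (σ := RingHom.id F) (H12.res γ (LinearMap.ker (γ e)))) := by
  have h2 : ∀ g : H12.UG (σ := RingHom.id F) γ, g.1 e = e := fun g => h.map_char he he g.1 g.2
  have h3 : ∀ (g : H12.UG (σ := RingHom.id F) γ) w,
      g.1 w ∈ LinearMap.ker (γ e) ↔ w ∈ LinearMap.ker (γ e) := fun g w => by
    rw [LinearMap.mem_ker, LinearMap.mem_ker, ← H12.UG_map g e w, h2]
  refine ⟨{ toFun := fun g => H12.resUG _ g (h3 g)
            invFun := fun g => ⟨liftE h1 h1 g.1, h.liftE_form h h1 h1 g.1 g.2⟩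
            left_inv := fun g => H12.UG_ext fun x => ?_
            right_inv := fun g => H12.UG_ext fun x => Subtype.ext ?_
            map_mul' := fun g g' => H12.UG_ext fun x => rfl }⟩
  · obtain ⟨p, rfl⟩ := (splitE γ h1).symm.surjective x
    change liftE h1 h1 _ _ = _
    rw [liftE_apply, splitE_symm_apply, splitE_symm_apply, map_add, map_smul, h2]; rfl
  · have := liftE_apply h1 h1 g.1 (0, x)
    simp only [splitE_symm_apply, zero_smul, zero_add] at this
    exact this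

theorem SymND.equiv_centralizer (h : SymND γ) {e : W} (he : ∀ u, γ e u ^ 2 = γ u u)
    (h0 : γ e e = 0) (hz : e ≠ 0) : Nonempty (H12.UG (σ := RingHom.id F) γ ≃*
      Subgroup.centralizer {H12.tv (σ := RingHom.id F) (altOf γ e) e 1}) := by
  have D := h.sd_altOf he h0
  have hee : altOf γ e e e = 0 := by rw [altOf_apply, h0]; simp
  have h1 : ∀ x, altOf γ e e x = γ e x := fun x => by rw [altOf_apply, h0]; simp
  have key : ∀ g : H12.UG (σ := RingHom.id F) (altOf γ e),
      g ∈ Subgroup.centralizer {H12.tv (σ := RingHom.id F) (altOf γ e) e 1} ↔ g.1 e = e := by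
    intro g
    rw [Subgroup.mem_centralizer_singleton_iff, ← mul_inv_eq_iff_eq_mul, H12.conj_tv D]
    refine ⟨fun H => ?_, fun H => by rw [H]⟩
    have h2 : ∀ x, altOf γ e (g.1 e) x • g.1 e = altOf γ e e x • e := fun x => by
      have := congrArg (fun k : H12.UG (σ := RingHom.id F) (altOf γ e) => k.1 x) H
      simp only [H12.tv_apply D ((H12.UG_map g e e).trans hee) rfl, H12.tv_apply D hee rfl] at this
      simpa using this
    obtain ⟨x, hx⟩ : ∃ x, altOf γ e e x ≠ 0 := by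
      by_contra! H'
      exact hz (D.sep e H')
    have h3 := h2 (g.1 x)
    rw [H12.UG_map] at h3
    obtain ⟨a, ha⟩ : ∃ a : F, g.1 e = a • e :=
      ⟨(altOf γ e e x)⁻¹ * altOf γ e e (g.1 x), by rw [mul_smul, ← h3, inv_smul_smul₀ hx]⟩
    have h4 := h2 x
    rw [ha, map_smul, LinearMap.smul_apply, smul_smul, smul_eq_mul] at h4
    have h5 : a ^ 2 = 1 ^ 2 := mul_left_cancel₀ hx (by
      linear_combination smul_left_injective F hz h4)
    rw [ha, sq_inj_two h5, one_smul]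
  refine ⟨{ toFun := fun g => ⟨⟨g.1, fun x y => ?_⟩, (key _).2 (h.map_char he he g.1 g.2)⟩
            invFun := fun g => ⟨g.1.1, fun x y => ?_⟩
            left_inv := fun _ => rfl
            right_inv := fun _ => rfl
            map_mul' := fun _ _ => rfl }⟩
  · have h2 : g.1 e = e := h.map_char he he g.1 g.2
    have h3 : ∀ x, γ e (g.1 x) = γ e x := fun x => by rw [← H12.UG_map g e x, h2]
    rw [altOf_apply, altOf_apply, h3, h3, H12.UG_map]
  · have h2 : g.1.1 e = e := (key _).1 g.2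
    have h3 : ∀ x, γ e (g.1.1 x) = γ e x := fun x => by
      have := H12.UG_map g.1 e x
      rwa [h2, h1, h1] at this
    have := H12.UG_map g.1 x y
    rwa [altOf_apply, altOf_apply, h3, h3, add_left_inj] at this

end Sym

theorem nonempty_centralizer_congr {G H : Type*} [Group G] [Group H] (φ : G ≃* H) (x : G) :
    Nonempty (Subgroup.centralizer {x} ≃* Subgroup.centralizer {φ x}) := by
  have : ∀ g, φ g ∈ Subgroup.centralizer {φ x} ↔ g ∈ Subgroup.centralizer {x} := fun g => by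
    simp only [Subgroup.mem_centralizer_singleton_iff, ← map_mul, φ.injective.eq_iff]
  exact ⟨{ toFun := fun g => ⟨φ g, (this _).2 g.2⟩
           invFun := fun g => ⟨φ.symm g, (this _).1 (by simp)⟩
           left_inv := fun g => by simp
           right_inv := fun g => by simp
           map_mul' := fun g g' => by simp }⟩

variable {ι : Type} [Fintype ι] [DecidableEq ι] {K : Type*} [Field K]

/-- the isometry group of the form of a matrix -/
noncomputable def IsoM (M : Matrix ι ι K) : Subgroup (GL ι K) :=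
  (H12.UG (σ := RingHom.id K) (toBilin' M)).comap (glEquiv ι K : GL ι K →* _)

theorem mem_IsoM {M : Matrix ι ι K} {g : GL ι K} : g ∈ IsoM M ↔ (g : Matrix ι ι K)ᵀ * M * g = M := by
  rw [← one_smul K M, ← forall_toBilin'_iff, one_smul]
  simp only [one_mul]; rfl

theorem iso_equiv (M : Matrix ι ι K) :
    Nonempty (IsoM M ≃* H12.UG (σ := RingHom.id K) (toBilin' M)) :=
  ⟨{ toFun := fun g => ⟨glEquiv ι K g, g.2⟩
     invFun := fun g => ⟨(glEquiv ι K).symm g, by simp [IsoM]⟩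
     left_inv := fun g => by simp
     right_inv := fun g => by simp
     map_mul' := fun g g' => Subtype.ext (map_mul (glEquiv ι K) _ _) }⟩

theorem IsoM_le (M : Matrix ι ι K) : IsoM M ≤ Sim M := fun _ h =>
  mem_Sim.2 ⟨1, by simpa using mem_IsoM.1 h⟩

theorem IsoM_eq_isometryGroup (h2 : (2 : K) ≠ 0) {M : Matrix ι ι K} (h : Mᵀ = M) :
    IsoM M = isometryGroup K (qM M) := by
  ext g
  rw [mem_isometryGroup]
  refine ⟨fun H v => H v v, fun H u v => ?_⟩
  have := polar_of_sim (toLin' (g : Matrix ι ι K)) (c := 1) (Q := qM M) (R := qM M)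
    (by simpa using H) u v
  rw [polar_qM h, polar_qM h, one_mul] at this
  exact mul_left_cancel₀ h2 this

theorem smul_GL_inj [Nonempty ι] (M : GL ι K) {c d : K}
    (h : c • (M : Matrix ι ι K) = d • (M : Matrix ι ι K)) : c = d :=
  smul_left_injective K M.ne_zero h

theorem exists_unit_sq [CharP K 2] [Finite K] (c : Kˣ) : ∃ a : Kˣ, a ^ 2 = c := by
  obtain ⟨a, ha⟩ := exists_sq_eq_of_two_eq_zero (CharTwo.two_eq_zero (R := K)) (c : K)
  exact ⟨Units.mk0 a (by rintro rfl; exact c.ne_zero (by simp [← ha])), Units.ext ha⟩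

theorem scalar_mem_scalars (u : Kˣ) : GeneralLinearGroup.scalar ι u ∈ Geo.scalars ι K :=
  H28.mem_scalars_iff_center.2 (H28.scalar_mem_center u)

theorem sim_equiv_two [CharP K 2] [Finite K] [Nonempty ι] (M : GL ι K) :
    Nonempty (projQuot (Sim (M : Matrix ι ι K)) ≃*
      H12.UG (σ := RingHom.id K) (toBilin' (M : Matrix ι ι K))) := by
  obtain ⟨φ⟩ := projQuot_equiv (IsoM_le (M : Matrix ι ι K)) (fun g hg => by
    obtain ⟨c, hc⟩ := mem_Sim.1 hg
    obtain ⟨a, rfl⟩ := exists_unit_sq c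
    refine ⟨_, scalar_mem_scalars a⁻¹, mem_IsoM.2 ?_⟩
    rw [H28.coe_scalar_mul, scalar_form, hc, smul_smul]; simp) fun g hg hs => by
      obtain ⟨c, hc⟩ := (Geo.mem_scalars_iff g).1 hs
      have := mem_IsoM.1 hg
      rw [hc, scalar_form, transpose_one, one_mul, mul_one] at this
      have h1 : (c : K) ^ 2 = 1 ^ 2 := smul_GL_inj M (by simpa using this)
      exact Units.ext (by rw [hc, sq_inj_two h1, one_smul]; rfl)
  obtain ⟨ψ⟩ := iso_equiv (M : Matrix ι ι K)
  exact ⟨φ.symm.trans ψ⟩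

theorem PGO_equiv_two [CharP K 2] [Finite K] (Q : QuadraticForm K (ι → K)) {w : ι → K}
    (hw : Q w ≠ 0) : Nonempty (PGO K ⇑Q ≃* OG Q) := by
  obtain ⟨φ⟩ := projQuot_equiv (S := Geo.quadSimilarityGroup ⇑Q) (H := isometryGroup K ⇑Q)
    (fun g hg => ⟨1, by simpa using mem_isometryGroup.1 hg⟩) (fun g hg => by
    obtain ⟨c, hc⟩ := hg
    obtain ⟨a, rfl⟩ := exists_unit_sq c
    refine ⟨_, scalar_mem_scalars a⁻¹, mem_isometryGroup.2 fun v => ?_⟩
    rw [H28.coe_scalar_mul, smul_mulVec, Q_smul, hc]; simp) fun g hg hs => by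
      obtain ⟨c, hc⟩ := (Geo.mem_scalars_iff g).1 hs
      have := mem_isometryGroup.1 hg w
      rw [hc, smul_mulVec, one_mulVec, Q_smul] at this
      have h1 : (c : K) ^ 2 = 1 ^ 2 := mul_right_cancel₀ hw (by simpa using this)
      exact Units.ext (by rw [hc, sq_inj_two h1, one_smul]; rfl)
  exact ⟨φ.symm.trans (toOG Q)⟩

theorem charP_two_of (h : (2 : K) = 0) : CharP K 2 :=
  (CharP.charP_iff_prime_eq_zero Nat.prime_two).2 h

theorem symm_of_odd {M : GL ι K} (h : (M : Matrix ι ι K)ᵀ = M ∨ (M : Matrix ι ι K)ᵀ = -M)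
    (ho : Odd (Fintype.card ι)) : (M : Matrix ι ι K)ᵀ = M := by
  refine h.elim id fun h => ?_
  by_cases h2 : (2 : K) = 0
  · have := charP_two_of h2
    rw [h]; ext; simp [CharTwo.neg_eq]
  · exact absurd (alt_of_skew h2 h).even (Nat.not_even_iff_odd.2 ho)

theorem symm_of_two [CharP K 2] {M : Matrix ι ι K} (h : Mᵀ = M ∨ Mᵀ = -M) : Mᵀ = M :=
  h.elim id fun h => by rw [h]; ext; simp [CharTwo.neg_eq]

theorem equiv_PGO_odd [Finite K] {M : GL ι K} (h : (M : Matrix ι ι K)ᵀ = M) {m : ℕ}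
    (hm : Fintype.card ι = 2 * m + 1) :
    Nonempty (projQuot (Sim (M : Matrix ι ι K)) ≃* PGO K (quadFormOdd m K)) := by
  by_cases h2 : (2 : K) = 0
  · have := charP_two_of h2
    have : Nonempty ι := Fintype.card_pos_iff.1 (by omega)
    obtain ⟨e, he⟩ := (symND h).exists_char
    have h1 := ((symND h).char_eq_one_iff he).2 ⟨m, by simpa using hm⟩
    obtain ⟨φ₁⟩ := sim_equiv_two M
    obtain ⟨φ₂⟩ := (symND h).equiv_UG_ker he h1
    obtain ⟨φ₃⟩ := ((symND h).sd_ker he h1).nonempty_UG_equiv_sp (m := m) (by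
      have := finrank_ker_char h1
      rw [finrank_fintype_fun_eq_card] at this
      omega)
    obtain ⟨φ₄⟩ := (nd_QPlus (m := m) (F := K)).sd.nonempty_UG_equiv_sp (m := m) (by simp [two_mul])
    obtain ⟨φ₅⟩ := PGO_equiv_two (QOdd m K) (w := Pi.single (.inl ()) 1) (by simp [QOdd_apply])
    exact ⟨φ₁.trans (φ₂.trans (φ₃.trans (φ₄.symm.trans (nd_QPlus.spEquivO.trans
      ((addQPlus m K).conj.symm.trans φ₅.symm)))))⟩
  · obtain ⟨e, c, hc, he⟩ := (nd_qM h2 h).equiv_QOdd (m := m) (by simpa using hm)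
    exact equiv_PGO h2 h e hc he

theorem cg_of_odd [Finite K] {M M' : GL ι K} (h : (M : Matrix ι ι K)ᵀ = M)
    (h' : (M' : Matrix ι ι K)ᵀ = M') {m : ℕ} (hm : Fintype.card ι = 2 * m + 1) :
    Cg (M : Matrix ι ι K) M' := by
  by_cases h2 : (2 : K) = 0
  · have := charP_two_of h2
    have ho : ¬ Even (Fintype.card ι) := Nat.not_even_iff_odd.2 ⟨m, hm⟩
    exact cg_two h h' (iff_of_false (fun H => ho H.even) fun H => ho H.even)
  · exact cg_odd h2 h h' hm

theorem AltM.equiv_sp_two [CharP K 2] [Finite K] {M : GL ι K} (h : AltM (M : Matrix ι ι K)) {m : ℕ}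
    (hm : Fintype.card ι = 2 * m) (h1 : 1 ≤ m) :
    Nonempty (projQuot (Sim (M : Matrix ι ι K)) ≃* symplecticGroup (Fin m) K) := by
  have : Nonempty ι := Fintype.card_pos_iff.1 (by omega)
  obtain ⟨φ₁⟩ := sim_equiv_two M
  obtain ⟨φ₂⟩ := h.sd.nonempty_UG_equiv_sp (m := m) (by simpa using hm)
  exact ⟨φ₁.trans φ₂⟩

theorem isTransvection_of {t : Matrix ι ι K} {v f : ι → K} (hv : v ≠ 0) (hf : f ≠ 0)
    (h : f ⬝ᵥ v = 0) (ht : ∀ x, t *ᵥ x = x + (f ⬝ᵥ x) • v) : IsTransvection t := by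
  have : t - 1 = vecMulVec v f := matrix_ext_mulVec fun x => by
    rw [sub_mulVec, ht, one_mulVec, add_sub_cancel_left, vecMulVec_mulVec]; simp
  rw [IsTransvection, this]
  refine ⟨le_antisymm (rank_vecMulVec_le _ _) (Nat.one_le_iff_ne_zero.2 fun h0 => ?_),
    H28.vecMulVec_mul_self h⟩
  rw [Matrix.rank, Submodule.finrank_eq_zero, LinearMap.range_eq_bot] at h0
  obtain ⟨i, hi⟩ := Function.ne_iff.1 hf
  have := LinearMap.congr_fun h0 (Pi.single i 1)
  rw [mulVecLin_apply, vecMulVec_mulVec] at this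
  simp [hv] at this
  exact hi this

theorem equiv_cent_two [CharP K 2] [Finite K] {M : GL ι K} (h : (M : Matrix ι ι K)ᵀ = M)
    (ha : ¬ AltM (M : Matrix ι ι K)) {m : ℕ} (hm : Fintype.card ι = 2 * m) :
    ∃ t : symplecticGroup (Fin m) K, IsTransvection (t : Matrix (Fin m ⊕ Fin m) (Fin m ⊕ Fin m) K) ∧
      Nonempty (projQuot (Sim (M : Matrix ι ι K)) ≃*
        Subgroup.centralizer ({t} : Set (symplecticGroup (Fin m) K))) := by
  have : Nonempty ι := by
    by_contra! H
    exact ha fun v => by simp [Subsingleton.elim v 0]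
  obtain ⟨e, he⟩ := (symND h).exists_char
  have h0 := (char_self he).resolve_right fun h1 => by
    have := ((symND h).char_eq_one_iff he).1 h1
    rw [finrank_fintype_fun_eq_card, hm] at this
    exact Nat.not_even_iff_odd.2 this (even_two_mul m)
  have hz : e ≠ 0 := fun hz => ha (((symND h).char_eq_zero_iff he).1 hz)
  have D := (symND h).sd_altOf he h0
  have hee : altOf (toBilin' (M : Matrix ι ι K)) e e e = 0 := by rw [altOf_apply, h0]; simp
  obtain ⟨ψ, hψ⟩ := D.exists_equiv_sp (m := m) (by simpa using hm)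
  let φ := (H12.UGcongr ψ one_ne_zero (by simpa using hψ)).trans (H12.spEquiv (Fin m) K).symm
  obtain ⟨φ₁⟩ := sim_equiv_two M
  obtain ⟨φ₂⟩ := (symND h).equiv_centralizer he h0 hz
  obtain ⟨φ₃⟩ := nonempty_centralizer_congr φ (H12.tv _ e 1)
  refine ⟨_, isTransvection_of (v := ψ e) (f := ψ e ᵥ* J (Fin m) K) (by simpa using hz)
    (fun H => hz (D.sep e fun y => ?_)) ?_ fun x => ?_, ⟨φ₁.trans (φ₂.trans φ₃)⟩⟩
  · rw [← hψ, H12.spB_apply, dotProduct_mulVec, H, zero_dotProduct]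
  · rw [← dotProduct_mulVec, ← H12.spB_apply, hψ, hee]
  · obtain ⟨x, rfl⟩ := ψ.surjective x
    rw [← dotProduct_mulVec, ← H12.spB_apply, hψ]
    simp only [φ, MulEquiv.trans_apply, H12.spEquiv_symm_mulVec, H12.UGcongr_apply,
      LinearEquiv.symm_apply_apply, H12.tv_apply D hee rfl]
    simp

/-! ### multipliers and determinants -/

theorem det_sq_of_sim {M g : GL ι K} {c : K}
    (h : (g : Matrix ι ι K)ᵀ * M * g = c • (M : Matrix ι ι K)) :
    (g : Matrix ι ι K).det ^ 2 = c ^ Fintype.card ι := by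
  have := congrArg det h
  rw [det_mul, det_mul, det_transpose, det_smul] at this
  exact mul_right_cancel₀ M.det_ne_zero (by linear_combination this)

/-- multipliers are squares -/
theorem exists_sq_of_sim [Finite K] {M g : GL ι K} {c : Kˣ}
    (h : (g : Matrix ι ι K)ᵀ * M * g = (c : K) • (M : Matrix ι ι K))
    (ho : Odd (Fintype.card ι) ∨ (2 : K) = 0) :
    ∃ a : Kˣ, c = a ^ 2 ∧ GeneralLinearGroup.det g = a ^ Fintype.card ι := by
  have h1 : GeneralLinearGroup.det g ^ 2 = c ^ Fintype.card ι := Units.ext (by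
    simpa using det_sq_of_sim h)
  rcases ho with ⟨m, hm⟩ | h2
  · have h2 : c = (GeneralLinearGroup.det g / c ^ m) ^ 2 := by
      rw [div_pow, h1, hm, eq_div_iff_mul_eq', ← pow_mul, pow_succ', mul_comm m]
    refine ⟨_, h2, ?_⟩
    rw [hm, pow_succ, pow_mul, ← h2, mul_div_cancel]
  · have := charP_two_of h2
    obtain ⟨a, rfl⟩ := exists_unit_sq c
    refine ⟨a, rfl, Units.ext (sq_inj_two ?_)⟩
    rw [← Units.val_pow_eq_pow_val, h1, ← Units.val_pow_eq_pow_val, ← pow_mul, ← pow_mul, mul_comm]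

theorem det_of_sim_even {M g : GL ι K} {c : Kˣ}
    (h : (g : Matrix ι ι K)ᵀ * M * g = (c : K) • (M : Matrix ι ι K)) {m : ℕ}
    (hm : Fintype.card ι = 2 * m) :
    GeneralLinearGroup.det g = c ^ m ∨ GeneralLinearGroup.det g = -c ^ m := by
  have := det_sq_of_sim h
  rw [hm, mul_comm, pow_mul, sq_eq_sq_iff_eq_or_eq_neg] at this
  exact this.imp (fun H => Units.ext (by simpa using H)) fun H => Units.ext (by simpa using H)

theorem det_glc {κ : Type} [Fintype κ] [DecidableEq κ] (e : (κ → K) ≃ₗ[K] (ι → K)) (g : GL κ K) :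
    (glc e g : Matrix ι ι K).det = (g : Matrix κ κ K).det := by
  rw [← LinearMap.det_toLin', ← LinearMap.det_toLin', ← LinearMap.det_conj _ e]
  congr 1
  refine LinearMap.ext fun v => ?_
  obtain ⟨v, rfl⟩ := e.surjective v
  simp [glc_mulVec]

theorem AltM.exists_mult {M : GL ι K} (h : AltM (M : Matrix ι ι K)) {m : ℕ}
    (hm : Fintype.card ι = 2 * m) (c : Kˣ) : ∃ g : GL ι K,
      (g : Matrix ι ι K)ᵀ * M * g = (c : K) • (M : Matrix ι ι K) ∧
        GeneralLinearGroup.det g = c ^ m := by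
  obtain ⟨e, he⟩ := h.sd.exists_equiv_sp (m := m) (by simpa using hm)
  let A : Matrix (Fin m ⊕ Fin m) (Fin m ⊕ Fin m) K := fromBlocks 1 0 0 ((c : K) • 1)
  have hA : A.det = (c : K) ^ m := by simp [A]
  refine ⟨glc e.symm (GeneralLinearGroup.mkOfDetNeZero A (by simp [hA])),
    forall_toBilin'_iff.1 fun u v => ?_, Units.ext (by simpa [det_glc] using hA)⟩
  obtain ⟨u, rfl⟩ := e.symm.surjective u
  obtain ⟨v, rfl⟩ := e.symm.surjective v
  rw [glc_mulVec, glc_mulVec, ← he, ← he]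
  simp only [LinearEquiv.apply_symm_apply, H12.spB_eq]
  refine H28.forall_sympForm_iff.2 ?_ u v
  simp [A, J, fromBlocks_transpose, fromBlocks_multiply, fromBlocks_smul]

theorem AltM.det_of_sim {M g : GL ι K} (h : AltM (M : Matrix ι ι K)) {m : ℕ}
    (hm : Fintype.card ι = 2 * m) {c : Kˣ}
    (hg : (g : Matrix ι ι K)ᵀ * M * g = (c : K) • (M : Matrix ι ι K)) :
    GeneralLinearGroup.det g = c ^ m := by
  obtain ⟨k, hk, hd⟩ := h.exists_mult hm c⁻¹
  have h1 : g * k ∈ IsoM (M : Matrix ι ι K) := mem_IsoM.2 (by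
    rw [Units.val_mul, transpose_mul, show (k : Matrix ι ι K)ᵀ * (g : Matrix ι ι K)ᵀ * M * (g * k) =
      (k : Matrix ι ι K)ᵀ * ((g : Matrix ι ι K)ᵀ * M * g) * k by simp only [mul_assoc], hg,
      mul_smul_comm, smul_mul_assoc, hk, smul_smul]; simp)
  have h2 := H12.mem_SUG.1 ((h.sd.SUG_eq_top rfl).ge
    (Subgroup.mem_top (⟨_, h1⟩ : H12.UG (σ := RingHom.id K) (toBilin' (M : Matrix ι ι K)))))
  have h3 : GeneralLinearGroup.det (g * k) = 1 := Units.ext (by
    rw [GeneralLinearGroup.val_det_apply, ← LinearMap.det_toLin', Units.val_one, ← h2]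
    congr 1)
  rwa [map_mul, hd, inv_pow, mul_inv_eq_one] at h3

theorem exists_mult_symm [Finite K] (h2 : (2 : K) ≠ 0) {M : GL ι K} (h : (M : Matrix ι ι K)ᵀ = M)
    {m : ℕ} (hm : Fintype.card ι = 2 * m) (c : Kˣ) :
    ∃ g : GL ι K, (g : Matrix ι ι K)ᵀ * M * g = (c : K) • (M : Matrix ι ι K) := by
  have hN : ND ((c : K) • qM (M : Matrix ι ι K)) := fun x hx => nd_qM h2 h x fun y => by
    have := (polar_of_sim (Q := qM (M : Matrix ι ι K)) (R := (c : K) • qM (M : Matrix ι ι K))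
      LinearMap.id (c := c) (fun _ => rfl) x y).symm.trans (hx y)
    simpa using this
  obtain ⟨e, he⟩ := hN.exists_iso_even (nd_qM h2 h) (m := m) (by simpa using hm) (by simpa using hm)
    (isPlus_iff_of_sim (.refl _ _) c.ne_zero fun _ => rfl)
  obtain ⟨g, rfl⟩ := (glEquiv ι K).surjective e
  refine ⟨g, forall_toBilin'_iff.1 fun u v => ?_⟩
  have := polar_of_sim (Q := qM (M : Matrix ι ι K)) (glEquiv ι K g).toLinearMap (c := c) he u v
  rw [polar_qM h, polar_qM h] at this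
  exact mul_left_cancel₀ h2 (by rw [mul_left_comm, ← this]; rfl)

theorem exists_det_neg (h2 : (2 : K) ≠ 0) [Nonempty ι] {M : GL ι K}
    (h : (M : Matrix ι ι K)ᵀ = M) : ∃ g ∈ IsoM (M : Matrix ι ι K), GeneralLinearGroup.det g = -1 := by
  obtain ⟨b, -, hb⟩ := (nd_qM h2 h).exists_orthogonal_basis h2
  have hi : 0 < finrank K (ι → K) := finrank_pos
  rw [IsoM_eq_isometryGroup h2 h]
  refine ⟨_, ((toOG _).symm (refl _ (b ⟨0, hi⟩))).2, Units.ext ?_⟩
  rw [GeneralLinearGroup.val_det_apply]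
  refine (det_mat _).trans ?_
  rw [MulEquiv.apply_symm_apply, det_refl (hb _)]; simp

theorem card_projQuot_sim [Finite K] [Nonempty ι] (M : GL ι K)
    (h : ∀ c : Kˣ, ∃ g : GL ι K, (g : Matrix ι ι K)ᵀ * M * g = (c : K) • (M : Matrix ι ι K)) :
    Nat.card (projQuot (Sim (M : Matrix ι ι K))) = Nat.card (IsoM (M : Matrix ι ι K)) := by
  choose μ hμ using fun g : Sim (M : Matrix ι ι K) => mem_Sim.1 g.2
  have hu : ∀ (g : Sim (M : Matrix ι ι K)) (c : Kˣ), ((g : GL ι K) : Matrix ι ι K)ᵀ * M * (g : GL ι K) =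
      (c : K) • (M : Matrix ι ι K) → μ g = c := fun g c H =>
    Units.ext (smul_GL_inj M ((hμ g).symm.trans H))
  let ν : Sim (M : Matrix ι ι K) →* Kˣ := MonoidHom.mk' μ fun a b => hu _ _ (by
    rw [Subgroup.coe_mul, Units.val_mul, transpose_mul,
      show (b.1 : Matrix ι ι K)ᵀ * (a.1 : Matrix ι ι K)ᵀ * M * (a.1 * b.1) =
      (b.1 : Matrix ι ι K)ᵀ * ((a.1 : Matrix ι ι K)ᵀ * M * a.1) * b.1 by simp only [mul_assoc], hμ,
      mul_smul_comm, smul_mul_assoc, hμ, smul_smul, Units.val_mul])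
  have h1 : Function.Surjective ν := fun c => by
    obtain ⟨g, hg⟩ := h c
    exact ⟨⟨g, mem_Sim.2 ⟨c, hg⟩⟩, hu _ _ hg⟩
  have h2 : ν.ker = (IsoM (M : Matrix ι ι K)).subgroupOf _ := by
    ext g
    rw [Subgroup.mem_subgroupOf, mem_IsoM, MonoidHom.mem_ker]
    exact ⟨fun H => by rw [hμ, show μ g = 1 from H]; simp, fun H => hu _ _ (by simpa using H)⟩
  have h3 := H28.card_eq_of_typ ν h1
  have hle : Geo.scalars ι K ≤ Sim (M : Matrix ι ι K) := fun g hg =>
    center_le_Sim _ (H28.mem_scalars_iff_center.1 hg)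
  rw [h2, Nat.card_congr (Subgroup.subgroupOfEquivOfLe (IsoM_le _)).toEquiv,
    Subgroup.card_eq_card_quotient_mul_card_subgroup ((Geo.scalars ι K).subgroupOf _),
    Nat.card_congr (Subgroup.subgroupOfEquivOfLe hle).toEquiv, mul_comm (Nat.card Kˣ),
    show Nat.card (Geo.scalars ι K) = Nat.card Kˣ from
      (Nat.card_congr (MonoidHom.ofInjective H28.scalarGL_injective).toEquiv).symm] at h3
  exact Nat.eq_of_mul_eq_mul_right Nat.card_pos h3

theorem not_equiv_PGSp [Finite K] (h2 : (2 : K) ≠ 0) {M : GL ι K} (h : (M : Matrix ι ι K)ᵀ = M)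
    {m : ℕ} (hm : Fintype.card ι = 2 * m) (h1 : 1 ≤ m) :
    ¬ Nonempty (projQuot (Sim (M : Matrix ι ι K)) ≃* PGSp m K) := by
  rintro ⟨φ⟩
  have : Nonempty ι := Fintype.card_pos_iff.1 (by omega)
  obtain ⟨N, e, he⟩ := exists_GL_form (ι := ι) (H12.spB (Fin m) K) H12.sd_spB.sep
    (by simp [hm, two_mul])
  have hN : AltM (N : Matrix ι ι K) := fun v => by
    obtain ⟨v, rfl⟩ := e.surjective v
    rw [he, H12.spB_apply']; simp [mul_comm]
  obtain ⟨ψ⟩ := hN.equiv_PGSp hm
  obtain ⟨χ⟩ := iso_equiv (N : Matrix ι ι K)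
  have h3 := Nat.card_congr (φ.trans ψ.symm).toEquiv
  rw [card_projQuot_sim M (exists_mult_symm h2 h hm), card_projQuot_sim N
    (fun c => (hN.exists_mult hm c).imp fun _ H => H.1), Nat.card_congr χ.toEquiv,
    H12.card_UG_sp m hN.sd (by simpa using hm), IsoM_eq_isometryGroup h2 h,
    Nat.card_congr (toOG _).toEquiv, H12.spOrd] at h3
  obtain ⟨k, rfl⟩ : ∃ k, m = k + 1 := ⟨m - 1, by omega⟩
  have hq : 3 ≤ Nat.card K := by
    have := Fintype.ofFinite K
    have h4 := odd_card_of_two_ne_zero h2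
    have h5 := Fintype.one_lt_card (α := K)
    rw [Nat.card_eq_fintype_card]
    obtain ⟨r, hr⟩ := h4
    omega
  have hP : 0 < ∏ i ∈ Finset.range k, (Nat.card K ^ (2 * (i + 1)) - 1) :=
    Finset.prod_pos fun i _ => Nat.sub_pos_of_lt (Nat.one_lt_pow (by omega) (by omega))
  have hx : 3 ≤ Nat.card K ^ (k + 1) := hq.trans (Nat.le_self_pow (by omega) _)
  have e1 : Nat.card K ^ (k + 1) ^ 2 = Nat.card K ^ ((k + 1) * k) * Nat.card K ^ (k + 1) := by
    rw [← pow_add]; congr 1; ring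
  have e2 : Nat.card K ^ (2 * (k + 1)) - 1 =
      (Nat.card K ^ (k + 1) + 1) * (Nat.card K ^ (k + 1) - 1) := by
    rw [mul_comm 2, pow_mul]; simpa using Nat.sq_sub_sq (Nat.card K ^ (k + 1)) 1
  have hy : 0 < Nat.card K ^ ((k + 1) * k) := by positivity
  rw [Finset.prod_range_succ, e1, e2] at h3
  obtain ⟨x, hx'⟩ : ∃ x, Nat.card K ^ (k + 1) = x + 1 := ⟨_, (Nat.sub_add_cancel (by omega)).symm⟩
  by_cases hp : IsPlus (qM (M : Matrix ι ι K))
  · rw [(nd_qM h2 h).card_OG_plus hp h1 (by simpa using hm), Nat.add_sub_cancel, hx',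
      Nat.add_sub_cancel] at h3
    have : 2 = (x + 1) * (x + 1 + 1) := Nat.eq_of_mul_eq_mul_left
      (Nat.mul_pos (Nat.mul_pos hy hP) (show 0 < x by omega)) (by linear_combination h3)
    nlinarith
  · rw [(nd_qM h2 h).card_OG_minus hp h1 (by simpa using hm), Nat.add_sub_cancel, hx',
      Nat.add_sub_cancel] at h3
    have : 2 = (x + 1) * x := Nat.eq_of_mul_eq_mul_left
      (Nat.mul_pos (Nat.mul_pos hy hP) (show 0 < x + 1 + 1 by omega)) (by linear_combination h3)
    nlinarith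

end Cfsg.Agent.H13
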