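import Mathlib
import Cfsg.Agent.H13.GA2

/-!
Involutory graph automorphisms described by symmetric and alternating forms; the linear groups.
-/

set_option autoImplicit false

namespace Cfsg.Agent.H13

open Matrix Module QuadraticMap
open scoped MatrixGroups

variable {ι : Type} [Fintype ι] [DecidableEq ι] {K : Type*} [Field K]

theorem Cg.symm {M M' : Matrix ι ι K} (h : Cg M M') : Cg M' M := by
  obtain ⟨c, e, hc, h⟩ := cg_iff.1 h
  refine cg_iff.2 ⟨c⁻¹, e.symm, inv_ne_zero hc, fun u v => ?_⟩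
  rw [eq_inv_mul_iff_mul_eq₀ hc, ← h]; simp

/-- the involutions with property `I` are described, up to `G`-conjugacy, by forms -/
structure GI {A : Type*} [Group A] (G : Subgroup A) (I : A → Prop) (R : A → GL ι K → Prop) :
    Prop where
  ex : ∀ γ, I γ → orderOf γ = 2 →
    ∃ M, R γ M ∧ ((M : Matrix ι ι K)ᵀ = M ∨ (M : Matrix ι ι K)ᵀ = -M)
  ex' : ∀ M : GL ι K, ((M : Matrix ι ι K)ᵀ = M ∨ (M : Matrix ι ι K)ᵀ = -M) →
    ∃ γ, I γ ∧ orderOf γ = 2 ∧ R γ M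
  conj : ∀ {γ γ' M M'}, R γ M → R γ' M' → (IsConjUnder G γ γ' ↔ Cg (M : Matrix ι ι K) M')
  cent : ∀ {γ M}, R γ M →
    Nonempty (↥(G ⊓ Subgroup.centralizer {γ}) ≃* projQuot (Sim (M : Matrix ι ι K)))

theorem exists_alt {m : ℕ} (hm : Fintype.card ι = 2 * m) :
    ∃ N : GL ι K, AltM (N : Matrix ι ι K) := by
  obtain ⟨N, e, he⟩ := exists_GL_form (ι := ι) (H12.spB (Fin m) K) H12.sd_spB.sep
    (by simp [hm, two_mul])
  refine ⟨N, fun v => ?_⟩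
  obtain ⟨v, rfl⟩ := e.surjective v
  rw [he, H12.spB_apply']; simp [mul_comm]

theorem not_alt_one [Nonempty ι] : ¬ AltM ((1 : GL ι K) : Matrix ι ι K) := fun h => by
  simpa [toBilin'_apply'] using h (Pi.single (Classical.arbitrary ι) 1)

theorem not_alt_of_symm (h2 : (2 : K) ≠ 0) [Nonempty ι] {M : GL ι K}
    (h : (M : Matrix ι ι K)ᵀ = M) : ¬ AltM (M : Matrix ι ι K) := fun ha => by
  have : (2 : K) • (M : Matrix ι ι K) = (0 : K) • (M : Matrix ι ι K) := by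
    rw [two_smul, zero_smul, ← eq_neg_iff_add_eq_zero, ← ha.skew, h]
  exact h2 (smul_GL_inj M this)

theorem Nonempty.mulEquiv_trans {A B C : Type*} [Group A] [Group B] [Group C]
    (h : Nonempty (A ≃* B)) (h' : Nonempty (B ≃* C)) : Nonempty (A ≃* C) :=
  ⟨h.some.trans h'.some⟩

theorem equiv_PGO_plus (h2 : (2 : K) ≠ 0) {M : GL ι K} (h : (M : Matrix ι ι K)ᵀ = M) {m : ℕ}
    (hm : Fintype.card ι = 2 * m) (hP : IsPlus (qM (M : Matrix ι ι K))) :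
    Nonempty (projQuot (Sim (M : Matrix ι ι K)) ≃* PGO K (quadFormPlus m K)) := by
  obtain ⟨e, he⟩ := (nd_qM h2 h).equiv_QPlus hP (m := m) (by simpa using hm)
  exact equiv_PGO h2 h e one_ne_zero fun v => (he v).trans (one_mul _).symm

variable [Finite K]

theorem equiv_PGO_minus (h2 : (2 : K) ≠ 0) {M : GL ι K} (h : (M : Matrix ι ι K)ᵀ = M) {m : ℕ}
    (hm : Fintype.card ι = 2 * m) (h1 : 1 ≤ m) (hP : ¬ IsPlus (qM (M : Matrix ι ι K))) {a b : K}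
    (hab : ∀ z₁ z₂ : K, z₁ ^ 2 + a * z₁ * z₂ + b * z₂ ^ 2 = 0 → z₁ = 0 ∧ z₂ = 0) :
    Nonempty (projQuot (Sim (M : Matrix ι ι K)) ≃* PGO K (quadFormMinus (m - 1) K a b)) := by
  obtain ⟨e, he⟩ := (nd_qM h2 h).equiv_QMinus hP (m := m - 1)
    (by rw [finrank_fintype_fun_eq_card]; omega) hab
  exact equiv_PGO h2 h e one_ne_zero fun v => (he v).trans (one_mul _).symm

theorem isPlus_one_iff {K : Type*} [Field K] [Fintype K] (hodd : Odd (Fintype.card K)) {m : ℕ}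
    (hm : Fintype.card ι = 2 * m) :
    IsPlus (qM ((1 : GL ι K) : Matrix ι ι K)) ↔ Fintype.card K ^ m % 4 = 1 := by
  have h2 := two_ne_zero_of_odd_card hodd
  have hN := nd_qM h2 (M := (1 : GL ι K)) (by simp)
  rw [hN.isPlus_iff_disc h2 (m := m) (by simpa using hm), hN.disc_eq (Pi.basisFun K ι),
    gdet_of_orthogonal _ _ fun i j hij => by
      simp [polar_qM, toBilin'_apply', one_apply_ne hij],
    ← sgn_neg_one_pow_eq_one_iff hodd, eq_comm]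
  have : ∏ i : ι, polarBilin (qM ((1 : GL ι K) : Matrix ι ι K)) (Pi.basisFun K ι i)
      (Pi.basisFun K ι i) = ((2 : K) ^ m) ^ 2 * 1 := by
    rw [Finset.prod_congr rfl (g := fun _ => (2 : K)) fun i _ => by
      simp [qM_apply, toBilin'_apply'], Finset.prod_const, Finset.card_univ, hm, ← pow_mul,
      mul_comm m, mul_one]
  rw [this, sgn_sq_mul (pow_ne_zero _ h2) one_ne_zero, sgn_one]

namespace GI

variable {A : Type*} [Group A] {G : Subgroup A} {I : A → Prop} {R : A → GL ι K → Prop}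

theorem odd (h : GI G I R) {m : ℕ} (hm : Fintype.card ι = 2 * m + 1) {γ γ' : A} (h1 : I γ)
    (h2 : orderOf γ = 2) (h1' : I γ') (h2' : orderOf γ' = 2) :
    Nonempty (↥(G ⊓ Subgroup.centralizer {γ}) ≃* PGO K (quadFormOdd m K)) ∧
      IsConjUnder G γ γ' := by
  obtain ⟨M, hR, hM⟩ := h.ex γ h1 h2
  obtain ⟨M', hR', hM'⟩ := h.ex γ' h1' h2'
  replace hM := symm_of_odd hM ⟨m, hm⟩
  replace hM' := symm_of_odd hM' ⟨m, hm⟩
  exact ⟨Nonempty.mulEquiv_trans (h.cent hR) (equiv_PGO_odd hM hm),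
    (h.conj hR hR').2 (cg_of_odd hM hM' hm)⟩

theorem even_odd (h : GI G I R) (h2 : (2 : K) ≠ 0) {m : ℕ} (h1 : 1 ≤ m)
    (hm : Fintype.card ι = 2 * m) : ∃ (γ₁ γ₂ γ₃ : A) (a b : K),
    (∀ z₁ z₂ : K, z₁ ^ 2 + a * z₁ * z₂ + b * z₂ ^ 2 = 0 → z₁ = 0 ∧ z₂ = 0) ∧ I γ₁ ∧
    orderOf γ₁ = 2 ∧ I γ₂ ∧ orderOf γ₂ = 2 ∧ I γ₃ ∧ orderOf γ₃ = 2 ∧ ¬ IsConjUnder G γ₁ γ₂ ∧
    ¬ IsConjUnder G γ₁ γ₃ ∧ ¬ IsConjUnder G γ₂ γ₃ ∧ (∀ γ, I γ → orderOf γ = 2 →
      IsConjUnder G γ₁ γ ∨ IsConjUnder G γ₂ γ ∨ IsConjUnder G γ₃ γ) ∧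
    Nonempty (↥(G ⊓ Subgroup.centralizer {γ₁}) ≃* PGSp m K) ∧
    Nonempty (↥(G ⊓ Subgroup.centralizer {γ₂}) ≃* PGO K (quadFormPlus m K)) ∧
    Nonempty (↥(G ⊓ Subgroup.centralizer {γ₃}) ≃* PGO K (quadFormMinus (m - 1) K a b)) := by
  have : Nonempty ι := Fintype.card_pos_iff.1 (by omega)
  obtain ⟨a, b, hab⟩ := exists_anisotropic_binary K
  obtain ⟨M₁, s₁⟩ := exists_alt (K := K) hm
  obtain ⟨M₂, e₂, s₂, q₂⟩ := exists_GL_quad (ι := ι) h2 (nd_QPlus (m := m) (F := K))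
    (by simp [hm, two_mul])
  obtain ⟨M₃, e₃, s₃, q₃⟩ := exists_GL_quad (ι := ι) h2 (nd_QMinus (m := m - 1) hab)
    (by simp [hm]; omega)
  have p₂ := (isPlus_iff_of_sim e₂ h2 q₂).2 (isPlus_QPlus m)
  have p₃ := mt (isPlus_iff_of_sim e₃ h2 q₃).1 (not_isPlus_QMinus hab)
  obtain ⟨γ₁, i₁, o₁, r₁⟩ := h.ex' M₁ (.inr s₁.skew)
  obtain ⟨γ₂, i₂, o₂, r₂⟩ := h.ex' M₂ (.inl s₂)
  obtain ⟨γ₃, i₃, o₃, r₃⟩ := h.ex' M₃ (.inl s₃)
  refine ⟨γ₁, γ₂, γ₃, a, b, hab, i₁, o₁, i₂, o₂, i₃, o₃,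
    fun H => not_alt_of_symm h2 s₂ (((h.conj r₁ r₂).1 H).alt.1 s₁),
    fun H => not_alt_of_symm h2 s₃ (((h.conj r₁ r₃).1 H).alt.1 s₁),
    fun H => p₃ (((cg_iff_isPlus h2 s₂ s₃ hm).1 ((h.conj r₂ r₃).1 H)).1 p₂), fun γ i o => ?_,
    Nonempty.mulEquiv_trans (h.cent r₁) (s₁.equiv_PGSp hm),
    Nonempty.mulEquiv_trans (h.cent r₂) (equiv_PGO_plus h2 s₂ hm p₂),
    Nonempty.mulEquiv_trans (h.cent r₃) (equiv_PGO_minus h2 s₃ hm h1 p₃ hab)⟩
  obtain ⟨M, r, s | s⟩ := h.ex γ i o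
  · by_cases p : IsPlus (qM (M : Matrix ι ι K))
    · exact .inr (.inl ((h.conj r₂ r).2 ((cg_iff_isPlus h2 s₂ s hm).2 (iff_of_true p₂ p))))
    · exact .inr (.inr ((h.conj r₃ r).2 ((cg_iff_isPlus h2 s₃ s hm).2 (iff_of_false p₃ p))))
  · exact .inl ((h.conj r₁ r).2 (s₁.cg (alt_of_skew h2 s)))

theorem even_two (h : GI G I R) [CharP K 2] {m : ℕ} (h1 : 1 ≤ m)
    (hm : Fintype.card ι = 2 * m) : ∃ (γ₁ γ₃ : A) (t : symplecticGroup (Fin m) K),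
    IsTransvection (t : Matrix (Fin m ⊕ Fin m) (Fin m ⊕ Fin m) K) ∧ I γ₁ ∧ orderOf γ₁ = 2 ∧ I γ₃ ∧
    orderOf γ₃ = 2 ∧ ¬ IsConjUnder G γ₁ γ₃ ∧ (∀ γ, I γ → orderOf γ = 2 →
      IsConjUnder G γ₁ γ ∨ IsConjUnder G γ₃ γ) ∧
    Nonempty (↥(G ⊓ Subgroup.centralizer {γ₁}) ≃* symplecticGroup (Fin m) K) ∧
    Nonempty (↥(G ⊓ Subgroup.centralizer {γ₃}) ≃*
      Subgroup.centralizer ({t} : Set (symplecticGroup (Fin m) K))) := by
  have : Nonempty ι := Fintype.card_pos_iff.1 (by omega)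
  obtain ⟨M₁, s₁⟩ := exists_alt (K := K) hm
  obtain ⟨γ₁, i₁, o₁, r₁⟩ := h.ex' M₁ (.inr s₁.skew)
  obtain ⟨γ₃, i₃, o₃, r₃⟩ := h.ex' 1 (.inl (by simp))
  obtain ⟨t, ht, e⟩ := equiv_cent_two (M := (1 : GL ι K)) (by simp) not_alt_one hm
  refine ⟨γ₁, γ₃, t, ht, i₁, o₁, i₃, o₃, fun H => not_alt_one (((h.conj r₁ r₃).1 H).alt.1 s₁),
    fun γ i o => ?_, Nonempty.mulEquiv_trans (h.cent r₁) (s₁.equiv_sp_two hm h1),
    Nonempty.mulEquiv_trans (h.cent r₃) e⟩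
  obtain ⟨M, r, s⟩ := h.ex γ i o
  by_cases p : AltM (M : Matrix ι ι K)
  · exact .inl ((h.conj r₁ r).2 (s₁.cg p))
  · exact .inr ((h.conj r₃ r).2 (cg_two (by simp) (symm_of_two s) (iff_of_false not_alt_one p)))

theorem split (h : GI G I R) (h1 : 2 ≤ Fintype.card ι) {γ : A} (i : I γ) (o : orderOf γ = 2)
    {c N : ℕ} {P : Prop} (hP : P ↔ (2 : K) ≠ 0)
    (hS : ∀ M m, R γ M → AltM (M : Matrix ι ι K) → Fintype.card ι = 2 * m → c = Nat.gcd m N)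
    (hO : ∀ M m, R γ M → (M : Matrix ι ι K)ᵀ = M → (2 : K) ≠ 0 → Fintype.card ι = 2 * m →
      c = Nat.gcd (2 * m) N / 2)
    (hT : ∀ M, R γ M → Odd (Fintype.card ι) ∨ (2 : K) = 0 → c = Nat.gcd (Fintype.card ι) N) :
    ((Even (Fintype.card ι) ∧ P ∧ Nonempty (↥(G ⊓ Subgroup.centralizer {γ}) ≃*
      PGSp (Fintype.card ι / 2) K)) → c = Nat.gcd (Fintype.card ι / 2) N) ∧
    ((Even (Fintype.card ι) ∧ P ∧ ¬ Nonempty (↥(G ⊓ Subgroup.centralizer {γ}) ≃*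
      PGSp (Fintype.card ι / 2) K)) → c = Nat.gcd (Fintype.card ι) N / 2) ∧
    (¬ (Even (Fintype.card ι) ∧ P) → c = Nat.gcd (Fintype.card ι) N) := by
  obtain ⟨M, r, s⟩ := h.ex γ i o
  refine ⟨fun ⟨he, h2, e⟩ => ?_, fun ⟨he, h2, e⟩ => ?_, fun H => hT M r ?_⟩
  · have hm : Fintype.card ι = 2 * (Fintype.card ι / 2) := (Nat.two_mul_div_two_of_even he).symm
    refine hS M _ r (alt_of_skew (hP.1 h2) (s.resolve_left fun s => ?_)) hm
    obtain ⟨e'⟩ := h.cent r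
    exact not_equiv_PGSp (hP.1 h2) s hm (by omega) ⟨e'.symm.trans e.some⟩
  · have hm : Fintype.card ι = 2 * (Fintype.card ι / 2) := (Nat.two_mul_div_two_of_even he).symm
    rw [hO M _ r (s.resolve_right fun s => e (Nonempty.mulEquiv_trans (h.cent r)
      ((alt_of_skew (hP.1 h2) s).equiv_PGSp hm))) (hP.1 h2) hm, ← hm]
  · rw [← Nat.not_even_iff_odd]; tauto

end GI

section Cyc
variable {C : Type*} [CommGroup C] [Finite C] [IsCyclic C] {D : Subgroup C}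

theorem cnt_S {m : ℕ} (h : ∀ x, x ∈ D ↔ ∃ c, x = c ^ m) :
    Nat.gcd (Nat.gcd (Nat.card C) (2 * m)) D.index = Nat.gcd m (Nat.card C) := by
  have : D = (powMonoidHom m).range := Subgroup.ext fun x => (h x).trans (exists_congr fun _ =>
    eq_comm)
  rw [this, IsCyclic.index_powMonoidHom_range, Nat.gcd_eq_right
    (Nat.gcd_dvd_gcd_mul_left_right _ _ _), Nat.gcd_comm]

theorem cnt_O {m : ℕ} {s : C} (hs : orderOf s = 2)
    (h : ∀ x, x ∈ D ↔ ∃ c, x = c ^ m ∨ x = s * c ^ m) :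
    Nat.gcd (Nat.gcd (Nat.card C) (2 * m)) D.index = Nat.gcd (2 * m) (Nat.card C) / 2 := by
  have : D = (powMonoidHom m).range ⊔ Subgroup.zpowers s := by
    refine le_antisymm (fun x hx => ?_) (sup_le ?_ ?_)
    · obtain ⟨c, rfl | rfl⟩ := (h x).1 hx
      · exact Subgroup.mem_sup_left ⟨c, rfl⟩
      · exact mul_mem (Subgroup.mem_sup_right (Subgroup.mem_zpowers s))
          (Subgroup.mem_sup_left ⟨c, rfl⟩)
    · rintro _ ⟨c, rfl⟩
      exact (h _).2 ⟨c, .inl rfl⟩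
    · exact Subgroup.zpowers_le.2 ((h _).2 ⟨1, .inr (by simp)⟩)
  have h2 := (Subgroup.zpowers s).index_mul_card
  rw [Nat.card_zpowers, hs] at h2
  rw [this, H28.index_sup_cyclic, IsCyclic.index_powMonoidHom_range, ← h2, mul_comm _ 2,
    Nat.gcd_mul_left, Nat.gcd_mul_left, Nat.mul_div_cancel_left _ two_pos,
    Nat.gcd_comm (2 * _) m, Nat.gcd_assoc, Nat.gcd_mul_left_left, Nat.gcd_comm _ m,
    Nat.gcd_mul_left_left]

theorem cnt_T {n : ℕ} (h : ∀ x ∈ D, ∃ c, x = c ^ n) :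
    Nat.gcd (Nat.gcd (Nat.card C) n) D.index = Nat.gcd n (Nat.card C) := by
  have : D ≤ (powMonoidHom n).range := fun x hx => (h x hx).imp fun _ => Eq.symm
  have h2 := Subgroup.index_dvd_of_le this
  rw [IsCyclic.index_powMonoidHom_range] at h2
  rw [Nat.gcd_eq_left h2, Nat.gcd_comm]

end Cyc

/-! ### the linear groups -/

section PSL

omit [Finite K] in
theorem conj_dPSL (k g : GL ι K) :
    H28.dPSL ι K k * (H28.dPSL ι K g * H28.iPSL ι K) * (H28.dPSL ι K k)⁻¹ =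
      H28.dPSL ι K (k * g * H28.trGL k) * H28.iPSL ι K := by
  rw [← map_inv, mul_assoc, mul_assoc, H28.iPSL_mul_dPSL, ← mul_assoc, ← mul_assoc, ← map_mul,
    ← map_mul, H28.invT_apply, inv_inv]

omit [Finite K] in
theorem conj_dPSL_iff {k M M' : GL ι K} : H28.dPSL ι K M'⁻¹ * H28.iPSL ι K =
    H28.dPSL ι K k * (H28.dPSL ι K M⁻¹ * H28.iPSL ι K) * (H28.dPSL ι K k)⁻¹ ↔
      ∃ c : Kˣ, (k : Matrix ι ι K)ᵀ * M' * k = (c : K) • (M : Matrix ι ι K) := by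
  rw [conj_dPSL, mul_left_inj, H28.dPSL_eq_iff]
  refine exists_congr fun c => ?_
  rw [← H28.coe_scalar_mul, ← H28.coe_trGL, ← Units.val_mul, ← Units.val_mul, Units.val_inj]
  have := Subgroup.mem_center_iff.1 (H28.scalar_mem_center (ι := ι) c)
  constructor
  · intro h
    calc _ = M * k⁻¹ * (k * M⁻¹ * H28.trGL k) * M' * k := by group
    _ = _ := by rw [h, ← this M]; simp only [mul_assoc, inv_mul_cancel_left, ← this k]
  · intro h
    calc _ = k * M⁻¹ * (H28.trGL k * M' * k) * k⁻¹ * M'⁻¹ := by group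
    _ = _ := by rw [h, ← this M, ← this M'⁻¹]; simp only [mul_assoc, ← this]; group

omit [Finite K] in
theorem comap_PSL (M : GL ι K) :
    (Subgroup.centralizer {H28.dPSL ι K M⁻¹ * H28.iPSL ι K}).comap (H28.dPSL ι K) =
      Subgroup.center (GL ι K) ⊔ Sim (M : Matrix ι ι K) := by
  rw [sup_eq_right.2 (center_le_Sim _)]
  ext k
  rw [mem_Sim, ← conj_dPSL_iff, Subgroup.mem_comap, Subgroup.mem_centralizer_singleton_iff,
    eq_mul_inv_iff_mul_eq, eq_comm]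

omit [Finite K] in
theorem symm_or_skew_of_smul [Nonempty ι] {M : GL ι K} {c : K}
    (h : (M : Matrix ι ι K)ᵀ = c • (M : Matrix ι ι K)) :
    (M : Matrix ι ι K)ᵀ = M ∨ (M : Matrix ι ι K)ᵀ = -M := by
  have := congrArg transpose h
  rw [transpose_transpose, transpose_smul, h, smul_smul] at this
  have h1 : c * c = 1 := smul_GL_inj M (by rw [← this, one_smul])
  rcases mul_self_eq_one_iff.1 h1 with rfl | rfl
  · exact .inl (by simpa using h)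
  · exact .inr (by simpa using h)

omit [Finite K] in
theorem sq_dPSL_iff {M : GL ι K} : (H28.dPSL ι K M⁻¹ * H28.iPSL ι K) ^ 2 = 1 ↔
    ∃ c : Kˣ, (M : Matrix ι ι K)ᵀ = (c : K) • (M : Matrix ι ι K) := by
  rw [H28.mul_pow_eq_nrm _ H28.iPSL_mul_dPSL, pow_two, H28.iPSL_mul_iPSL, mul_one, H28.nrm_two,
    map_mul, map_inv, inv_mul_eq_one, H28.dPSL_eq_iff, H28.invT_apply, inv_inv]
  refine exists_congr fun c => ?_
  rw [← H28.coe_scalar_mul, ← H28.coe_trGL, Units.val_inj]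

theorem gi_PSL {n : ℕ} (hn : 3 ≤ n) : GI (inndiagPSL n K) IsGraphAutClassPSL
    fun γ (M : GL (Fin n) K) => γ = H28.dPSL _ K M⁻¹ * H28.iPSL _ K := by
  have : Nonempty (Fin n) := ⟨⟨0, by omega⟩⟩
  rw [H28.inndiagPSL_eq]
  refine ⟨fun γ ⟨_, δ, ε, h1, h2, h3⟩ ho => ?_, fun M h => ⟨_, ?_, ?_, rfl⟩, ?_, ?_⟩
  · obtain ⟨g, hg⟩ := H28.isInnerDiagonalAutPSL_iff.1 h1
    rw [H28.isInverseTransposeAutPSL_iff.1 h2, ← hg, ← inv_inv g] at h3
    obtain ⟨c, hc⟩ := (sq_dPSL_iff (M := g⁻¹)).1 (by rw [← h3, ← ho, pow_orderOf_eq_one])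
    exact ⟨g⁻¹, h3, symm_or_skew_of_smul hc⟩
  · exact ⟨hn, _, _, H28.isInnerDiagonalAutPSL_iff.2 ⟨_, rfl⟩,
      H28.isInverseTransposeAutPSL_iff.2 rfl, rfl⟩
  · refine orderOf_eq_prime (sq_dPSL_iff.2 ?_)
      fun H => H28.iPSL_not_mem_gam (ι := Fin n) (F := K) (by simpa using hn) ?_
    · exact h.elim (fun h => ⟨1, by simpa using h⟩) fun h => ⟨-1, by simpa using h⟩
    · rw [eq_inv_of_mul_eq_one_right H]
      exact inv_mem (H28.dPSL_mem_gam _)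
  · intro γ γ' M M' h h'
    rw [h, h']
    constructor
    · rintro ⟨_, ⟨k, rfl⟩, h⟩
      obtain ⟨c, hc⟩ := conj_dPSL_iff.1 h
      exact Cg.symm ⟨c, k, hc⟩
    · intro h
      obtain ⟨c, k, hc⟩ := h.symm
      exact ⟨_, ⟨k, rfl⟩, conj_dPSL_iff.2 ⟨c, hc⟩⟩
  · intro γ M h
    rw [h]
    exact H28.nonempty_centralizer_equiv_PSL _ (Sim (M : Matrix (Fin n) (Fin n) K)).subtype
      ((Geo.scalars (Fin n) K).subgroupOf _)
      ((comap_PSL M).trans (by rw [Subgroup.range_subtype]))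
      fun e => H28.mem_scalars_iff_center.symm

theorem split_PSL [Nonempty ι] (M : GL ι K) :
    splitClassCount (H28.dPSL ι K).range (Inn _) (H28.dPSL ι K M⁻¹ * H28.iPSL ι K) =
      Nat.gcd (Nat.gcd (Nat.card Kˣ) (Fintype.card ι))
        ((Sim (M : Matrix ι ι K)).map (GeneralLinearGroup.det : GL ι K →* Kˣ)).index := by
  rw [H28.splitClassCount_PSL _ _ (comap_PSL M), Nat.card_units]

omit [Finite K] in
theorem orderOf_neg_one_units (h2 : (2 : K) ≠ 0) : orderOf (-1 : Kˣ) = 2 :=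
  orderOf_eq_prime (by simp) fun h => h2 (by
    have := congrArg Units.val h
    simp only [Units.val_neg, Units.val_one] at this
    linear_combination -this)

omit [Finite K] in
theorem mul_sim {M : Matrix ι ι K} {g k : GL ι K} {c d : K}
    (h : (g : Matrix ι ι K)ᵀ * M * g = c • M) (h' : (k : Matrix ι ι K)ᵀ * M * k = d • M) :
    ((g * k : GL ι K) : Matrix ι ι K)ᵀ * M * (g * k : GL ι K) = (c * d) • M := by
  rw [Units.val_mul, transpose_mul, show (k : Matrix ι ι K)ᵀ * (g : Matrix ι ι K)ᵀ * M * (g * k) =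
    (k : Matrix ι ι K)ᵀ * ((g : Matrix ι ι K)ᵀ * M * g) * k by simp only [mul_assoc], h,
    mul_smul_comm, smul_mul_assoc, h', smul_smul]

theorem exists_mult_det (h2 : (2 : K) ≠ 0) {M : GL ι K} (h : (M : Matrix ι ι K)ᵀ = M)
    {m : ℕ} (hm : Fintype.card ι = 2 * m) [Nonempty ι] (c : Kˣ) :
    (∃ g : GL ι K, (g : Matrix ι ι K)ᵀ * M * g = (c : K) • (M : Matrix ι ι K) ∧
      GeneralLinearGroup.det g = c ^ m) ∧
    ∃ g : GL ι K, (g : Matrix ι ι K)ᵀ * M * g = (c : K) • (M : Matrix ι ι K) ∧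
      GeneralLinearGroup.det g = -c ^ m := by
  obtain ⟨g, hg⟩ := exists_mult_symm h2 h hm c
  obtain ⟨k, hk, hd⟩ := exists_det_neg h2 h
  have := mul_sim hg (d := 1) (by simpa using mem_IsoM.1 hk)
  rw [mul_one] at this
  rcases det_of_sim_even hg hm with H | H
  · exact ⟨⟨g, hg, H⟩, _, this, by simp [H, hd]⟩
  · exact ⟨⟨_, this, by simp [H, hd]⟩, g, hg, H⟩

end PSL

end Cfsg.Agent.H13
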