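import Mathlib
import Cfsg.Agent.H13.GA3

/-!
Involutory graph automorphisms of the unitary groups.
-/

set_option autoImplicit false

namespace Cfsg.Agent.H13

open Matrix Module H28
open scoped MatrixGroups

theorem equiv_of_common {S A B T : Type*} [Group S] [Group A] [Group B] [Group T] (a : S →* A)
    (b : S →* B) (c : T →* B) (hk : a.ker = b.ker) (hr : b.range = c.range) (N : Subgroup T)
    [N.Normal] (hN : c.ker = N) : Nonempty (a.range ≃* T ⧸ N) :=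
  ⟨(QuotientGroup.quotientKerEquivRange a).symm.trans ((QuotientGroup.quotientMulEquivOfEq hk).trans
    ((QuotientGroup.quotientKerEquivRange b).trans ((MulEquiv.subgroupCongr hr).trans
      ((QuotientGroup.quotientKerEquivRange c).symm.trans
        (QuotientGroup.quotientMulEquivOfEq hN)))))⟩

variable {F K : Type*} [Field F] [Field K]

section Mat
variable {ι : Type} [Fintype ι] [DecidableEq ι] {θ : F ≃+* F} {j : K →+* F}

theorem cT_map (hj : ∀ x, x ∈ Set.range j ↔ θ x = x) (A : Matrix ι ι K) :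
    cT θ (A.map j) = Aᵀ.map j := by
  ext a b
  exact (hj _).1 ⟨_, rfl⟩

theorem cT_inv_cancel (θ : F ≃+* F) (k : GL ι F) :
    cT θ (k : Matrix ι ι F) * cT θ ((k⁻¹ : GL ι F) : Matrix ι ι F) = 1 := by
  rw [← cT_mul, Units.inv_mul, cT_one]

theorem cT_conj_inj (θ : F ≃+* F) (k : GL ι F) {A B : Matrix ι ι F} :
    cT θ (k : Matrix ι ι F) * A * k = cT θ (k : Matrix ι ι F) * B * k ↔ A = B := by
  rw [← coe_uniT_inv, Units.mul_left_inj, Units.mul_right_inj]

theorem unitary_iff (hj : ∀ x, x ∈ Set.range j ↔ θ x = x) {k k' : GL ι F} {δ δ' : F}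
    {M M' : Matrix ι ι K} (h : cT θ (k : Matrix ι ι F) * k = δ • M.map j)
    (h' : cT θ (k' : Matrix ι ι F) * k' = δ' • M'.map j) (w : Fˣ) (y : GL ι K) (c : F) :
    cT θ ((GeneralLinearGroup.scalar ι w * (k' * GeneralLinearGroup.map j y * k⁻¹) : GL ι F) :
      Matrix ι ι F) * (GeneralLinearGroup.scalar ι w * (k' * GeneralLinearGroup.map j y * k⁻¹) :
        GL ι F) = c • (1 : Matrix ι ι F) ↔
      (θ w * w * δ') • ((y : Matrix ι ι K)ᵀ * M' * y).map j = (c * δ) • M.map j := by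
  rw [← cT_conj_inj θ k, mul_smul_comm, smul_mul_assoc, mul_one, h, smul_smul, mul_assoc, mul_assoc,
    ← Units.val_mul, ← mul_assoc, ← cT_mul, ← Units.val_mul, mul_assoc, inv_mul_cancel_right,
    coe_scalar_mul, cT_smul, smul_mul_smul_comm, Units.val_mul, cT_mul, mul_assoc,
    ← mul_assoc (cT θ k'.1), h', show (GeneralLinearGroup.map j y).1 = y.1.map j from rfl,
    cT_map hj, smul_mul_assoc, mul_smul_comm, smul_smul, ← mul_assoc, Matrix.map_mul,
    Matrix.map_mul]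

theorem exists_of_smul_map [Nonempty ι] {A : Matrix ι ι K} {M : GL ι K} {a b : F} (ha : a ≠ 0)
    (hb : b ≠ 0) (h : a • A.map j = b • (M : Matrix ι ι K).map j) :
    ∃ c : Kˣ, A = (c : K) • (M : Matrix ι ι K) ∧ a * j c = b := by
  obtain ⟨r, s, hrs⟩ : ∃ r s, (M : Matrix ι ι K) r s ≠ 0 := by
    by_contra! H
    exact M.ne_zero (Matrix.ext H)
  have h1 : ∀ r s, a * j (A r s) = b * j ((M : Matrix ι ι K) r s) := fun r s =>
    congrFun (congrFun h r) s
  have h2 : a * j (A r s / (M : Matrix ι ι K) r s) = b := by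
    rw [map_div₀, ← mul_div_assoc, h1, mul_div_cancel_right₀ _ ((map_ne_zero j).2 hrs)]
  refine ⟨Units.mk0 _ (fun h0 => hb (by rw [← h2, h0, map_zero, mul_zero])), ?_, h2⟩
  ext r' s'
  refine j.injective (mul_left_cancel₀ ha ?_)
  rw [h1, Matrix.smul_apply, smul_eq_mul, map_mul, ← mul_assoc, Units.val_mk0, h2]

theorem πGL_rel {g k : GL ι F} {z : Fˣ} (h : g * fieldGL ι F θ k = GeneralLinearGroup.scalar ι z * k) :
    πGL ι F g = πGL ι F k * (πGL ι F (fieldGL ι F θ k))⁻¹ := by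
  rw [eq_mul_inv_iff_mul_eq, ← map_mul, h, map_mul, πGL_scalar, one_mul]

end Mat

variable [Fintype F] {n q : ℕ} (hF : Fintype.card F = q ^ 2)

/-- the form describing a graph involution of a unitary group -/
def RU (n : ℕ) (θ : F ≃+* F) (j : K →+* F) (γ : MulAut (PSU n F q)) (M : GL (Fin n) K) : Prop :=
  ∃ (g : (dataSU n hF).Δ) (k : GL (Fin n) F) (z δ : Fˣ),
    γ = (dataSU n hF).d g * (dataSU n hF).f θ ∧
    g.1 * fieldGL _ F θ k = GeneralLinearGroup.scalar _ z * k ∧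
    cT θ (k : Matrix (Fin n) (Fin n) F) * k = (δ : F) • (M : Matrix (Fin n) (Fin n) K).map j

variable {θ : F ≃+* F} {j : K →+* F}

theorem d_eq_iff_π (hn : 3 ≤ n) {g g' : (dataSU n hF).Δ} :
    (dataSU n hF).d g = (dataSU n hF).d g' ↔ πGL _ F g'.1 = πGL _ F g.1 := by
  rw [(triv_SU hF hn).d_eq_iff, πGL_eq_iff]

theorem conj_SU_iff (hn : 3 ≤ n) (hj : ∀ x, x ∈ Set.range j ↔ θ x = x)
    {g g' x : (dataSU n hF).Δ} {k k' : GL (Fin n) F} {z z' : Fˣ}
    (h : g.1 * fieldGL _ F θ k = GeneralLinearGroup.scalar _ z * k)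
    (h' : g'.1 * fieldGL _ F θ k' = GeneralLinearGroup.scalar _ z' * k') :
    (dataSU n hF).d g' * (dataSU n hF).f θ = (dataSU n hF).d x *
      ((dataSU n hF).d g * (dataSU n hF).f θ) * ((dataSU n hF).d x)⁻¹ ↔
    ∃ (w : Fˣ) (y : GL (Fin n) K), (x : GL (Fin n) F) =
      GeneralLinearGroup.scalar _ w * (k' * GeneralLinearGroup.map j y * k⁻¹) := by
  rw [← map_inv, mul_assoc, mul_assoc, MatData.f_mul_d, ← mul_assoc, ← mul_assoc, ← map_mul,
    ← map_mul, mul_left_inj, d_eq_iff_π hF hn, Subgroup.coe_mul, Subgroup.coe_mul,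
    MatData.coe_fΔ, map_mul, map_mul, πGL_rel h, πGL_rel h']
  have key : πGL _ F x.1 * (πGL _ F k * (πGL _ F (fieldGL _ F θ k))⁻¹) *
      πGL _ F (fieldGL _ F θ (x⁻¹ : (dataSU n hF).Δ).1) =
      πGL _ F k' * (πGL _ F (fieldGL _ F θ k'))⁻¹ ↔
      πGL _ F (k'⁻¹ * x.1 * k) = πGL _ F (fieldGL _ F θ (k'⁻¹ * x.1 * k)) := by
    simp only [map_mul, map_inv, Subgroup.coe_inv]
    rw [← mul_inv_eq_one, ← mul_inv_eq_one (a := _ * πGL _ F k), ← conj_eq_one_iff
      (a := (πGL _ F k')⁻¹)]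
    apply Eq.congr_left; group
  rw [key]
  constructor
  · intro H
    obtain ⟨w, y, hy⟩ := exists_map_of_πGL_eq hj H
    refine ⟨w, y, ?_⟩
    rw [← mul_assoc, ← mul_assoc, ← Subgroup.mem_center_iff.1 (scalar_mem_center w), mul_assoc k',
      ← hy]
    group
  · rintro ⟨w, y, hy⟩
    have : k'⁻¹ * x.1 * k = GeneralLinearGroup.scalar _ w * GeneralLinearGroup.map j y := by
      rw [hy, ← mul_assoc, Subgroup.mem_center_iff.1 (scalar_mem_center w)]; group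
    rw [this, map_mul, map_mul, map_mul, fieldGL_scalar', πGL_scalar, πGL_scalar, fieldGL_map hj]

theorem exists_unitary (hθ : ∀ a, θ a = a ^ q) (hj : ∀ x, x ∈ Set.range j ↔ θ x = x)
    {k k' : GL (Fin n) F} {δ δ' : Fˣ} {M M' : Matrix (Fin n) (Fin n) K}
    (h : cT θ (k : Matrix (Fin n) (Fin n) F) * k = (δ : F) • M.map j)
    (h' : cT θ (k' : Matrix (Fin n) (Fin n) F) * k' = (δ' : F) • M'.map j) {y : GL (Fin n) K}
    {c : Kˣ} (hy : (y : Matrix (Fin n) (Fin n) K)ᵀ * M' * y = (c : K) • M) :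
    ∃ (w : Fˣ) (x : (dataSU n hF).Δ), (x : GL (Fin n) F) =
      GeneralLinearGroup.scalar _ w * (k' * GeneralLinearGroup.map j y * k⁻¹) := by
  have := (unitary_iff hj h h' 1 y (δ' * j c / δ)).2 (by
    rw [hy, Matrix.map_smul' _ _ _ (map_mul j), smul_smul]; simp)
  obtain ⟨z, x, hx, e⟩ := exists_uniT_of_smul (orderOf_eq_two_of_pow hF hθ) (by simp) this
  refine ⟨z⁻¹, ⟨x, (mem_GU_iff_uniT hθ).2 hx⟩, ?_⟩
  rw [map_one, one_mul] at e
  rw [e, map_inv, inv_mul_cancel_left]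

theorem of_unitary (hn : 3 ≤ n) (hθ : ∀ a, θ a = a ^ q) (hj : ∀ x, x ∈ Set.range j ↔ θ x = x)
    {k k' : GL (Fin n) F} {δ δ' : Fˣ} {M : GL (Fin n) K} {M' : Matrix (Fin n) (Fin n) K}
    (h : cT θ (k : Matrix (Fin n) (Fin n) F) * k = (δ : F) • (M : Matrix (Fin n) (Fin n) K).map j)
    (h' : cT θ (k' : Matrix (Fin n) (Fin n) F) * k' = (δ' : F) • M'.map j) {y : GL (Fin n) K}
    {w : Fˣ} {x : (dataSU n hF).Δ} (hx : (x : GL (Fin n) F) =
      GeneralLinearGroup.scalar _ w * (k' * GeneralLinearGroup.map j y * k⁻¹)) :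
    ∃ c : Kˣ, (y : Matrix (Fin n) (Fin n) K)ᵀ * M' * y = (c : K) • (M : Matrix (Fin n) (Fin n) K) ∧
      θ w * w * δ' * j c = δ := by
  have : Nonempty (Fin n) := ⟨⟨0, by omega⟩⟩
  have h1 := (mem_GU_iff hθ).1 x.2
  rw [hx, ← one_smul F (1 : Matrix (Fin n) (Fin n) F), unitary_iff hj h h', one_mul] at h1
  exact exists_of_smul_map (by simp) δ.ne_zero h1

theorem RU.orderOf (hn : 3 ≤ n) (hθ : ∀ a, θ a = a ^ q) {γ : MulAut (PSU n F q)}
    {M : GL (Fin n) K} (h : RU hF n θ j γ M) : orderOf γ = 2 := by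
  obtain ⟨g, k, z, δ, rfl, h, -⟩ := h
  have h2 := orderOf_eq_two_of_pow hF hθ
  have h3 : θ ^ 2 = 1 := h2 ▸ pow_orderOf_eq_one θ
  refine orderOf_eq_prime ?_ fun H => ?_
  · rw [mul_pow_eq_nrm _ (MatData.f_mul_d _ θ), ← map_pow, h3, map_one, mul_one, nrm_two,
      (triv_SU hF hn).d_eq_one_iff, ← πGL_eq_one_iff, Subgroup.coe_mul, MatData.coe_fΔ, map_mul]
    have h4 := congrArg (fieldGL (Fin n) F θ) h
    rw [map_mul, map_mul, fieldGL_scalar'] at h4
    rw [πGL_rel h, πGL_rel h4, ← MulAut.mul_apply, ← map_mul, ← pow_two, h3]; simp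
  · rw [((triv_SU hF hn) _ _ H).1, orderOf_one] at h2
    omega

theorem gi_PSU [Finite K] (hn : 3 ≤ n) (hθ : ∀ a, θ a = a ^ q)
    (hj : ∀ x, x ∈ Set.range j ↔ θ x = x) :
    GI (inndiagPSU n F q) IsGraphAutClassPSU (RU hF n θ j) := by
  have : Nonempty (Fin n) := ⟨⟨0, by omega⟩⟩
  have h2 := orderOf_eq_two_of_pow hF hθ
  have hθ2 := apply_apply_of_orderOf_two h2
  rw [inndiagPSU_eq hF]
  refine ⟨fun γ ⟨_, δ, φ, σ, hσ, h1, h3, h4⟩ ho => ?_, fun M h => ?_, ?_, ?_⟩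
  · obtain ⟨g, hg⟩ := (isInnerDiagonalAutPSU_iff hF).1 h1
    rw [(isFieldAutPSUOf_iff hF).1 h3, ← hg] at h4
    have h5 := pow_orderOf_eq_one γ
    rw [ho, h4, mul_pow_eq_nrm _ (MatData.f_mul_d _ σ), ← map_pow] at h5
    obtain ⟨h6, h7⟩ := triv_SU hF hn _ _ h5
    have h8 : orderOf σ = 2 := by
      rcases (Nat.dvd_prime Nat.prime_two).1 (orderOf_dvd_of_pow_eq_one h6) with e | e
      · rw [e] at hσ; simp at hσ
      · exact e
    obtain rfl := eq_of_orderOf_two h8 h2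
    obtain ⟨k, z, hk⟩ := h90_PGL σ g.1 (by
      rwa [h8, ← Subgroup.subtype_apply,
        ← map_nrm (dataSU n hF).Δ.subtype ((dataSU n hF).coe_fΔ σ)])
    have h9 : πGL _ F ((uniT _ σ k)⁻¹ * k) = πGL _ F (fieldGL _ F σ ((uniT _ σ k)⁻¹ * k)) := by
      have e := congrArg (fun x => πGL _ F ((uniT _ σ x)⁻¹ * x)) hk
      simp only [map_mul, (mem_GU_iff_uniT hθ).1 g.2, uniT_scalar, πGL_scalar, map_inv,
        one_mul, uniT_fieldGL, _root_.mul_inv_rev] at e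
      simpa [mul_assoc] using e.symm
    obtain ⟨δ, M, hM⟩ := exists_map_of_πGL_eq hj h9
    have h10 := congrArg Units.val hM
    rw [Units.val_mul, coe_uniT_inv, coe_scalar_mul] at h10
    refine ⟨M, ⟨g, k, z, δ, h4, hk, h10⟩, ?_⟩
    have h11 := congrArg (cT σ) h10
    rw [cT_mul, cT_cT hθ2, h10, cT_smul] at h11
    obtain ⟨c, hc, -⟩ := exists_of_smul_map (M := M) (by simp) δ.ne_zero
      ((congrArg _ (cT_map hj _).symm).trans h11.symm)
    exact symm_or_skew_of_smul hc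
  · obtain ⟨δ, hδ⟩ : ∃ δ : Fˣ, cT θ ((δ : F) • (M : Matrix (Fin n) (Fin n) K).map j) =
        (δ : F) • (M : Matrix (Fin n) (Fin n) K).map j := by
      rcases h with h | h
      · exact ⟨1, by simp [cT_map hj, h]⟩
      · obtain ⟨a, ha⟩ := exists_sub_ne_zero h2
        refine ⟨Units.mk0 _ ha, ?_⟩
        rw [cT_smul, cT_map hj, h, Matrix.map_neg _ (map_neg j), smul_neg, ← neg_smul]
        simp [hθ2]
    obtain ⟨P, hP⟩ := exists_cT_mul_herm h2
      (GeneralLinearGroup.scalar _ δ * GeneralLinearGroup.map j M) (by rwa [coe_scalar_mul])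
    have h3 : cT θ ((P⁻¹ : GL (Fin n) F) : Matrix (Fin n) (Fin n) F) * (P⁻¹ : GL (Fin n) F) =
        (δ : F) • (M : Matrix (Fin n) (Fin n) K).map j := by
      rw [coe_scalar_mul] at hP
      rw [← cT_conj_inj θ P, ← mul_assoc, cT_inv_cancel, one_mul, Units.inv_mul]
      exact hP.symm
    have h4 : cT θ ((fieldGL _ F θ P⁻¹ : GL (Fin n) F) : Matrix (Fin n) (Fin n) F) *
        (fieldGL _ F θ P⁻¹ : GL (Fin n) F) =
        ((unitsAut F θ δ : Fˣ) : F) • (M : Matrix (Fin n) (Fin n) K).map j := by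
      rw [coe_fieldGL, map_cT, ← Matrix.map_mul, h3]
      ext a b
      simp [(hj _).1 ⟨_, rfl⟩, coe_unitsAut]
    obtain ⟨w, g, hg⟩ := exists_unitary hF hθ hj h4 h3 (y := 1) (c := 1) (by simp)
    have hR : RU hF n θ j _ M := ⟨g, P⁻¹, w, δ, rfl, by rw [hg]; simp [mul_assoc], h3⟩
    exact ⟨_, ⟨hn, _, _, θ, by simp [h2], (isInnerDiagonalAutPSU_iff hF).2 ⟨_, rfl⟩,
      (isFieldAutPSUOf_iff hF).2 rfl, rfl⟩, hR.orderOf hF hn hθ, hR⟩
  · rintro _ _ M M' ⟨g, k, z, δ, rfl, h, hM⟩ ⟨g', k', z', δ', rfl, h', hM'⟩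
    constructor
    · rintro ⟨_, ⟨x, rfl⟩, hx⟩
      obtain ⟨w, y, hy⟩ := (conj_SU_iff hF hn hj h h').1 hx
      obtain ⟨c, hc, -⟩ := of_unitary hF hn hθ hj hM hM' hy
      exact Cg.symm ⟨c, y, hc⟩
    · intro H
      obtain ⟨c, y, hc⟩ := H.symm
      obtain ⟨w, x, hx⟩ := exists_unitary hF hθ hj hM hM' hc
      exact ⟨_, ⟨x, rfl⟩, (conj_SU_iff hF hn hj h h').2 ⟨w, y, hx⟩⟩
  · rintro _ M ⟨g, k, z, δ, rfl, h, hM⟩
    let S := (Subgroup.centralizer {(dataSU n hF).d g * (dataSU n hF).f θ}).comap (dataSU n hF).d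
    have hS : ∀ x, x ∈ S ↔ ∃ (w : Fˣ) (y : GL (Fin n) K), (x : GL (Fin n) F) =
        GeneralLinearGroup.scalar _ w * (k * GeneralLinearGroup.map j y * k⁻¹) := fun x => by
      rw [← conj_SU_iff hF hn hj h h, Subgroup.mem_comap, Subgroup.mem_centralizer_singleton_iff,
        eq_mul_inv_iff_mul_eq, eq_comm]
    refine Nonempty.mulEquiv_trans ⟨MulEquiv.subgroupCongr ?_⟩ <|
      equiv_of_common ((dataSU n hF).d.comp S.subtype)
      ((πGL _ F).comp ((dataSU n hF).Δ.subtype.comp S.subtype))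
      ((πGL _ F).comp (((MulAut.conj k).toMonoidHom.comp (GeneralLinearGroup.map j)).comp
        (Sim (M : Matrix (Fin n) (Fin n) K)).subtype))
      (Subgroup.ext fun x => (triv_SU hF hn).d_eq_one_iff.trans πGL_eq_one_iff.symm)
      (le_antisymm ?_ ?_) ((Geo.scalars (Fin n) K).subgroupOf _) (Subgroup.ext fun y => ?_)
    · rw [MonoidHom.range_comp, Subgroup.range_subtype, Subgroup.map_comap_eq]
    · rintro _ ⟨x, rfl⟩
      obtain ⟨w, y, hy⟩ := (hS _).1 x.2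
      obtain ⟨c, hc, -⟩ := of_unitary hF hn hθ hj hM hM hy
      exact ⟨⟨y, mem_Sim.2 ⟨c, hc⟩⟩, (πGL_eq_iff.2 ⟨w, hy⟩).symm⟩
    · rintro _ ⟨y, rfl⟩
      obtain ⟨c, hc⟩ := mem_Sim.1 y.2
      obtain ⟨w, x, hx⟩ := exists_unitary hF hθ hj hM hM hc
      exact ⟨⟨x, (hS _).2 ⟨w, y, hx⟩⟩, πGL_eq_iff.2 ⟨w, hx⟩⟩
    · change πGL _ F (k * GeneralLinearGroup.map j y.1 * k⁻¹) = 1 ↔ _
      rw [map_mul, map_mul, map_inv, conj_eq_one_iff, πGL_eq_one_iff, map_mem_center_iff]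
      exact mem_scalars_iff_center.symm

theorem split_PSU (hn : 3 ≤ n) (hθ : ∀ a, θ a = a ^ q) (hj : ∀ x, x ∈ Set.range j ↔ θ x = x)
    {γ : MulAut (PSU n F q)} {M : GL (Fin n) K} (h : RU hF n θ j γ M) :
    ∃ D : Subgroup (powMonoidHom (q + 1) : Fˣ →* Fˣ).ker,
      splitClassCount (inndiagPSU n F q) (Inn (PSU n F q)) γ =
        Nat.gcd (Nat.gcd (Nat.card (powMonoidHom (q + 1) : Fˣ →* Fˣ).ker) n) D.index ∧
      ∀ x, x ∈ D ↔ ∃ (y : GL (Fin n) K) (c : Kˣ) (w : Fˣ),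
        (y : Matrix (Fin n) (Fin n) K)ᵀ * M * y = (c : K) • (M : Matrix (Fin n) (Fin n) K) ∧
        w ^ (q + 1) * Units.map (j : K →* F) c = 1 ∧
        (x : Fˣ) = w ^ n * Units.map (j : K →* F) (GeneralLinearGroup.det y) := by
  obtain ⟨g, k, z, δ, rfl, h, hM⟩ := h
  let S := (Subgroup.centralizer {(dataSU n hF).d g * (dataSU n hF).f θ}).comap (dataSU n hF).d
  have hS : ∀ x, x ∈ S ↔ ∃ (w : Fˣ) (y : GL (Fin n) K), (x : GL (Fin n) F) =
      GeneralLinearGroup.scalar _ w * (k * GeneralLinearGroup.map j y * k⁻¹) := fun x => by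
    rw [← conj_SU_iff hF hn hj h h, Subgroup.mem_comap, Subgroup.mem_centralizer_singleton_iff,
      eq_mul_inv_iff_mul_eq, eq_comm]
  have hd : ∀ (w : Fˣ) (y : GL (Fin n) K), GeneralLinearGroup.det
      (GeneralLinearGroup.scalar _ w * (k * GeneralLinearGroup.map j y * k⁻¹)) =
      w ^ n * Units.map (j : K →* F) (GeneralLinearGroup.det y) := fun w y => by
    rw [map_mul, map_mul, map_mul, map_inv, mul_inv_cancel_comm]
    ext; simp [RingHom.map_det]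
  refine ⟨S.map (detGU hF n), ?_, fun x => ⟨?_, ?_⟩⟩
  · rw [inndiagPSU_eq hF, MatData.splitClassCount_eq'' _ (detGU_surjective hF (by omega))
      (ker_detGU hF) _ S (sup_eq_right.2 (Subgroup.ker_le_comap _ _)).symm, index_map_ker_SU hF hn,
      card_normOne hF, Nat.gcd_comm n]
  · rintro ⟨x, hx, rfl⟩
    obtain ⟨w, y, hy⟩ := (hS _).1 hx
    obtain ⟨c, hc, h1⟩ := of_unitary hF hn hθ hj hM hM hy
    refine ⟨y, c, w, hc, Units.ext (mul_right_cancel₀ δ.ne_zero ?_), by rw [coe_detGU, hy, hd]⟩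
    rw [hθ] at h1
    simp only [Units.val_mul, Units.val_pow_eq_pow_val, Units.coe_map, MonoidHom.coe_coe,
      Units.val_one, pow_succ]
    linear_combination h1
  · rintro ⟨y, c, w, hc, h1, h2⟩
    have h3 := congrArg Units.val h1
    simp only [Units.val_mul, Units.val_pow_eq_pow_val, Units.coe_map, MonoidHom.coe_coe,
      Units.val_one, pow_succ] at h3
    have := (unitary_iff hj hM hM w y 1).2 (by
      rw [hc, Matrix.map_smul' _ _ _ (map_mul j), smul_smul, hθ]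
      congr 1
      linear_combination δ * h3)
    rw [one_smul] at this
    exact ⟨⟨_, (mem_GU_iff hθ).2 this⟩, (hS _).2 ⟨w, y, rfl⟩,
      Subtype.ext (by rw [coe_detGU, h2, hd])⟩

include hF in
theorem exists_norm_mul (hθ : ∀ a, θ a = a ^ q) (hj : ∀ x, x ∈ Set.range j ↔ θ x = x)
    (u : (powMonoidHom (q + 1) : Fˣ →* Fˣ).ker) : ∃ (w : Fˣ) (c : Kˣ),
      w ^ (q + 1) * Units.map (j : K →* F) c = 1 ∧ (u : Fˣ) = w ^ 2 * Units.map (j : K →* F) c := by
  have h2 := orderOf_eq_two_of_pow hF hθ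
  have h3 : ∀ a : Fˣ, unitsAut F θ a = a ^ q := fun a => Units.ext (by simp [coe_unitsAut, hθ])
  obtain ⟨w, hw⟩ := h90_units θ (by omega) u (by
    rw [h2, nrm_two, h3, ← pow_succ']; exact u.2)
  obtain ⟨c, hc⟩ := (hj ((w ^ (q + 1))⁻¹ : Fˣ)).2 (by
    have := apply_apply_of_orderOf_two h2 w
    rw [Units.val_inv_eq_inv_val, Units.val_pow_eq_pow_val, pow_succ, ← hθ, map_inv₀, map_mul, this,
      mul_comm])
  have h4 : Units.map (j : K →* F) (Units.mk0 c fun h0 => by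
      rw [h0, map_zero] at hc; exact Units.ne_zero _ hc.symm) = (w ^ (q + 1))⁻¹ := Units.ext hc
  exact ⟨w, _, by rw [h4, mul_inv_cancel], by rw [h4, hw, h3]; group⟩

theorem norm_mem (hθ : ∀ a, θ a = a ^ q) (hj : ∀ x, x ∈ Set.range j ↔ θ x = x) (c : Kˣ) :
    Units.map (j : K →* F) c ^ (q + 1) = Units.map (j : K →* F) c ^ 2 := by
  rw [pow_succ, pow_two]
  congr 1
  exact Units.ext ((hθ _).symm.trans ((hj _).1 ⟨_, rfl⟩))

include hF in
theorem exists_frob_emb (K : Type*) [Field K] [Fintype K] (hK : Fintype.card K = q)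
    (hθ : ∀ a, θ a = a ^ q) : ∃ j : K →+* F, ∀ x, x ∈ Set.range j ↔ θ x = x := by
  have := card_fixF_pow θ
  rw [orderOf_eq_two_of_pow hF hθ, Nat.card_eq_fintype_card (α := F), hF] at this
  exact exists_ringHom_range_fixF θ K (by
    rw [Nat.pow_left_injective two_ne_zero this, Nat.card_eq_fintype_card, hK])

end Cfsg.Agent.H13
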