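import Cfsg.Agent.H26.ES2
import Cfsg.Agent.H12.SBridge
import Cfsg.Prelude.Def_KGroupFacts

/-! `Aut(2^{1+2n})` does not split over the inner automorphisms for `n ≥ 3` (Griess). -/

set_option autoImplicit false

namespace Cfsg.Agent.H13.Gr
open Classical

variable {Q : Type*} [Group Q] {z : Q}

/-- commutators lie in `{1, z}` -/
structure Zc (z : Q) : Prop where
  zz : z * z = 1
  zc : ∀ g, z * g = g * z
  cm : ∀ a b, a * b = b * a ∨ a * b = b * a * z

/-- the lift of the orthogonal transvection -/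
noncomputable def Zc.tau (h : Zc z) {x : Q} (hx : x * x = z) : MulAut Q where
  toFun y := if Commute x y then y else y * x
  invFun y := if Commute x y then y else y * x⁻¹
  left_inv y := by
    by_cases hy : Commute x y
    · simp [hy]
    simp [hy, mt (fun h => by simpa using h.mul_right (Commute.refl x).inv_right : Commute x (y * x) → _) hy]
  right_inv y := by
    by_cases hy : Commute x y
    · simp [hy]
    simp [hy, mt (fun h => by simpa using h.mul_right (Commute.refl x) : Commute x (y * x⁻¹) → _) hy]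
  map_mul' a b := by
    by_cases ha : Commute x a <;> by_cases hb : Commute x b
    · simp [ha, hb, ha.mul_right hb]
    · simp [ha, hb, mt (fun h => by simpa using ha.inv_right.mul_right h : Commute x (a * b) → _) hb, mul_assoc]
    · simp [ha, hb, mt (fun h => by simpa using h.mul_right hb.inv_right : Commute x (a * b) → _) ha, mul_assoc, hb.eq]
    · have h1 := (h.cm x a).resolve_left ha
      have h2 := (h.cm x b).resolve_left hb
      have : Commute x (a * b) := by
        rw [Commute, SemiconjBy, ← mul_assoc, h1, mul_assoc, h.zc, ← mul_assoc, mul_assoc a, h2, ← mul_assoc, mul_assoc _ z,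
          h.zz, mul_one, mul_assoc]
      simp only [ha, hb, this, if_true, if_false]
      rw [mul_assoc a x, ← mul_assoc x, h2, mul_assoc (b * x), h.zc, ← mul_assoc (b * x), mul_assoc b, hx, mul_assoc b, h.zz,
        mul_one]

variable (h : Zc z) {x x' y u u' : Q} (hx : x * x = z) (hx' : x' * x' = z)

theorem tau_of (hy : Commute x y) : h.tau hx y = y := if_pos hy
theorem tau_of_not (hy : ¬ Commute x y) : h.tau hx y = y * x := if_neg hy

theorem tau_sq : h.tau hx * h.tau hx = MulAut.conj x := MulEquiv.ext fun y => by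
  by_cases hy : Commute x y
  · simp [tau_of h hx hy, hy.eq]
  · rw [MulAut.mul_apply, tau_of_not h hx hy, map_mul, tau_of_not h hx hy, tau_of h hx (.refl x), MulAut.conj_apply,
      (h.cm x y).resolve_left hy, mul_assoc, hx, mul_assoc _ z, h.zc]; simp

theorem tau_comm (hc : Commute x x') : h.tau hx * h.tau hx' = h.tau hx' * h.tau hx := MulEquiv.ext fun y => by
  by_cases hy : Commute x y <;> by_cases hy' : Commute x' y <;>
    simp [tau_of h hx hc, tau_of h hx' hc.symm, tau_of, tau_of_not, hy, hy', mul_assoc, hc.eq]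

theorem exists_c (u w : Q) : ∃ c, (∀ g, c * g = g * c) ∧ c * c = 1 ∧ (∀ {x : Q} (hx : x * x = z) (u : Q),
    (MulAut.conj u * h.tau hx) c = c) ∧ u * w * u⁻¹ = w * c := by
  rcases h.cm u w with e | e
  · exact ⟨1, by simp, by simp, by simp, by simp [e]⟩
  · exact ⟨z, h.zc, h.zz, fun hx u => by simp [tau_of h hx (h.zc _).symm, ← h.zc], by rw [e, mul_assoc, h.zc]; simp⟩

theorem fix_of (hc : Commute (MulAut.conj u * h.tau hx) (MulAut.conj u' * h.tau hx')) (hy : Commute x y)
    (hy' : ¬ Commute x' y) : (MulAut.conj u * h.tau hx) x' = x' := by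
  obtain ⟨c, c1, -, c2, c3⟩ := exists_c h u y
  obtain ⟨d, -, -, d2, d3⟩ := exists_c h u' (y * x')
  have e1 : (MulAut.conj u * h.tau hx) y = y * c := by simp [tau_of h hx hy, c3]
  have e2 : (MulAut.conj u' * h.tau hx') y = y * x' * d := by rw [← d3]; simp [tau_of_not h hx' hy']
  have := congrArg (· y) hc.eq
  simp only [MulAut.mul_apply _ (MulAut.conj u * h.tau hx), MulAut.mul_apply _ (MulAut.conj u' * h.tau hx'), e1, e2,
    map_mul, c2, d2] at this
  rw [← c1, ← c1] at this
  generalize (MulAut.conj u * h.tau hx) x' = t at *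
  simpa [mul_assoc] using this

theorem inv_of (hc : (MulAut.conj u * h.tau hx) * (MulAut.conj u * h.tau hx) = 1) (hy : ¬ Commute x y) :
    x * (MulAut.conj u * h.tau hx) x = 1 := by
  obtain ⟨d, d1, d0, d2, d3⟩ := exists_c h u (y * x)
  have e2 : (MulAut.conj u * h.tau hx) y = y * x * d := by rw [← d3]; simp [tau_of_not h hx hy]
  have := congrArg (· y) hc
  simp only [MulAut.mul_apply _ (MulAut.conj u * h.tau hx), e2, map_mul, d2, MulAut.one_apply] at this
  rwa [mul_assoc _ d, d1, ← mul_assoc, mul_assoc, d0, mul_one, mul_assoc, mul_eq_left] at this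

include h in
theorem not_compl (hz : z ≠ 1) {a b c y₁ y₂ y₃ : Q} (ha : a * a = z) (hb : b * b = z) (hc : c * c = z) (hab : Commute a b)
    (hac : Commute a c) (hbc : Commute b c) (h1 : ¬ Commute a y₁) (h2 : ¬ Commute b y₂) (h3 : ¬ Commute c y₃)
    (h4 : Commute a y₂) (h5 : Commute a y₃) (h6 : Commute c y₂) (L : Subgroup (MulAut Q)) :
    ¬ (Inn Q).IsComplement' L := fun H => by
  have e1 : ∀ {x} (hx : x * x = z), ∃ u, MulAut.conj u * h.tau hx ∈ L := fun hx => by
    obtain ⟨⟨⟨_, u, rfl⟩, l⟩, hl⟩ := H.2 (h.tau hx)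
    exact ⟨u⁻¹, by simp [← hl]⟩
  have e2 : ∀ g ∈ L, QuotientGroup.mk' (Inn Q) g = 1 → g = 1 := fun g hg h =>
    H.disjoint.le_bot ⟨(QuotientGroup.eq_one_iff g).1 h, hg⟩
  have e3 : ∀ u, QuotientGroup.mk' (Inn Q) (MulAut.conj u) = 1 := fun u => (QuotientGroup.eq_one_iff _).2 ⟨u, rfl⟩
  obtain ⟨u, hu⟩ := e1 ha
  have e4 : ∀ {x y} (hx : x * x = z), Commute a x → Commute a y → ¬ Commute x y → (MulAut.conj u * h.tau ha) x = x :=
    fun hx h1 h2 h3 => by
      obtain ⟨v, hv⟩ := e1 hx
      refine fix_of h ha hx (u' := v) (commutatorElement_eq_one_iff_commute.1 (e2 _ (L.mul_mem (L.mul_mem (L.mul_mem hu hv)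
        (L.inv_mem hu)) (L.inv_mem hv)) ?_)) h2 h3
      rw [map_commutatorElement, map_mul, map_mul, e3, e3, one_mul, one_mul, ← map_commutatorElement,
        commutatorElement_eq_one_iff_commute.2 (tau_comm h ha hx h1), map_one]
  have e5 := inv_of h ha (e2 _ (L.mul_mem hu hu) (by
    rw [map_mul, map_mul, e3, one_mul, ← map_mul, tau_sq, e3])) h1
  have e6 := e4 (x := a * b * c) (by
    rw [← sq, (hac.mul_left hbc).mul_pow, hab.mul_pow, sq, sq, sq, ha, hb, hc, h.zz, one_mul])
    (((Commute.refl a).mul_right hab).mul_right hac) h4 fun h' => h2 (by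
      simpa [mul_assoc] using (h4.inv_left.mul_left h').mul_left h6.inv_left)
  rw [map_mul, map_mul, e4 hb hab h4 h2, e4 hc hac h5 h3, mul_left_inj, mul_left_inj] at e6
  exact hz (by rw [← ha, ← e5, e6])

theorem exists_pair {V : Type*} [AddCommGroup V] [Module (ZMod 2) V] (c : H26.ES 2 Q V) {e f : V} (h : c.B e f = 1) :
    ∃ x y : Q, x * x = c.ζ 1 ∧ ¬ Commute x y ∧ c.π x ∈ Submodule.span (ZMod 2) {e, f} ∧
      c.π y ∈ Submodule.span (ZMod 2) {e, f} := by
  have h1 : ∀ v w, c.pw v = 1 → c.B v w = 1 → v ∈ Submodule.span (ZMod 2) {e, f} → w ∈ Submodule.span (ZMod 2) {e, f} →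
      ∃ x y : Q, x * x = c.ζ 1 ∧ ¬ Commute x y ∧ c.π x ∈ Submodule.span (ZMod 2) {e, f} ∧
        c.π y ∈ Submodule.span (ZMod 2) {e, f} := fun v w h1 h2 h3 h4 => by
    obtain ⟨x, rfl⟩ := c.surj v
    obtain ⟨y, rfl⟩ := c.surj w
    exact ⟨x, y, by rw [← sq, c.pow_eq, h1], fun h => by simpa [h2] using c.commute_iff.1 h, h3, h4⟩
  have he : e ∈ Submodule.span (ZMod 2) {e, f} := Submodule.subset_span (by simp)
  have hf : f ∈ Submodule.span (ZMod 2) {e, f} := Submodule.subset_span (by simp)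
  have h2 : ∀ a : ZMod 2, a = 0 ∨ a = 1 := by decide
  rcases h2 (c.pw e) with h3 | h3
  · rcases h2 (c.pw f) with h4 | h4
    · exact h1 (e + f) f (by simp [c.pw_add_two, h, h3, h4]) (by simp [h, c.B_self]) (add_mem he hf) hf
    · exact h1 f e h4 (by rw [c.B_swap, h]; rfl) hf he
  · exact h1 e f h3 h he hf

end Cfsg.Agent.H13.Gr
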