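import Mathlib
import Cfsg.Agent.H13.Par

set_option autoImplicit false

namespace Cfsg.Agent.H13
open Matrix Module

variable {F : Type*} [Field F] {ι : Type*} [Fintype ι] [DecidableEq ι]

theorem exists_perm_of_monomial {A : Matrix ι ι F} (hA : IsUnit A) (h : ∀ i, ∃! j, A i j ≠ 0) :
    ∃ σ : Equiv.Perm ι, ∀ i j, A i j ≠ 0 ↔ σ i = j := by
  choose σ h1 h2 using h
  have hs : Function.Surjective σ := fun j => by
    by_contra hj
    refine ((isUnit_iff_isUnit_det A).1 hA).ne_zero (det_eq_zero_of_column_eq_zero j fun i => ?_)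
    by_contra hi
    exact hj ⟨i, (h2 i j hi).symm⟩
  exact ⟨Equiv.ofBijective σ (Finite.surjective_iff_bijective.1 hs), fun i j =>
    ⟨fun h => (h2 i j h).symm, fun h => h ▸ h1 i⟩⟩

theorem monomial_mul_diagonal {A : Matrix ι ι F} {σ : Equiv.Perm ι} (h : ∀ i j, A i j ≠ 0 ↔ σ i = j)
    (d : ι → F) : A * diagonal d = diagonal (d ∘ σ) * A := by
  ext i j
  rw [mul_diagonal, diagonal_mul]
  by_cases hij : A i j = 0
  · simp [hij]
  · rw [← (h i j).1 hij, mul_comm]; rfl

theorem mem_normalizer_diag {H : Type*} [Group H] (f : H →* Matrix ι ι F) {T : Subgroup H}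
    (hT : ∀ t, t ∈ T ↔ ∃ d, f t = diagonal d)
    (hs : ∀ j j', j ≠ j' → ∃ t ∈ T, f t j j ≠ f t j' j') {g : H} :
    g ∈ Subgroup.normalizer (T : Set H) ↔ ∀ i, ∃! j, f g i j ≠ 0 := by
  have hu : IsUnit (f g) := (Group.isUnit g).map f
  constructor
  · intro hg i
    have h1 : ∃ j, f g i j ≠ 0 := by
      by_contra h
      push Not at h
      exact ((isUnit_iff_isUnit_det _).1 hu).ne_zero (det_eq_zero_of_row_eq_zero i h)
    obtain ⟨j, hj⟩ := h1
    refine ⟨j, hj, fun j' hj' => ?_⟩
    by_contra hne
    obtain ⟨t, ht, ht'⟩ := hs _ _ hne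
    obtain ⟨d', hd'⟩ := (hT _).1 ((Subgroup.mem_normalizer_iff.1 hg t).1 ht)
    obtain ⟨d, hd⟩ := (hT _).1 ht
    have h2 : f g * diagonal d = diagonal d' * f g := by
      rw [← hd, ← hd', ← map_mul, ← map_mul, inv_mul_cancel_right]
    have h3 : ∀ k, f g i k ≠ 0 → d k = d' i := fun k hk => by
      have := congrFun (congrFun h2 i) k
      rw [mul_diagonal, diagonal_mul, mul_comm] at this
      exact mul_right_cancel₀ hk this
    rw [hd, diagonal_apply_eq, diagonal_apply_eq, h3 _ hj, h3 _ hj'] at ht'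
    exact ht' rfl
  · intro h
    obtain ⟨σ, hσ⟩ := exists_perm_of_monomial hu h
    rw [Subgroup.mem_normalizer_iff]
    intro t
    simp only [SetLike.mem_coe, hT]
    constructor
    · rintro ⟨d, hd⟩
      refine ⟨d ∘ σ, ?_⟩
      rw [map_mul, map_mul, hd, monomial_mul_diagonal hσ, mul_assoc, ← map_mul, mul_inv_cancel,
        map_one, mul_one]
    · rintro ⟨d, hd⟩
      refine ⟨d ∘ σ.symm, hu.mul_left_cancel ?_⟩
      rw [monomial_mul_diagonal hσ, Function.comp_assoc, Equiv.symm_comp_self, Function.comp_id, ← hd,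
        ← map_mul, ← map_mul, inv_mul_cancel_right]

theorem card_centralizer_swap (l : Type*) [Fintype l] [DecidableEq l] :
    Nat.card (Subgroup.centralizer {(Equiv.sumComm l l : Equiv.Perm (l ⊕ l))}) =
      2 ^ Fintype.card l * (Fintype.card l).factorial := by
  set s : Equiv.Perm (l ⊕ l) := Equiv.sumComm l l with hs
  have h2 : s ^ 2 = 1 := by ext x; simp [hs, sq]
  have h3 := Equiv.Perm.cycleType_of_pow_prime_eq_one h2
  have h4 : s.cycleType.sum = 2 * Fintype.card l := by
    rw [Equiv.Perm.sum_cycleType, show s.support = Finset.univ from ?_]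
    · simp [two_mul]
    · ext x; rcases x with x | x <;> simp [hs]
  have h5 : s.cycleType.card = Fintype.card l := by
    rw [h3, Multiset.sum_replicate, smul_eq_mul] at h4; omega
  rw [Equiv.Perm.nat_card_centralizer, h4, h3, h5, Multiset.prod_replicate,
    Multiset.toFinset_replicate]
  split_ifs with h
  · simp [h]
  · simp [two_mul]

theorem J_apply {l : Type*} [DecidableEq l] (a b : l ⊕ l) :
    Matrix.J l F a b = if a.swap = b then Sum.elim (fun _ => -1) (fun _ => 1) a else 0 := by
  rcases a with a | a <;> rcases b with b | b <;> simp [Matrix.J, one_apply]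
  split_ifs <;> simp

theorem monomial_mem_sp {l : Type*} [Fintype l] [DecidableEq l] {σ : Equiv.Perm (l ⊕ l)}
    {s : l ⊕ l → F} :
    (Matrix.of fun i j => if σ i = j then s i else 0) ∈ symplecticGroup l F ↔
      ∀ i j, s i * Matrix.J l F (σ i) (σ j) * s j = Matrix.J l F i j := by
  rw [SymplecticGroup.mem_iff, ← Matrix.ext_iff]
  simp [mul_apply]

theorem card_monomial_sp {l : Type*} [Fintype l] [DecidableEq l] [Finite F] :
    Nat.card {A : symplecticGroup l F // ∀ i, ∃! j, A.1 i j ≠ 0} =
      2 ^ Fintype.card l * (Fintype.card l).factorial * (Nat.card F - 1) ^ Fintype.card l := by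
  set C := Subgroup.centralizer {(Equiv.sumComm l l : Equiv.Perm (l ⊕ l))}
  have hC : ∀ σ, σ ∈ C ↔ ∀ a, (σ a).swap = σ a.swap := fun σ => by
    rw [Subgroup.mem_centralizer_singleton_iff, eq_comm, Equiv.ext_iff]; rfl
  let c : l ⊕ l → F := Sum.elim (fun _ => 1) (fun _ => -1)
  have hc : ∀ a, c a ≠ 0 := by rintro (a | a) <;> simp [c]
  let s : C × (l → Fˣ) → l ⊕ l → F := fun x =>
    Sum.elim (fun i => x.2 i) fun i => (x.2 i : F)⁻¹ * c (x.1.1 (.inl i))
  have hs : ∀ x a, s x a ≠ 0 := by rintro x (a | a) <;> simp [s, hc]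
  have hm : ∀ x : C × (l → Fˣ),
      (Matrix.of fun i j => if x.1.1 i = j then s x i else 0) ∈ symplecticGroup l F := by
    rintro ⟨⟨σ, hσ⟩, d⟩
    rw [hC] at hσ
    rw [monomial_mem_sp]
    intro i j
    simp only [J_apply, hσ, σ.apply_eq_iff_eq]
    split_ifs with h
    · subst h
      rcases i with i | i
      · rcases h : σ (.inl i) with k | k <;> simp [s, c, h]
      · have := hσ (.inl i)
        rcases h : σ (.inl i) with k | k <;> rw [h] at this <;>
          simp only [Sum.swap_inl, Sum.swap_inr] at this <;> simp [s, c, h, ← this]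
    · simp
  let f : C × (l → Fˣ) → {A : symplecticGroup l F // ∀ i, ∃! j, A.1 i j ≠ 0} := fun x =>
    ⟨⟨_, hm x⟩, fun i => ⟨x.1.1 i, by simp [hs], fun j hj => by
      by_contra h; simp [Ne.symm h] at hj⟩⟩
  have hf : Function.Bijective f := by
    constructor
    · rintro ⟨σ, d⟩ ⟨σ', d'⟩ h
      have h1 : ∀ i j, (if σ.1 i = j then s (σ, d) i else 0) = if σ'.1 i = j then s (σ', d') i else 0 :=
        fun i j => congrFun (congrFun (congrArg (fun A => A.1.1) h) i) j
      have h2 : ∀ i, σ'.1 i = σ.1 i := fun i => by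
        by_contra h3
        have := h1 i (σ.1 i)
        simp [h3, hs] at this
      refine Prod.ext (Subtype.ext (Equiv.ext fun i => (h2 i).symm)) (funext fun i => Units.ext ?_)
      simpa [h2, s] using h1 (.inl i) (σ.1 (.inl i))
    · rintro ⟨A, hA⟩
      obtain ⟨σ, hσ⟩ := exists_perm_of_monomial ((Group.isUnit A).map (Submonoid.subtype _)) hA
      have h1 : A.1 = Matrix.of fun i j => if σ i = j then A.1 i (σ i) else 0 := by
        ext i j
        rw [of_apply]
        split_ifs with h
        · rw [h]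
        · exact not_not.1 (mt (hσ i j).1 h)
      have h0 : ∀ i, A.1 i (σ i) ≠ 0 := fun i => (hσ _ _).2 rfl
      have h2 := A.2
      rw [h1, monomial_mem_sp] at h2
      have h3 : σ ∈ C := (hC σ).2 fun a => by
        by_contra h
        have := h2 a a.swap
        rcases a with a | a <;> simp [J_apply, h] at this h <;> simp [h] at this
      refine ⟨⟨⟨σ, h3⟩, fun i => Units.mk0 _ (h0 (.inl i))⟩, Subtype.ext (Subtype.ext ?_)⟩
      refine Eq.trans ?_ h1.symm
      change (Matrix.of fun i j => if σ i = j then _ else _) = _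
      congr 1
      ext i j
      congr 1
      rcases i with i | i
      · rfl
      · have := h2 (.inl i) (.inr i)
        have h4 := (hC σ).1 h3 (.inl i)
        have h5 := h0 (.inl i)
        simp only [J_apply, h4, Sum.swap_inl, if_true, Sum.elim_inl] at this
        change (A.1 (.inl i) (σ (.inl i)))⁻¹ * c (σ (.inl i)) = _
        field_simp
        rcases h : σ (.inl i) with k | k <;> simp only [h, Sum.elim_inl, Sum.elim_inr, c] at this ⊢
        · linear_combination this
        · linear_combination -this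
  rw [← Nat.card_eq_of_bijective f hf, Nat.card_prod, card_centralizer_swap, Nat.card_fun,
    Nat.card_units, Nat.card_eq_fintype_card (α := l)]

end Cfsg.Agent.H13
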