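import Mathlib
import Cfsg.Agent.H13.MaxSing

/-! Gram determinants of tensor products of bilinear forms. -/

set_option autoImplicit false

namespace Cfsg.Agent.H13

open Module

variable {F U W : Type*} [Field F] [AddCommGroup U] [Module F U] [AddCommGroup W] [Module F W]

theorem gdet_tmul (B₁ : LinearMap.BilinForm F U) (B₂ : LinearMap.BilinForm F W) {ι κ : Type*}
    [Fintype ι] [DecidableEq ι] [Fintype κ] [DecidableEq κ] (b : Basis ι F U) (c : Basis κ F W) :
    gdet (B₁.tmul B₂) (b.tensorProduct c) =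
      gdet B₁ b ^ Fintype.card κ * gdet B₂ c ^ Fintype.card ι := by
  unfold gdet
  rw [← Matrix.det_kronecker]
  congr 1
  ext ⟨i, j⟩ ⟨k, l⟩
  simp [mul_comm]

theorem nondegenerate_tmul [FiniteDimensional F U] [FiniteDimensional F W]
    {B₁ : LinearMap.BilinForm F U} {B₂ : LinearMap.BilinForm F W} (h₁ : B₁.Nondegenerate)
    (h₂ : B₂.Nondegenerate) : (B₁.tmul B₂).Nondegenerate :=
  nondegenerate_of_gdet_ne_zero ((Module.finBasis F U).tensorProduct (Module.finBasis F W)) (by
    rw [gdet_tmul]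
    exact mul_ne_zero (pow_ne_zero _ (gdet_ne_zero h₁ _)) (pow_ne_zero _ (gdet_ne_zero h₂ _)))

end Cfsg.Agent.H13
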