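import Cfsg.Agent.H12.DicksonSL
import Cfsg.Agent.H12.SBridge
import Cfsg.Agent.H2.Perm5

/-! Group-theoretic lemmas for the minimal degree of `PSU₃(q)`. -/

set_option autoImplicit false

namespace Cfsg.Agent.H13.U3
open MulAction Subgroup H12
open scoped MatrixGroups Pointwise

theorem trans_of_ti {G X : Type*} [Group G] [Finite G] [MulAction G X] [Finite X] {p : ℕ} [Fact p.Prime]
    (H : Subgroup G) (O : Set X) (hO : ∀ g ∈ H, ∀ x ∈ O, g • x ∈ O) (hp : ¬ p ∣ O.ncard)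
    (h1 : ∀ u ∈ H, u ≠ 1 → (∃ k, u ^ p ^ k = 1) → ∀ x ∈ O, ∀ y ∈ O, u • x = x → u • y = y → x = y)
    (h2 : ∀ x ∈ O, ∃ u ∈ H, u ≠ 1 ∧ (∃ k, u ^ p ^ k = 1) ∧ u • x = x) :
    ∀ x ∈ O, ∀ y ∈ O, ∃ g ∈ H, g • x = y := by
  have key : ∀ x ∈ O, ∃ P : Sylow p H, (∀ g ∈ P, (g : G) • x = x) ∧ ∀ y ∈ O, (∀ g ∈ P, (g : G) • y = y) → y = x :=
    fun x hx => by
      obtain ⟨u, hu, h0, ⟨k, hk⟩, hux⟩ := h2 x hx
      obtain ⟨P, hP⟩ := IsPGroup.exists_le_sylow (P := zpowers (⟨u, hu⟩ : H)) (p := p) fun ⟨g, n, hn⟩ =>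
        ⟨k, Subtype.ext (Subtype.ext (by
          simp only [← hn, coe_pow, coe_zpow, coe_one]; rw [← zpow_natCast, zpow_comm, zpow_natCast, hk, one_zpow]))⟩
      have h3 : ∀ y ∈ O, (∀ g ∈ P, (g : G) • y = y) → y = x := fun y hy h =>
        h1 u hu h0 ⟨k, hk⟩ y hy x hx (h ⟨u, hu⟩ (hP (mem_zpowers _))) hux
      obtain ⟨y, hy, h4⟩ := H2.Pm.exists_fixed_of_not_dvd (G := H) P.2 O (fun g _ => hO g g.2) hp
      exact ⟨P, h3 y hy h4 ▸ h4, h3⟩
  intro x hx y hy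
  obtain ⟨P, hP, -⟩ := key x hx
  obtain ⟨Q, -, hQ⟩ := key y hy
  obtain ⟨g, rfl⟩ := exists_smul_eq H P Q
  refine ⟨g, g.2, hQ _ (hO g g.2 x hx) fun k hk => ?_⟩
  have := hP _ (mem_pointwise_smul_iff_inv_smul_mem.1 hk)
  simpa [mul_smul, inv_smul_eq_iff] using this

theorem exists_conj_of_odd {G : Type*} [Group G] {j j' : G} (h : j * j = 1) (h' : j' * j' = 1) {n : ℕ} (hn : Odd n)
    (hp : (j * j') ^ n = 1) : ∃ m : ℕ, (j * j') ^ m * j = j' * (j * j') ^ m := by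
  obtain ⟨m, rfl⟩ := hn
  have h1 : SemiconjBy j (j * j') (j * j')⁻¹ := by
    rw [SemiconjBy, mul_inv_rev, inv_eq_of_mul_eq_one_right h, inv_eq_of_mul_eq_one_right h', ← mul_assoc, h,
      mul_assoc, h, one_mul, mul_one]
  refine ⟨m, ?_⟩
  have h2 : (j * j') ^ m = (j * j')⁻¹ ^ (m + 1) := by
    rw [inv_pow, eq_inv_iff_mul_eq_one, ← pow_add, ← hp, two_mul, add_assoc]
  rw [h2, ← (h1.pow_right _).eq, pow_succ', ← h2, ← mul_assoc, ← mul_assoc, h, one_mul]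

variable {F : Type*} [Field F] [Finite F] (p : ℕ) [hp : Fact p.Prime] [CharP F p] (X : Subgroup PGL(2, F))

theorem card_eq_orb : Nat.card X = (orbit X (inf F)).ncard * (Nat.card (transl X) * Nat.card (slopes X)) := by
  rw [card_transl, ← card_inf_stabilizer_inf, card_eq_card_mul_card_inf_stabilizer X (inf F) (· ∈ orbit X (inf F))
    fun y => ⟨fun ⟨g, h⟩ => ⟨g, g.2, h⟩, fun ⟨g, h, h'⟩ => ⟨⟨g, h⟩, h'⟩⟩]
  rfl

theorem eq_one_of_norm (hn : 3 ≤ (orbit X (inf F)).ncard) {b : PGL(2, F)} (hb : b • inf F = inf F)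
    (h : ∀ g ∈ X, g⁻¹ * b * g = b ∨ g⁻¹ * b * g = b⁻¹) : b = 1 := by
  obtain ⟨x, hx, y, hy, z, hz, h1, h2, h3⟩ := (Set.two_lt_ncard (Set.toFinite _)).1 hn
  have : ∀ x ∈ orbit X (inf F), b • x = x := by
    rintro _ ⟨g, rfl⟩
    refine conj_smul_eq_iff.1 ?_
    rcases h g g.2 with h | h <;> rw [h]
    · exact hb
    · exact inv_smul_eq_iff.2 hb.symm
  exact pgl_eq_one_of_fix h1 h2 h3 (this x hx) (this y hy) (this z hz)

theorem card_le_two_of_dih (hn : 3 ≤ (orbit X (inf F)).ncard) {a s : PGL(2, F)} (h : IsDihedralPair X a s) :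
    Nat.card (transl X) * Nat.card (slopes X) ≤ 2 := by
  rw [card_transl, ← card_inf_stabilizer_inf]
  have h1 : ∀ k : ℤ, a ^ k • inf F = inf F → a ^ k = 1 := fun k hk => eq_one_of_norm X hn hk fun g hg => by
    obtain ⟨m, rfl | rfl⟩ := h.mem_iff.1 hg
    · left; group
    · right
      have : s⁻¹ * a ^ k * s = (a ^ k)⁻¹ := by
        rw [← inv_zpow, ← h.2.2.1, conj_zpow, inv_eq_of_mul_eq_one_right h.2.1]
      calc _ = (a ^ m)⁻¹ * (s⁻¹ * a ^ k * s) * a ^ m := by group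
        _ = _ := by rw [this]; group
  by_contra hc
  obtain ⟨x, hx, y, hy, z, hz, h2, h3, h4⟩ := (Set.two_lt_ncard
    (s := ((X ⊓ stabilizer PGL(2, F) (inf F) : Subgroup _) : Set PGL(2, F))) (Set.toFinite _)).1 (not_le.1 hc)
  have h5 : ∀ x ∈ X ⊓ stabilizer PGL(2, F) (inf F), ∀ y ∈ X ⊓ stabilizer PGL(2, F) (inf F), x ≠ 1 → y ≠ 1 → x = y := by
    intro x hx y hy hx1 hy1
    obtain ⟨k, rfl | rfl⟩ := h.mem_iff.1 hx.1
    · exact absurd (h1 k hx.2) hx1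
    obtain ⟨m, rfl | rfl⟩ := h.mem_iff.1 hy.1
    · exact absurd (h1 m hy.2) hy1
    have := h1 (-k + m) (by
      have := mul_mem (inv_mem (mem_inf.1 hx).2) (mem_inf.1 hy).2
      rwa [show (s * a ^ k)⁻¹ * (s * a ^ m) = a ^ (-k + m) by group] at this)
    rw [zpow_add, zpow_neg, inv_mul_eq_one] at this
    rw [this]
  by_cases e1 : x = 1
  · exact h4 (h5 y hy z hz (e1 ▸ h2.symm) (e1 ▸ h3.symm))
  by_cases e2 : y = 1
  · exact h3 (h5 x hx z hz e1 (e2 ▸ h4.symm))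
  exact h2 (h5 x hx y hy e1 e2)

theorem dvd_of_unip {x : P1 F} (h : X ⊓ unip x ≠ ⊥) : p ∣ Nat.card X := by
  obtain ⟨⟨g, hg⟩, h1⟩ := (ne_bot_iff_exists_ne_one).1 h
  have := orderOf_dvd_natCard (⟨g, hg.1⟩ : X)
  rwa [← orderOf_coe, orderOf_eq_prime ((mem_unip_iff p).1 hg.2).2 fun h => h1 (Subtype.ext h)] at this

theorem dk_coprime (hn : 3 ≤ (orbit X (inf F)).ncard) (h : ¬ p ∣ Nat.card X) :
    Nat.card (slopes X) ≤ 2 ∨ Nat.card X = 12 ∨ Nat.card X = 24 ∨ Nat.card X = 60 := by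
  have h0 : 0 < Nat.card (transl X) := Nat.card_pos
  rcases dickson_pgl2 p X with ⟨x, -, h1⟩ | ⟨h1, -⟩ | ⟨a, s, h1, -⟩ | ⟨-, ⟨-, h1⟩ | ⟨-, h1⟩⟩ | ⟨E, k, -, -, h1⟩
  · exact absurd (dvd_of_unip p X h1) h
  · have : X ⊓ stabilizer PGL(2, F) (inf F) = ⊥ := eq_bot_iff.2 fun b hb => eq_one_of_norm X hn hb.2 fun g hg =>
      .inl (by
        have := congrArg Subtype.val (h1.commGroup.mul_comm ⟨b, hb.1⟩ ⟨g, hg⟩)
        simp only [coe_mul] at this
        rw [mul_assoc, this, inv_mul_cancel_left])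
    have h2 := card_inf_stabilizer_inf X
    rw [this, card_bot] at h2
    exact .inl ((Nat.eq_one_of_mul_eq_one_left h2.symm).le.trans one_le_two)
  · exact .inl ((Nat.le_mul_of_pos_left _ h0).trans (card_le_two_of_dih X hn h1))
  · exact .inr h1
  · exact .inr (.inr (.inr h1))
  · exact absurd (((char_dvd_natCard (F := E) p).trans card_dvd_card_PSL2).trans (card_subPSL_dvd h1)) h

theorem dk_unip {q m : ℕ} (hq : q = p ^ m) (h3 : 3 ≤ q) (hn : (orbit X (inf F)).ncard = q + 1)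
    (h1 : 1 < Nat.card (transl X)) (h2 : Nat.card (transl X) ≤ q) :
    Nat.card (transl X) = q ∨ (p = 2 ∧ Nat.card (transl X) = 2) ∨ (q = 9 ∧ Nat.card (transl X) = 3) := by
  have hb : X ⊓ unip (inf F) ≠ ⊥ := fun h => by rw [card_transl, h, card_bot] at h1; omega
  have hP : IsPGroup p (X ⊓ unip (inf F) : Subgroup _) := fun g => ⟨1, Subtype.ext (by
    simpa using ((mem_unip_iff p).1 g.2.2).2)⟩
  obtain ⟨i, hi⟩ := IsPGroup.iff_card.1 hP
  rw [← card_transl] at hi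
  have hc := card_eq_orb X
  have hk := card_slopes_dvd X
  have hd := dvd_of_unip p X hb
  have hp2 := hp.out.two_le
  have hm : m ≠ 0 := by rintro rfl; simp at hq; omega
  have hi0 : i ≠ 0 := by rintro rfl; rw [hi, pow_zero] at h1; omega
  have hpq : p ∣ q := hq ▸ dvd_pow_self p hm
  have hpu : p ∣ Nat.card (transl X) := hi ▸ dvd_pow_self p hi0
  rw [hn] at hc
  rcases dickson_pgl2 p X with ⟨x, h4, h5⟩ | ⟨-, h4⟩ | ⟨a, s, h4, -⟩ | ⟨-, ⟨h4, -⟩ | ⟨rfl, h4⟩⟩ | ⟨E, k, -, h5, h4⟩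
  · obtain ⟨⟨g, hg⟩, h6⟩ := (ne_bot_iff_exists_ne_one).1 hb
    obtain rfl := eq_of_mem_unip_of_smul_eq hg.2 (fun h => h6 (Subtype.ext h)) (h4 g hg.1)
    have : orbit X (inf F) = {inf F} := Set.eq_singleton_iff_unique_mem.2 ⟨mem_orbit_self _, by
      rintro _ ⟨g, rfl⟩; exact h4 g g.2⟩
    rw [this, Set.ncard_singleton] at hn; omega
  · exact absurd hd h4
  · have := (Nat.le_mul_of_pos_right _ Nat.card_pos).trans (card_le_two_of_dih X (by omega) h4)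
    have := Nat.le_of_dvd (by omega) hpu
    exact .inr (.inl ⟨by omega, by omega⟩)
  · exact absurd hd h4
  · rw [h4] at hc
    have h5 : 3 ^ i ∣ 60 := hi ▸ hc ▸ (dvd_mul_right _ _).mul_left _
    have h6 : i = 1 := by
      by_contra h
      exact absurd ((pow_dvd_pow 3 (show 2 ≤ i by omega)).trans h5) (by norm_num)
    rw [h6, pow_one] at hi
    rw [hi] at hc hk
    have := Nat.le_of_dvd two_pos hk
    refine .inr (.inr ⟨?_, hi⟩)
    interval_cases Nat.card (slopes X) <;> omega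
  · have := Fintype.ofFinite E
    obtain ⟨⟨a, ha0⟩, -, ha⟩ := FiniteField.card E p
    replace ha : Fintype.card E = p ^ a := ha
    obtain ⟨g, hg, h6⟩ : ∃ g, g ∣ p ^ a - 1 ∧ g * Nat.card X = p ^ a * ((p ^ a) ^ 2 - 1) := by
      rcases h4 with h4 | h4
      · exact ⟨1, one_dvd _, by rw [one_mul, h4, card_conj_smul', ← card_PGL2 ha, ← card_conj_smul' _ k,
          Nat.card_congr (nonempty_subPGL_equiv E k).some.toEquiv]⟩
      · exact ⟨_, Nat.gcd_dvd_right 2 _, by rw [h4, ← card_PSL2 ha,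
          Nat.card_congr (nonempty_subPSL_equiv E k).some.toEquiv]⟩
    have c1 : ∀ {n x : ℕ}, p ∣ n → 0 < n → x ∣ n - 1 → p.Coprime x := fun {n x} h h0 hx =>
      (hp.out.coprime_iff_not_dvd).2 fun h' => hp.out.one_lt.ne' (Nat.dvd_one.1 (by
        have := Nat.dvd_sub h (h'.trans hx); rwa [Nat.sub_sub_self h0] at this))
    have ha1 : p ∣ p ^ a := dvd_pow_self p ha0.ne'
    have c2 : p.Coprime (g * ((q + 1) * Nat.card (slopes X))) := (c1 ha1 (by positivity) hg).mul_right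
      (((Nat.coprime_self_add_right.2 (Nat.coprime_one_right q)).coprime_dvd_left hpq |>.mul_right (c1 hpu (by omega) hk)))
    have c3 : p.Coprime ((p ^ a) ^ 2 - 1) := c1 (dvd_pow ha1 two_ne_zero) (by positivity) dvd_rfl
    have h7 : p ^ i * (g * ((q + 1) * Nat.card (slopes X))) = p ^ a * ((p ^ a) ^ 2 - 1) := by
      rw [← h6, hc, hi]; ring
    obtain rfl : i = a := le_antisymm
      ((Nat.pow_dvd_pow_iff_le_right hp.out.one_lt).1 ((c3.pow_left i).dvd_of_dvd_mul_right ⟨_, h7.symm⟩))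
      ((Nat.pow_dvd_pow_iff_le_right hp.out.one_lt).1 ((c2.pow_left a).dvd_of_dvd_mul_right ⟨_, h7⟩))
    rw [hi] at h1 h2 ⊢
    have h8 := Nat.eq_of_mul_eq_mul_left (by positivity) h7
    obtain ⟨c, hc'⟩ : p ^ i ∣ q := hq ▸ pow_dvd_pow p ((Nat.pow_le_pow_iff_right hp.out.one_lt).1 (hq ▸ h2))
    generalize p ^ i = e at *
    obtain ⟨n, hn'⟩ : ∃ n, n * (q + 1) + 1 = e * e := ⟨g * Nat.card (slopes X), by
      rw [← sq, ← Nat.sub_add_cancel (Nat.one_le_pow 2 e (by omega)), ← h8]; ring⟩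
    have h9 : e ∣ n + 1 := (Nat.dvd_add_right (Dvd.intro (n * c) rfl)).1 ⟨e, by rw [← hn', hc']; ring⟩
    have := Nat.le_of_dvd (by omega) h9
    exact .inl (le_antisymm h2 (by nlinarith))

end Cfsg.Agent.H13.U3
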