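import Cfsg.Agent.H13.U3a

/-! Geometry of the unitary `3`-space. -/

set_option autoImplicit false

namespace Cfsg.Agent.H13.U3
open MulAction Subgroup H12 Module Projectivization
open scoped LinearAlgebra.Projectivization

variable {F V : Type*} [Field F] [AddCommGroup V] [Module F V] {σ : F →+* F}

/-- unitary `3`-space -/
class C3 (B : V →ₛₗ[σ] V →ₗ[F] F) : Prop where
  sd : SD B
  ne : σ ≠ RingHom.id F
  dim : finrank F V = 3

/-- a frame -/
structure Fr (B : V →ₛₗ[σ] V →ₗ[F] F) (e w f : V) : Prop extends SP B e f where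
  ew : B e w = 0
  fw : B f w = 0
  ww : B w w ≠ 0

theorem ncard_pts [Finite F] (P : V → Prop) (hP : ∀ (a : F) v, a ≠ 0 → P v → P (a • v)) :
    {x : ℙ F V | P x.rep}.ncard * (Nat.card F - 1) = Nat.card {v // P v ∧ v ≠ 0} := by
  rw [← Nat.card_units, ← Nat.card_coe_set_eq, ← Nat.card_prod]
  refine Nat.card_eq_of_bijective (fun x => ⟨(x.2 : F) • x.1.1.rep, hP _ _ x.2.ne_zero x.1.2,
    smul_ne_zero x.2.ne_zero x.1.1.rep_nonzero⟩) ⟨fun ⟨⟨x, _⟩, a⟩ ⟨⟨y, _⟩, b⟩ h => ?_, fun ⟨v, h, h0⟩ => ?_⟩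
  · simp only [Subtype.mk.injEq] at h
    obtain rfl : x = y := by
      rw [← x.mk_rep, ← y.mk_rep, mk_eq_mk_iff]
      exact ⟨a⁻¹ * b, by rw [mul_smul, Units.smul_def b, ← h]; exact inv_smul_smul a _⟩
    rw [Units.ext (smul_left_injective F x.rep_nonzero h)]
  · obtain ⟨a, ha⟩ := exists_smul_eq_mk_rep F v h0
    exact ⟨(⟨.mk F v h0, by simpa [← ha, Units.smul_def] using hP a v a.ne_zero h⟩, a⁻¹), Subtype.ext (by
      simp [← ha, Units.smul_def])⟩

variable {B : V →ₛₗ[σ] V →ₗ[F] F} {e w f : V}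

theorem smul_mk' (g : UG B) {x : V} (hx : x ≠ 0) :
    g • Projectivization.mk F x hx = .mk F (g.1 x) (UG_ne_zero g hx) := smul_mk g.1 hx

theorem smul_mk_eq {g : UG B} {x y : V} (hx : x ≠ 0) (hy : y ≠ 0) :
    g • Projectivization.mk F x hx = .mk F y hy ↔ ∃ a : F, g.1 x = a • y := by
  rw [smul_mk', mk_eq_mk_iff']; exact exists_congr fun _ => eq_comm

theorem pow_apply {g : UG B} {l : F} (h : g.1 e = l • e) (n : ℕ) : (g ^ n).1 e = l ^ n • e := by
  induction n with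
  | zero => simp
  | succ n ih => rw [pow_succ', UG_mul_apply, ih, map_smul, h, smul_smul, pow_succ]

variable (B) in
/-- isotropic points perpendicular to `w` -/
def OL (w : V) : Set (ℙ F V) := {x | B x.rep x.rep = 0 ∧ B w x.rep = 0}

theorem mk_mem_OL {v : V} (hv : v ≠ 0) : Projectivization.mk F v hv ∈ OL B w ↔ B v v = 0 ∧ B w v = 0 := by
  obtain ⟨a, ha⟩ := exists_smul_eq_mk_rep F v hv
  simp [OL, ← ha, Units.smul_def]

theorem smul_mem_OL {g : UG B} {m : F} (h : g.1 w = m • w) {x : ℙ F V} (hx : x ∈ OL B w) : g • x ∈ OL B w := by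
  induction x using Projectivization.ind with | h v hv => ?_
  rw [mk_mem_OL] at hx
  rw [smul_mk', mk_mem_OL, UG_map]
  refine ⟨hx.1, ?_⟩
  by_cases h0 : m = 0
  · rw [h0, zero_smul, EmbeddingLike.map_eq_zero_iff] at h; simp [h]
  simpa [h, hx.2, h0] using UG_map g w v

variable [hC : C3 B] [FiniteDimensional F V]

theorem Fr.fe' (h : Fr B e w f) : B f e = -1 := h.toSP.fe hC.sd
theorem Fr.we (h : Fr B e w f) : B w e = 0 := hC.sd.comm0 h.ew
theorem Fr.wf (h : Fr B e w f) : B w f = 0 := hC.sd.comm0 h.fw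

theorem spp_one (h : SP B e f) : finrank F (spp B e f) = 1 := by
  have := h.finrank_spp hC.sd; rw [hC.dim] at this; omega

theorem Fr.span (h : Fr B e w f) (x : V) : ∃ a b c : F, x = a • e + b • w + c • f := by
  obtain ⟨a, c, u, rfl⟩ := h.toSP.exists_eq hC.sd x
  obtain ⟨b, rfl⟩ := (finrank_eq_one_iff_of_nonzero' (⟨w, mem_sperp_pair.2 ⟨h.ew, h.fw⟩⟩ : spp B e f)
    fun h' => h.ww (by simp [show w = 0 from congrArg Subtype.val h'])).1 (spp_one h.toSP) u
  exact ⟨a, b, c, by simp; abel⟩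

theorem exists_fr (h : SP B e f) : ∃ w, Fr B e w f := by
  obtain ⟨u, hu, h1⟩ := finrank_eq_one_iff'.1 (spp_one h)
  refine ⟨u, h, spp_left u, spp_right u, fun h0 => hu ((h.sd hC.sd).sep u fun y => ?_)⟩
  obtain ⟨c, rfl⟩ := h1 y
  simp [res_apply, h0]

theorem exists_fr' (he : B e e = 0) (h0 : e ≠ 0) (h : B e w = 0) (hw : B w w ≠ 0) : ∃ f, Fr B e w f := by
  obtain ⟨f, h1, h2, h3⟩ := hC.sd.exists_partner (F ∙ w) he (fun h => by
    obtain ⟨a, rfl⟩ := Submodule.mem_span_singleton.1 h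
    simp [hw] at he; simp [he] at h0) fun x hx => by
    obtain ⟨a, rfl⟩ := Submodule.mem_span_singleton.1 hx
    simp [hC.sd.comm0 h]
  exact ⟨f, ⟨he, h1, h2⟩, h, hC.sd.comm0 (h3 w (Submodule.mem_span_singleton_self w)), hw⟩

theorem exists_fr0 (he : B e e = 0) (h0 : e ≠ 0) : ∃ w f, Fr B e w f := by
  obtain ⟨f, h⟩ := hC.sd.exists_SP he h0
  obtain ⟨w, h⟩ := exists_fr h
  exact ⟨w, f, h⟩

theorem Fr.ext (h : Fr B e w f) {g k : UG B} (h1 : g.1 e = k.1 e) (h2 : g.1 w = k.1 w) (h3 : g.1 f = k.1 f) :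
    g = k := UG_ext fun x => by obtain ⟨a, b, c, rfl⟩ := h.span x; simp [h1, h2, h3]

theorem Fr.coef (h : Fr B e w f) {a b c a' b' c' : F} (H : a • e + b • w + c • f = a' • e + b' • w + c' • f) :
    a = a' ∧ b = b' ∧ c = c' :=
  ⟨by simpa [h.fe', h.fw, h.ff] using congrArg (B f) H, by simpa [h.we, h.wf, h.ww] using congrArg (B w) H,
    by simpa [h.ee, h.ew, h.ef] using congrArg (B e) H⟩

theorem Fr.borel (h : Fr B e w f) {g : UG B} (hg : g ∈ SUG B) {l : F} (hl : g.1 e = l • e) :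
    l ≠ 0 ∧ ∃ a b c : F, g.1 w = a • e + (σ l / l) • w ∧ g.1 f = c • e + b • w + (σ l)⁻¹ • f := by
  have h0 : l ≠ 0 := by rintro rfl; exact UG_ne_zero g h.ne_left (by simpa using hl)
  obtain ⟨a, m, x, h1⟩ := h.span (g.1 w)
  obtain ⟨c, b, n, h2⟩ := h.span (g.1 f)
  obtain rfl : x = 0 := by simpa [hl, h1, h.ee, h.ew, h.ef, h0] using UG_map g e w
  obtain rfl : n = (σ l)⁻¹ := eq_inv_of_mul_eq_one_right (by simpa [hl, h2, h.ee, h.ew, h.ef] using UG_map g e f)
  let bs := basisOfTopLeSpanOfCardEqFinrank ![e, w, f] (fun x _ => by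
    obtain ⟨a, b, c, rfl⟩ := h.span x
    refine add_mem (add_mem ?_ ?_) ?_ <;> refine Submodule.smul_mem _ _ (Submodule.subset_span ?_) <;> simp)
    (by simp [hC.dim])
  have e0 : e = bs 0 := by simp [bs]
  have e1 : w = bs 1 := by simp [bs]
  have e2 : f = bs 2 := by simp [bs]
  have h3 := mem_SUG.1 hg
  rw [← LinearMap.det_toMatrix bs, Matrix.det_fin_three] at h3
  simp only [LinearMap.toMatrix_apply, LinearEquiv.coe_coe, ← e0, ← e1, ← e2, hl, h1, h2] at h3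
  simp [e0, e1, e2] at h3
  have := hC.sd.σ_ne_zero h0
  refine ⟨h0, a, b, c, ?_, h2⟩
  rw [h1, show σ l / l = m by field_simp at h3 ⊢; exact h3.symm, zero_smul, add_zero]

theorem Fr.rho_f (h : Fr B e w f) {a c : F} (hA : Adm B e (a • w) c) :
    (rho B e (a • w) c).1 f = c • e + a • w + (1 : F) • f := by
  simp [rho_apply hC.sd hA, h.ef, h.wf]; abel

theorem Fr.eq_rho (h : Fr B e w f) {g : UG B} (hg : g ∈ SUG B) (hl : g.1 e = e) :
    ∃ a c : F, Adm B e (a • w) c ∧ g = rho B e (a • w) c := by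
  obtain ⟨-, a, b, c, h1, h2⟩ := h.borel hg (l := 1) (by simpa using hl)
  have hA : Adm B e (b • w) c := ⟨h.ee, by simp [h.ew], by
    have := UG_map g f f
    simp [h2, h.ee, h.ew, h.ef, h.we, h.wf, h.fe', h.fw, h.ff] at this ⊢
    linear_combination -this⟩
  refine ⟨b, c, hA, h.ext (hl.trans (rho_apply_self hC.sd _ _ _).symm) ?_ (by simp [h2, h.rho_f hA])⟩
  have := UG_map g f w
  simp [h1, h2, h.ee, h.ew, h.we, h.fe', h.fw] at this
  simp [h1, rho_apply hC.sd hA, h.ew, add_comm, show a = σ b * B w w by linear_combination -this]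

theorem tv_pow (he : B e e = 0) {c : F} (hc : σ c = c) (n : ℕ) : tv B e c ^ n = tv B e (n * c) := by
  induction n with
  | zero => simp [tv_zero hC.sd]
  | succ n ih => rw [pow_succ, ih, tv_mul hC.sd he (by simp [hc]) hc]; congr 1; push_cast; ring

theorem eq_smul_of_perp (he : B e e = 0) (h0 : e ≠ 0) {y : V} (hy : B y y = 0) (h : B e y = 0) :
    ∃ a : F, y = a • e := by
  obtain ⟨w, f, hF⟩ := exists_fr0 he h0
  obtain ⟨a, b, c, rfl⟩ := hF.span y
  obtain rfl : c = 0 := by simpa [he, hF.ew, hF.ef] using h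
  obtain rfl : b = 0 := by simpa [he, hF.ew, hF.we, hF.ww] using hy
  exact ⟨a, by simp⟩

variable (p : ℕ) [hp : Fact p.Prime] [CharP F p]

theorem pow_sq_eq_one (he : B e e = 0) (h0 : e ≠ 0) {g : UG B} (hg : g ∈ SUG B) (hl : g.1 e = e) :
    g ^ p ^ 2 = 1 := by
  obtain ⟨w, f, h⟩ := exists_fr0 he h0
  obtain ⟨a, c, hA, rfl⟩ := h.eq_rho hg hl
  have : ∀ n : ℕ, ∃ d, Adm B e ((n : F) • a • w) d ∧ rho B e (a • w) c ^ n = rho B e ((n : F) • a • w) d := fun n => by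
    induction n with
    | zero => exact ⟨0, by simpa using adm_zero he (map_zero σ), by simp [rho_zero hC.sd]⟩
    | succ n ih =>
      obtain ⟨d, h1, h2⟩ := ih
      rw [pow_succ, h2, rho_mul hC.sd h1 hA, Nat.cast_succ, add_smul, one_smul]
      exact ⟨_, h1.add hC.sd hA, rfl⟩
  obtain ⟨d, h1, h2⟩ := this p
  rw [CharP.cast_eq_zero, zero_smul] at h1 h2
  rw [sq, pow_mul, h2, ← tv, tv_pow he (sub_eq_zero.1 (by simpa using h1.cc)).symm, CharP.cast_eq_zero, zero_mul,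
    tv_zero hC.sd]

omit hC in
theorem fix_of_pow {g : UG B} {k : ℕ} (hk : g ^ p ^ k = 1) {l : F} (h : g.1 e = l • e) : g.1 e = e := by
  by_cases h0 : e = 0
  · simp [h0]
  have := pow_apply h (p ^ k)
  rw [hk, UG_one_apply, eq_comm, ← sub_eq_zero, ← one_smul F e, smul_smul, mul_one, ← sub_smul, smul_eq_zero,
    ← one_pow (p ^ k), ← sub_pow_char_pow] at this
  rw [h, sub_eq_zero.1 (pow_eq_zero_iff (pow_pos hp.out.pos k).ne' |>.1 (this.resolve_right h0)), one_smul]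

theorem ti {u : UG B} (hu : u ∈ SUG B) (h1 : u ≠ 1) (hk : ∃ k, u ^ p ^ k = 1) {x y : ℙ F V} (hx : x ∈ OL B w)
    (hy : y ∈ OL B w) (hux : u • x = x) (huy : u • y = y) : x = y := by
  induction x using Projectivization.ind with | h e he => ?_
  induction y using Projectivization.ind with | h y hy0 => ?_
  obtain ⟨k, hk⟩ := hk
  replace hux := fix_of_pow p hk ((smul_mk_eq _ _).1 hux).choose_spec
  replace huy := fix_of_pow p hk ((smul_mk_eq _ _).1 huy).choose_spec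
  rw [mk_mem_OL] at hx hy
  by_cases h : B e y = 0
  · obtain ⟨a, rfl⟩ := eq_smul_of_perp hx.1 he hy.1 h
    exact ((mk_eq_mk_iff' F _ _ _ _).2 ⟨a, rfl⟩).symm
  obtain ⟨w, hF⟩ := exists_fr (B := B) (e := e) (f := (B e y)⁻¹ • y) ⟨hx.1, by simp [hy.1], by simp [h]⟩
  obtain ⟨a, c, hA, rfl⟩ := hF.eq_rho hu hux
  obtain ⟨rfl, rfl, -⟩ := hF.coef (a' := 0) (b' := 0) (c' := 1) ((hF.rho_f hA).symm.trans (by simp [huy]))
  simp [rho_zero hC.sd] at h1

variable [Finite F] [Finite V]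

include hC in
theorem card_F : Nat.card F = q0 σ ^ 2 := card_eq_q0_sq hC.ne hC.sd.invol

theorem ncard_Om : (OL B 0).ncard = q0 σ ^ 3 + 1 := by
  have h := ncard_pts (F := F) (fun v => B v v = 0 ∧ B 0 v = 0) fun a v _ h => by simp [h.1]
  have h2 := two_le_q0 (σ := σ)
  simp only [map_zero, LinearMap.zero_apply, and_true] at h
  rw [card_iso_ne_zero, hC.sd.niso_unitary hC.ne, hC.dim, card_F (B := B)] at h
  refine Nat.eq_of_mul_eq_mul_right (m := q0 σ ^ 2 - 1) (Nat.sub_pos_of_lt (by nlinarith)) ?_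
  simpa [OL, guIso, show ¬ Even 3 by decide] using h

theorem ncard_OL (hw : B w w ≠ 0) : (OL B w).ncard = q0 σ + 1 := by
  have h := ncard_pts (F := F) (fun v => B v v = 0 ∧ B w v = 0) fun a v _ h => by simp [h.1, h.2]
  have h2 := two_le_q0 (σ := σ)
  have h3 := hC.sd.finrank_sperp (F ∙ w)
  rw [finrank_span_singleton (fun h => hw (by simp [h])), hC.dim] at h3
  rw [show Nat.card {v // (B v v = 0 ∧ B w v = 0) ∧ v ≠ 0} = Nat.card {v : sperp B (F ∙ w) // res B _ v v = 0 ∧ v ≠ 0} from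
    Nat.card_congr ⟨fun v => ⟨⟨v.1, mem_sperp_singleton.2 v.2.1.2⟩, v.2.1.1, by simpa using v.2.2⟩,
      fun v => ⟨v.1.1, ⟨v.2.1, mem_sperp_singleton.1 v.1.2⟩, by simpa using v.2.2⟩, fun _ => rfl, fun _ => rfl⟩,
    card_iso_ne_zero, (hC.sd.restrict (hC.sd.disjoint_sperp (hC.sd.disjoint_span_singleton hw))).niso_unitary hC.ne,
    show finrank F (sperp B (F ∙ w)) = 2 by omega, card_F (B := B)] at h
  refine Nat.eq_of_mul_eq_mul_right (m := q0 σ ^ 2 - 1) (Nat.sub_pos_of_lt (by nlinarith)) ?_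
  simpa [OL, guIso, mul_comm] using h

include hC in
theorem exists_q : ∃ m, m ≠ 0 ∧ q0 σ = p ^ m := by
  have := Fintype.ofFinite F
  obtain ⟨n, -, hn⟩ := FiniteField.card F p
  rw [← Nat.card_eq_fintype_card, card_F (B := B)] at hn
  obtain ⟨m, -, hm⟩ := (Nat.dvd_prime_pow hp.out).1 (hn ▸ dvd_pow_self (q0 σ) two_ne_zero)
  exact ⟨m, by rintro rfl; have := two_le_q0 (σ := σ); simp at hm; omega, hm⟩

end Cfsg.Agent.H13.U3
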