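import Cfsg.Agent.H13.U3b

/-! Large subgroups of `SU₃(q)`: point stabilisers and secant lines. -/

set_option autoImplicit false
set_option linter.unusedSectionVars false

namespace Cfsg.Agent.H13.U3
open MulAction Subgroup H12 Module Projectivization
open scoped LinearAlgebra.Projectivization MatrixGroups

variable {F V : Type*} [Field F] [AddCommGroup V] [Module F V] {σ : F →+* F} {B : V →ₛₗ[σ] V →ₗ[F] F} {e w f : V}
  [hC : C3 B] [FiniteDimensional F V] [Finite F] [Finite V] (H : Subgroup (UG B))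

instance finUG : Finite (UG B) := Finite.of_injective (fun g : UG B => (g.1 : V → V)) fun _ _ h => UG_ext (congrFun h)

/-- transitive on the isotropic points of `w^⊥` -/
def Tra (w : V) : Prop := ∀ x ∈ OL B w, ∀ y ∈ OL B w, ∃ g ∈ H, g • x = y

/-- eigenvalues on `e` -/
def TT (e : V) : Subgroup Fˣ where
  carrier := {l | ∃ g ∈ H, g.1 e = (l : F) • e}
  one_mem' := ⟨1, one_mem _, by simp⟩
  mul_mem' := fun ⟨g, hg, h⟩ ⟨k, hk, h'⟩ => ⟨g * k, mul_mem hg hk, by simp [h, h', smul_smul, mul_comm]⟩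
  inv_mem' := fun {l} ⟨g, hg, h⟩ => ⟨g⁻¹, inv_mem hg, UG_inv_apply_eq (by simp [h, smul_smul])⟩

/-- image of the unipotent radical -/
def SS (h : Fr B e w f) : AddSubgroup F where
  carrier := {a | ∃ c, Adm B e (a • w) c ∧ rho B e (a • w) c ∈ H}
  zero_mem' := ⟨0, by simpa using adm_zero h.ee (map_zero σ), by simp [rho_zero hC.sd]⟩
  add_mem' := fun ⟨c, h1, h2⟩ ⟨d, h3, h4⟩ => by
    rw [Set.mem_setOf, add_smul]; exact ⟨_, h1.add hC.sd h3, rho_mul hC.sd h1 h3 ▸ mul_mem h2 h4⟩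
  neg_mem' := fun ⟨c, h1, h2⟩ => by
    rw [Set.mem_setOf, neg_smul]; exact ⟨_, h1.neg hC.sd, rho_inv hC.sd h1 ▸ inv_mem h2⟩

/-- transvections -/
def AA (h : B e e = 0) : AddSubgroup F where
  carrier := {c | σ c = c ∧ tv B e c ∈ H}
  zero_mem' := ⟨map_zero σ, by simp [tv_zero hC.sd]⟩
  add_mem' := fun ⟨h1, h2⟩ ⟨h3, h4⟩ => ⟨by simp [h1, h3], tv_mul hC.sd h h1 h3 ▸ mul_mem h2 h4⟩
  neg_mem' := fun ⟨h1, h2⟩ => ⟨by simp [h1], tv_inv hC.sd e _ ▸ inv_mem h2⟩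

variable {H}

theorem Tra.vec (h : Tra H w) {x y : V} (hx : B x x = 0) (hx' : B w x = 0) (h0 : x ≠ 0) (hy : B y y = 0)
    (hy' : B w y = 0) (h1 : y ≠ 0) : ∃ g ∈ H, ∃ a : F, g.1 x = a • y := by
  obtain ⟨g, hg, h⟩ := h _ ((mk_mem_OL h0).2 ⟨hx, hx'⟩) _ ((mk_mem_OL h1).2 ⟨hy, hy'⟩)
  exact ⟨g, hg, (smul_mk_eq _ _).1 h⟩

theorem Tra.card (h : Tra H w) (hw : ∀ g ∈ H, ∃ m : F, g.1 w = m • w) {x : ℙ F V} (hx : x ∈ OL B w) :
    Nat.card H = (OL B w).ncard * Nat.card (H ⊓ stabilizer (UG B) x : Subgroup _) :=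
  card_eq_card_mul_card_inf_stabilizer H x (· ∈ OL B w) fun y =>
    ⟨h x hx y, by rintro ⟨g, hg, rfl⟩; exact smul_mem_OL (hw g hg).choose_spec hx⟩

theorem tra_of (p : ℕ) [Fact p.Prime] [CharP F p] (hH : H ≤ SUG B) (hw : ∀ g ∈ H, ∃ m : F, g.1 w = m • w)
    (h0 : w = 0 ∨ B w w ≠ 0) (h : ∀ v, v ≠ 0 → B v v = 0 → B w v = 0 → ∃ u ∈ H, u ≠ 1 ∧ u.1 v = v) : Tra H w := by
  refine trans_of_ti (p := p) H _ (fun g hg x => smul_mem_OL (hw g hg).choose_spec) ?_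
    (fun u hu h1 hk x hx y hy => ti p (hH hu) h1 hk hx hy) fun x hx => ?_
  · obtain ⟨m, hm, hq⟩ := exists_q (B := B) p
    have : p ∣ q0 σ := hq ▸ dvd_pow_self p hm
    rcases h0 with rfl | h0
    · rw [ncard_Om, Nat.dvd_add_right (dvd_pow this (by omega))]; exact Fact.out (p := p.Prime) |>.not_dvd_one
    · rw [ncard_OL h0, Nat.dvd_add_right this]; exact Fact.out (p := p.Prime) |>.not_dvd_one
  · induction x using Projectivization.ind with | h v hv => ?_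
    rw [mk_mem_OL] at hx
    obtain ⟨u, hu, h1, h2⟩ := h v hv hx.1 hx.2
    exact ⟨u, hu, h1, ⟨2, pow_sq_eq_one p hx.1 hv (hH hu) h2⟩, (smul_mk_eq _ _).2 ⟨1, by simp [h2]⟩⟩

theorem card_stab_pt (h0 : e ≠ 0) : Nat.card (H ⊓ stabilizer (UG B) (Projectivization.mk F e h0) : Subgroup _) =
    Nat.card (TT H e) * Nat.card (H ⊓ stabilizer (UG B) e : Subgroup _) := by
  rw [card_eq_card_mul_card_inf_stabilizer _ e (fun y => ∃ l ∈ TT H e, (l : F) • e = y) fun y =>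
    ⟨by rintro ⟨l, ⟨g, hg, h⟩, rfl⟩; exact ⟨g, ⟨hg, (smul_mk_eq _ _).2 ⟨l, h⟩⟩, h⟩, by
      rintro ⟨g, ⟨hg, h⟩, rfl⟩
      obtain ⟨a, h⟩ := (smul_mk_eq _ _).1 h
      exact ⟨.mk0 a fun h' => UG_ne_zero g h0 (by simp [h, h']), ⟨g, hg, h⟩, h.symm⟩⟩]
  congr 1
  · exact (Nat.card_eq_of_bijective (fun l : TT H e => ⟨(l.1 : F) • e, l.1, l.2, rfl⟩)
      ⟨fun a b h => Subtype.ext (Units.ext (smul_left_injective F h0 (congrArg Subtype.val h))),
        by rintro ⟨_, l, hl, rfl⟩; exact ⟨⟨l, hl⟩, rfl⟩⟩).symm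
  · rw [inf_assoc, inf_eq_right.2 (show stabilizer (UG B) e ≤ stabilizer (UG B) (Projectivization.mk F e h0) from
      fun g hg => (smul_mk_eq _ _).2 ⟨1, hg.trans (one_smul F e).symm⟩)]

theorem card_stab_vec (hH : H ≤ SUG B) (h : Fr B e w f) :
    Nat.card (H ⊓ stabilizer (UG B) e : Subgroup _) = Nat.card (SS H h) * Nat.card (AA H h.ee) := by
  have h1 : ∀ {a c : F}, Adm B e (a • w) c → B w ((rho B e (a • w) c).1 f) / B w w = a := fun hA => by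
    simp [h.rho_f hA, h.we, h.wf, h.ww]
  let π : (H ⊓ stabilizer (UG B) e : Subgroup _) →* Multiplicative F :=
    .mk' (fun g => .ofAdd (B w (g.1.1 f) / B w w)) fun g k => by
      obtain ⟨a, c, hA, h2⟩ := h.eq_rho (hH g.2.1) g.2.2
      obtain ⟨a', c', hA', h3⟩ := h.eq_rho (hH k.2.1) k.2.2
      have := hA.add hC.sd hA'
      rw [coe_mul, h2, h3, rho_mul hC.sd hA hA', h1 hA, h1 hA', ← add_smul] at *
      rw [h1 this, ofAdd_add]
  rw [card_eq_card_range_mul_card_ker π]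
  congr 1
  · refine Nat.card_congr (Equiv.subtypeEquiv Multiplicative.toAdd fun a => ⟨?_, fun ⟨c, hA, hc⟩ =>
      ⟨⟨_, hc, rho_apply_self hC.sd _ _ _⟩, congrArg Multiplicative.ofAdd (h1 hA)⟩⟩)
    rintro ⟨g, rfl⟩
    obtain ⟨a, c, hA, h2⟩ := h.eq_rho (hH g.2.1) g.2.2
    have : (π g).toAdd = a := by rw [← h1 hA, ← h2]; rfl
    exact this ▸ ⟨c, hA, h2 ▸ g.2.1⟩
  · refine (Nat.card_eq_of_bijective (fun c : AA H h.ee => ⟨⟨tv B e c, c.2.2, rho_apply_self hC.sd _ _ _⟩,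
      congrArg Multiplicative.ofAdd (by simp [tv_apply hC.sd h.ee c.2.1, h.we, h.wf])⟩) ⟨fun a b hab => ?_, fun g => ?_⟩).symm
    · have := congrArg (fun g => B f (g.1.1.1 f)) hab
      simpa [tv_apply hC.sd h.ee a.2.1, tv_apply hC.sd h.ee b.2.1, h.ef, h.fe'] using this
    · obtain ⟨a, c, hA, h2⟩ := h.eq_rho (hH g.1.2.1) g.1.2.2
      obtain rfl : a = 0 := by rw [← h1 hA, ← h2]; exact g.2
      rw [zero_smul] at hA h2
      exact ⟨⟨c, (sub_eq_zero.1 (by simpa using hA.cc)).symm, (show tv B e c = _ from h2.symm) ▸ g.1.2.1⟩,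
        Subtype.ext (Subtype.ext h2.symm)⟩

include hC in
theorem card_units_F : Nat.card Fˣ = q0 σ ^ 2 - 1 := by rw [Nat.card_units, card_F (B := B)]

theorem tra_of_card (p : ℕ) [Fact p.Prime] [CharP F p] (hH : H ≤ SUG B)
    (hc : (q0 σ ^ 3 + 1) * (q0 σ ^ 2 - 1) ≤ Nat.card H) : Tra H 0 := by
  by_cases h : ∀ v, v ≠ 0 → B v v = 0 → B 0 v = 0 → ∃ u ∈ H, u ≠ 1 ∧ u.1 v = v
  · exact tra_of p hH (by simp) (.inl rfl) h
  push Not at h
  obtain ⟨v, h0, hv, -, h⟩ := h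
  have h1 := card_stab_pt (H := H) h0
  rw [show H ⊓ stabilizer (UG B) v = ⊥ from eq_bot_iff.2 fun g hg => by_contra fun h' => h g hg.1 h' hg.2,
    card_bot, mul_one] at h1
  have h2 := card_eq_card_mul_card_inf_stabilizer H (Projectivization.mk F v h0) (· ∈ orbit H (.mk F v h0))
    fun y => ⟨fun ⟨g, h⟩ => ⟨g, g.2, h⟩, fun ⟨g, h, h'⟩ => ⟨⟨g, h⟩, h'⟩⟩
  have h3 := card_le_card_group (TT H v)
  have h4 : orbit H (Projectivization.mk F v h0) = OL B 0 := Set.eq_of_subset_of_ncard_le (by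
    rintro _ ⟨g, rfl⟩; exact smul_mem_OL (m := 0) (by simp) ((mk_mem_OL h0).2 ⟨hv, by simp⟩)) (by
    rw [card_units_F (B := B)] at h3
    rw [h2, h1] at hc
    have := two_le_q0 (σ := σ)
    exact ncard_Om (B := B) ▸ Nat.le_of_mul_le_mul_right (hc.trans (Nat.mul_le_mul_left _ h3))
      (Nat.sub_pos_of_lt (by nlinarith)))
  rw [Tra, ← h4]
  rintro _ ⟨g, rfl⟩ _ ⟨k, rfl⟩
  exact ⟨k * g⁻¹, (k * g⁻¹).2, by simp [mul_smul, Subgroup.smul_def]⟩

theorem Fr.eq_of_perp (h : Fr B e w f) {x : V} (hx : B w x = 0) : x = -B f x • e + B e x • f := by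
  obtain ⟨a, b, c, rfl⟩ := h.span x
  obtain rfl : b = 0 := by simpa [h.we, h.wf, h.ww] using hx
  simp [h.ee, h.ef, h.fe', h.ff]

theorem exists_X (h : Fr B e w f) (hw : ∀ g ∈ H, ∃ m : F, g.1 w = m • w) (hT : Tra H w) :
    ∃ X : Subgroup PGL(2, F), (orbit X (inf F)).ncard = q0 σ + 1 ∧ Nat.card X ∣ Nat.card H ∧ ∀ (a : Fˣ) (b : F),
      affPGL a b ∈ X ↔ ∃ g ∈ H, ∃ n : F, g.1 e = (a * n) • e ∧ g.1 f = (b * n) • e + n • f := by
  have h1 : ∀ g ∈ H, ∀ x, B w x = 0 → B w (g.1 x) = 0 := fun g hg x hx => by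
    obtain ⟨m, hm⟩ := hw g hg
    have h0 : m ≠ 0 := by rintro rfl; exact UG_ne_zero g (x := w) (fun h' => h.ww (by simp [h'])) (by simpa using hm)
    simpa [hm, hx, h0] using UG_map g w x
  let M : H →* Matrix (Fin 2) (Fin 2) F :=
    { toFun g := !![-B f (g.1.1 e), -B f (g.1.1 f); B e (g.1.1 e), B e (g.1.1 f)]
      map_one' := by rw [Matrix.one_fin_two]; simp [h.ee, h.ef, h.fe', h.ff]
      map_mul' g k := by
        have e1 := h.eq_of_perp (h1 _ k.2 e h.we)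
        have e2 := h.eq_of_perp (h1 _ k.2 f h.wf)
        generalize -B f (k.1.1 e) = a, B e (k.1.1 e) = b, -B f (k.1.1 f) = c, B e (k.1.1 f) = d at *
        ext i j; fin_cases i <;> fin_cases j <;> simp [Matrix.mul_apply, e1, e2] <;> ring }
  let φ : H →* PGL(2, F) := Matrix.ProjGenLinGroup.mk.comp M.toHomUnits
  have hφ : ∀ g x, φ g • x = (M.toHomUnits g : GL (Fin 2) F) • x := fun g x => pgl_mk_smul _ _
  refine ⟨φ.range, ?_, card_range_dvd φ, fun a b => ⟨?_, ?_⟩⟩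
  · have : orbit φ.range (inf F) = insert (inf F) (aff '' {z | σ z = z}) := by
      ext y
      constructor
      · rintro ⟨⟨_, g, rfl⟩, rfl⟩
        by_cases h0 : B e (g.1.1 e) = 0
        · exact .inl ((hφ _ _).trans ((gl_smul_inf_eq_inf_iff _).2 h0))
        refine .inr ⟨-B f (g.1.1 e) / B e (g.1.1 e), ?_, ((hφ _ _).trans ((gl_smul_inf_eq_aff_iff _ _).2
          (div_mul_cancel₀ _ h0).symm)).symm⟩
        have h2 := UG_map g.1 e e
        rw [h.eq_of_perp (h1 _ g.2 e h.we)] at h2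
        simp [h.ee, h.ef, h.fe', h.ff] at h2
        have := hC.sd.σ_ne_zero h0
        simp only [Set.mem_setOf, map_div₀, map_neg]
        field_simp
        linear_combination h2
      · rintro (rfl | ⟨z, hz, rfl⟩)
        · exact mem_orbit_self _
        obtain ⟨g, hg, a, ha⟩ := hT.vec h.ee h.we h.ne_left (y := z • e + f)
          (by simp [h.ee, h.ef, h.fe', h.ff, show σ z = z from hz]) (by simp [h.we, h.wf])
          fun h0 => by simpa [h.ee, h.ef] using congrArg (B e) h0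
        exact ⟨⟨_, ⟨g, hg⟩, rfl⟩, (hφ _ _).trans ((gl_smul_inf_eq_aff_iff _ _).2 (by
          simp [M, ha, h.ee, h.ef, h.fe', h.ff, mul_comm]))⟩
    rw [this, Set.ncard_insert_of_notMem (by rintro ⟨z, -, hz⟩; exact aff_ne_inf z hz),
      Set.ncard_image_of_injective _ aff_injective]
    rfl
  · rintro ⟨g, hg⟩
    have e1 := (gl_smul_inf_eq_inf_iff _).1 ((hφ g _).symm.trans (hg ▸ affPGL_smul_inf a b))
    have e2 := (gl_smul_aff_eq_aff_iff _ _ _).1 ((hφ g _).symm.trans (hg ▸ affPGL_smul_aff a b 0))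
    have e3 := (gl_smul_aff_eq_aff_iff _ _ _).1 ((hφ g _).symm.trans (hg ▸ affPGL_smul_aff a b 1))
    simp [M] at e1 e2 e3
    refine ⟨g, g.2, B e (g.1.1 f), ?_, ?_⟩
    · rw [h.eq_of_perp (h1 _ g.2 e h.we), e1, zero_smul, add_zero]
      congr 1
      rw [e1] at e3
      linear_combination e3 - e2
    · rw [← e2]; exact h.eq_of_perp (h1 _ g.2 f h.wf)
  · rintro ⟨g, hg, n, h2, h3⟩
    refine ⟨⟨g, hg⟩, pgl_ext_std ?_ ?_ ?_⟩ <;> rw [hφ]
    · rw [affPGL_smul_inf, gl_smul_inf_eq_inf_iff]; simp [M, h2, h.ee]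
    all_goals rw [affPGL_smul_aff, gl_smul_aff_eq_aff_iff]; simp [M, h2, h3, h.ee, h.ef, h.fe', h.ff]
    ring

end Cfsg.Agent.H13.U3
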