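import Cfsg.Agent.H13.U3c

/-! Sylow counting with a Singer prime in subgroups of `SU₃(q)`. -/

set_option autoImplicit false
set_option linter.unusedSectionVars false

namespace Cfsg.Agent.H13.U3
open MulAction Subgroup H12 Module Projectivization
open scoped LinearAlgebra.Projectivization MatrixGroups

variable {F V : Type*} [Field F] [AddCommGroup V] [Module F V] {σ : F →+* F} {B : V →ₛₗ[σ] V →ₗ[F] F}
  [hC : C3 B] [FiniteDimensional F V] [Finite F] [Finite V] {H : Subgroup (UG B)}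

/-- eigenspace -/
def Eg (g : UG B) (l : F) : Submodule F V := LinearMap.ker ((g.1 : V →ₗ[F] V) - l • LinearMap.id)

theorem mem_Eg {g : UG B} {l : F} {v : V} : v ∈ Eg g l ↔ g.1 v = l • v := by simp [Eg, sub_eq_zero]

theorem three_le_Eg {j : UG B} (h : j * j = 1) : 3 ≤ finrank F (Eg j 1) + finrank F (Eg j (-1)) := by
  rw [← hC.dim, ← LinearMap.finrank_range_add_finrank_ker ((j.1 : V →ₗ[F] V) - (-1 : F) • LinearMap.id)]
  refine Nat.add_le_add_right (Submodule.finrank_mono ?_) _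
  rintro _ ⟨v, rfl⟩
  have : j.1 (j.1 v) = v := by rw [← UG_mul_apply, h, UG_one_apply]
  simp [mem_Eg, this, add_comm]

include hC in
theorem exists_iso_mem {W : Submodule F V} (h : 2 ≤ finrank F W) : ∃ v ∈ W, v ≠ 0 ∧ B v v = 0 := by
  by_cases hd : Disjoint W (sperp B W)
  · obtain ⟨v, h0, hv⟩ := (hC.sd.restrict hd).exists_iso hC.sd.ns h
    exact ⟨v, v.2, by simpa using h0, hv⟩
  · rw [hC.sd.disjoint_iff] at hd
    push Not at hd
    obtain ⟨u, hu, h1, h2⟩ := hd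
    exact ⟨u, hu, h2, h1 u hu⟩

section Irr
variable {r : ℕ} [hr : Fact r.Prime] (h1 : ¬ r ∣ q0 σ * (q0 σ ^ 4 - 1)) {x : UG B} (hx : x ^ r = 1)
include hx

theorem exists_fix (O : Set V) (hO : ∀ v ∈ O, x.1 v ∈ O) (h : ¬ r ∣ O.ncard) : ∃ v ∈ O, x.1 v = v := by
  obtain ⟨v, hv, h⟩ := H2.Pm.exists_fixed_of_not_dvd (P := zpowers x) (p := r) (fun ⟨g, n, hn⟩ => ⟨1, Subtype.ext (by
    simp only [← hn, coe_pow, coe_one]; rw [← zpow_natCast, zpow_comm, zpow_natCast, pow_one, hx, one_zpow])⟩) O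
    (fun g hg v hv => by
      obtain ⟨n, rfl⟩ := mem_powers_iff_mem_zpowers.2 hg
      induction n with
      | zero => simpa using hv
      | succ n ih => simpa [pow_succ', mul_smul, UG_smul_def] using hO _ (ih (npow_mem_zpowers _ _))) h
  exact ⟨v, hv, h x (mem_zpowers x)⟩

include h1

theorem irr (h0 : x ≠ 1) {W : Submodule F V} (hW : ∀ v ∈ W, x.1 v ∈ W) (hb : W ≠ ⊥) : W = ⊤ := by
  have h2 : ∀ U : Submodule F V, U ≠ ⊥ → U ≠ ⊤ → (U : Set V).ncard = q0 σ ^ 2 ∨ (U : Set V).ncard = q0 σ ^ 4 :=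
    fun U hb ht => by
      have e1 := Submodule.finrank_lt ht
      have e2 := Submodule.finrank_eq_zero.not.2 hb
      rw [← Nat.card_coe_set_eq, SetLike.coe_sort_coe, natCard_eq_pow_finrank (K := F), card_F (B := B), ← pow_mul]
      rw [hC.dim] at e1
      obtain h | h : finrank F U = 1 ∨ finrank F U = 2 := by omega
      all_goals simp [h]
  have h3 : q0 σ ^ 2 - 1 ∣ q0 σ ^ 4 - 1 := by
    have := Nat.sub_dvd_pow_sub_pow (q0 σ ^ 2) 1 2; rwa [← pow_mul, one_pow] at this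
  by_contra ht
  obtain ⟨v, hv, h4⟩ := exists_fix hx ((W : Set V) \ {0}) (fun v hv => ⟨hW v hv.1, UG_ne_zero x hv.2⟩) fun h => h1 (by
    rw [Set.ncard_diff_singleton_of_mem W.zero_mem] at h
    rcases h2 W hb ht with e | e <;> rw [e] at h
    exacts [(h.trans h3).mul_left _, h.mul_left _])
  obtain ⟨u, hu, h5⟩ := exists_fix hx (Eg x 1 : Set V)ᶜ (fun v hv h => hv (by simpa [mem_Eg] using h)) fun h => h1 (by
    rw [Set.ncard_compl, natCard_eq_pow_finrank (K := F), card_F (B := B), hC.dim, ← pow_mul] at h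
    rcases h2 (Eg x 1) (fun h => hv.2 (by simpa [h] using (mem_Eg (g := x) (l := (1 : F))).2 (by simpa using h4)))
      (fun h => h0 (UG_ext fun v => (mem_Eg.1 (h ▸ Submodule.mem_top : v ∈ Eg x 1)).trans (one_smul _ _))) with e | e <;> rw [e] at h
    · rw [show 2 * 3 = 2 + 4 from rfl, pow_add, ← Nat.mul_sub_one, hr.out.dvd_mul] at h
      exact h.elim (fun h => (hr.out.dvd_of_dvd_pow h).mul_right _) (·.mul_left _)
    · rw [show 2 * 3 = 4 + 2 from rfl, pow_add, ← Nat.mul_sub_one, hr.out.dvd_mul] at h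
      exact h.elim (fun h => (hr.out.dvd_of_dvd_pow h).mul_right _) fun h => (h.trans h3).mul_left _)
  exact hu (by simp [mem_Eg, h5])

theorem scal_of_comm (h0 : x ≠ 1) {y : UG B} (h : x * y = y * x) {v : V} (hv : v ≠ 0) {l : F} (hl : y.1 v = l • v)
    (u : V) : y.1 u = l • u :=
  mem_Eg.1 ((irr h1 hx h0 (W := Eg y l) (fun v hv => by
    rw [mem_Eg] at *; rw [← UG_mul_apply, ← h, UG_mul_apply, hv, map_smul]) fun h => hv (by
    simpa [h] using mem_Eg.2 hl)) ▸ Submodule.mem_top)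

end Irr

theorem syl (p : ℕ) [Fact p.Prime] [CharP F p] (hH : H ≤ SUG B) (hZ : ∀ g ∈ center (SUG B), g.1 ∈ H) {r : ℕ}
    (hr : r.Prime) (h1 : ¬ r ∣ q0 σ * (q0 σ ^ 4 - 1)) (h2 : r ∣ q0 σ ^ 3 + 1) (h3 : r ∣ Nat.card H)
    (h4 : ¬ r ^ 2 ∣ Nat.card H) : ∃ n c e, n % r = 1 ∧ e ∣ r - 1 ∧ c ∣ q0 σ ^ 4 + q0 σ ^ 2 + 1 ∧
      r ∣ Nat.gcd 3 (q0 σ + 1) * c ∧ n * (Nat.gcd 3 (q0 σ + 1) * c * e) = Nat.card H ∧ (p = 2 → Odd e) ∧
      ((∀ v, v ≠ 0 → B v v = 0 → B 0 v = 0 → ∃ u ∈ H, u ≠ 1 ∧ u.1 v = v) → e ≠ 1) := by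
  have := Fact.mk hr
  obtain ⟨R⟩ : Nonempty (Sylow r H) := inferInstance
  have hR : Nat.card R = r := by
    have e1 := (hr.dvd_iff_one_le_factorization Nat.card_pos.ne').1 h3
    have e2 := mt (hr.pow_dvd_iff_le_factorization (k := 2) (Nat.card_pos (α := H)).ne').2 h4
    rw [R.card_eq_multiplicity, show (Nat.card H).factorization r = 1 by omega, pow_one]
  have : IsCyclic R := isCyclic_of_prime_card hR
  have hp : ∀ x ∈ R, (x : UG B) ^ r = 1 := fun x hx => by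
    have := congrArg (fun g => g.1.1) (pow_card_eq_one' (x := (⟨x, hx⟩ : R.1)))
    rw [hR] at this; exact this
  obtain ⟨x, hx, hx1⟩ : ∃ x ∈ R, (x : UG B) ≠ 1 := by
    have : Nontrivial R := Finite.one_lt_card_iff_nontrivial.1 (hr.one_lt.trans_eq hR.symm)
    obtain ⟨x, hx⟩ := exists_ne (1 : R)
    exact ⟨x, x.2, by simpa using hx⟩
  set C := centralizer (R : Set H)
  let φ := (toPermHom (UG B) (ℙ F V)).comp (H.subtype.comp C.subtype)
  have h5 : ∀ (g : C) (y : ℙ F V), φ g y = y → ∃ l : F, ∀ u, g.1.1.1 u = l • u := fun g y hy => by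
    induction y using Projectivization.ind with | h v hv => ?_
    obtain ⟨l, hl⟩ := (smul_mk_eq _ _).1 hy
    exact ⟨l, scal_of_comm h1 (hp x hx) hx1 (congrArg Subtype.val (g.2 x hx)) hv hl⟩
  have h6 : ∀ g : C, (∃ l : F, ∀ u, g.1.1.1 u = l • u) → φ g = 1 := fun g ⟨l, hl⟩ => Equiv.ext fun y => by
    induction y using Projectivization.ind with | h v hv => exact (smul_mk_eq _ _).2 ⟨l, hl v⟩
  have h7 : Nat.card φ.range ∣ q0 σ ^ 4 + q0 σ ^ 2 + 1 := by
    have := card_dvd_ncard_of_free (K := φ.range) (Set.univ : Set (ℙ F V)) (fun _ _ _ => trivial) (by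
      rintro ⟨_, g, rfl⟩ y - hy; exact Subtype.ext (h6 g (h5 g y hy)))
    rwa [Set.ncard_univ, card_of_finrank F V hC.dim, card_F (B := B), show ∑ i ∈ Finset.range 3, (q0 σ ^ 2) ^ i =
      q0 σ ^ 4 + q0 σ ^ 2 + 1 by simp [Finset.sum_range_succ]; ring] at this
  have hz := fun g => hC.sd.mem_center_SUG_iff hC.sd.ns (by simp [hC.dim]) (g := g)
  have h8 : Nat.card φ.ker = Nat.gcd 3 (q0 σ + 1) := by
    have : Nontrivial V := Module.nontrivial_of_finrank_pos (R := F) (by simp [hC.dim])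
    obtain ⟨v, hv⟩ := exists_ne (0 : V)
    rw [← card_N1 hC.ne hC.sd.invol, ← card_N1_pow_eq_one, ← hC.dim, ← hC.sd.card_center_SUG hC.sd.ns (by simp [hC.dim])]
    exact Nat.card_congr ⟨fun g => ⟨⟨_, hH g.1.1.2⟩, (hz _).2 (h5 g.1 (.mk F v hv) (by rw [g.2]; rfl))⟩,
      fun g => ⟨⟨⟨_, hZ _ g.2⟩, fun y hy => Subtype.ext
        (congrArg (Subtype.val : SUG B → UG B) (mem_center_iff.1 g.2 ⟨_, hH y.2⟩))⟩,
        h6 _ ((hz _).1 g.2)⟩, fun _ => rfl, fun _ => rfl⟩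
  have h9 := card_eq_card_range_mul_card_ker φ
  have h10 := card_mul_index R.1.normalizerMonoidHom.ker
  rw [index_ker, normalizerMonoidHom_ker,
    Nat.card_congr (subgroupOfEquivOfLe (centralizer_le_normalizer _)).toEquiv] at h10
  rw [h8, mul_comm] at h9
  refine ⟨Nat.card (Sylow r H), _, Nat.card R.1.normalizerMonoidHom.range,
    Eq.trans (card_sylow_modEq_one r H) (Nat.mod_eq_of_lt hr.one_lt), ?_, h7, ?_, ?_, ?_, fun h he => ?_⟩
  · simpa [IsCyclic.card_mulAut, hR, Nat.totient_prime hr] using card_subgroup_dvd_card R.1.normalizerMonoidHom.range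
  · rw [← h9, ← hR]; exact card_dvd_of_le (le_centralizer R.1)
  · rw [← h9, R.card_eq_index_normalizer, ← index_mul_card (normalizer (R : Set H))]; congr 1
  · rintro rfl
    by_contra he
    obtain ⟨j, hj⟩ := exists_prime_orderOf_dvd_card' (G := normalizer (R : Set H)) 2
      (h10 ▸ (Nat.not_odd_iff_even.1 he).two_dvd.mul_left _)
    have hj2 : j.1 * j.1 = 1 := by rw [← coe_mul, ← sq, ← hj, pow_orderOf_eq_one, coe_one]
    have hjC : j.1 ∉ C := fun h => by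
      have := orderOf_dvd_natCard (⟨j.1, h⟩ : C)
      rw [orderOf_mk, orderOf_coe, hj, h9, Nat.prime_two.dvd_mul] at this
      have e1 := this.elim (fun h => absurd (h.trans (Nat.gcd_dvd_left _ _)) (by norm_num)) (·.trans h7)
      have e2 : Even (q0 σ ^ 4 + q0 σ ^ 2) := by rw [show 4 = 2 * 2 from rfl, pow_mul, sq, ← Nat.mul_add_one]; simp [Nat.even_mul_succ_self]
      obtain ⟨k, hk⟩ := e2
      omega
    obtain ⟨y, hy, hy1⟩ : ∃ y ∈ R, y * j.1 ≠ j.1 * y := by simpa [C, mem_centralizer_iff] using hjC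
    have hy2 : j.1 * y * j.1⁻¹ ∈ R := (mem_normalizer_iff.1 j.2 y).1 hy
    have hz2 : (j.1 * (y⁻¹ * (j.1 * y * j.1⁻¹))) * (j.1 * (y⁻¹ * (j.1 * y * j.1⁻¹))) = 1 := by
      have := le_centralizer R.1 hy _ (inv_mem hy2)
      calc _ = (j.1 * y * j.1⁻¹)⁻¹ * (j.1 * j.1) * y * (j.1⁻¹ * j.1) * y⁻¹ * (j.1 * y * j.1⁻¹) := by group
        _ = 1 := by rw [hj2]; group
    have e1 := three_le_Eg (congrArg Subtype.val hj2)
    have e2 := three_le_Eg (congrArg Subtype.val hz2)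
    rw [CharTwo.neg_eq] at e1 e2
    have e3 := Submodule.finrank_sup_add_finrank_inf_eq (Eg j.1.1 1) (Eg (j.1 * (y⁻¹ * (j.1 * y * j.1⁻¹))).1 1)
    have e4 := hC.dim ▸ Submodule.finrank_le (Eg j.1.1 1 ⊔ Eg (j.1 * (y⁻¹ * (j.1 * y * j.1⁻¹))).1 1)
    obtain ⟨v, ⟨e5, e6⟩, hv⟩ := Submodule.exists_mem_ne_zero_of_ne_bot (Submodule.finrank_eq_zero.not.1
      (show finrank F (Eg j.1.1 1 ⊓ Eg (j.1 * (y⁻¹ * (j.1 * y * j.1⁻¹))).1 1 : Submodule F V) ≠ 0 by omega))
    have e7 : (y⁻¹ * (j.1 * y * j.1⁻¹)).1 ≠ 1 := fun h => hy1 (by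
      rw [← coe_one, Subtype.coe_inj, inv_mul_eq_one, eq_mul_inv_iff_mul_eq] at h; exact h)
    refine e7 (UG_ext fun u => (scal_of_comm h1 (hp _ (mul_mem (inv_mem hy) hy2)) e7 rfl hv (l := 1) ?_ u).trans
      (one_smul _ _))
    refine j.1.1.1.injective ?_
    rw [map_smul, mem_Eg.1 e5, one_smul]
    exact mem_Eg.1 e6
  · rw [he, mul_one] at h10
    have hN : normalizer (R : Set H) ≤ C := (eq_of_le_of_card_ge (centralizer_le_normalizer _) h10.ge).ge
    have hK := map_subtype_le (MonoidHom.transferSylow R hN).ker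
    obtain ⟨y, hy⟩ := Set.nonempty_of_ncard_ne_zero (s := OL B 0) (by simp [ncard_Om])
    have := (tra_of p (hK.trans hH) (by simp) (.inl rfl) fun v h0 hv h' => by
      obtain ⟨u, hu, e1, e2⟩ := h v h0 hv h'
      refine ⟨u, ⟨⟨u, hu⟩, ?_, rfl⟩, e1, e2⟩
      have e3 : (⟨u, hu⟩ : H) ^ p ^ 2 = 1 := Subtype.ext (pow_sq_eq_one p hv h0 (hH hu) e2)
      obtain ⟨m, hm, hq⟩ := exists_q (B := B) p
      exact orderOf_eq_one_iff.1 (Nat.eq_one_of_dvd_coprimes ((hr.coprime_iff_not_dvd.2 fun h => h1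
        (((hr.dvd_of_dvd_pow h).trans ((dvd_pow_self p hm).trans hq.symm.dvd)).mul_right _)) : r.Coprime (p ^ 2))
        ((_root_.orderOf_dvd_natCard _).trans hR.dvd) (orderOf_dvd_of_pow_eq_one (by rw [← map_pow, e3, map_one])))).card
      (by simp) hy
    rw [card_map_of_injective H.subtype_injective, ncard_Om] at this
    exact MonoidHom.not_dvd_card_ker_transferSylow R hN (this ▸ h2.mul_right _)

end Cfsg.Agent.H13.U3
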