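import Cfsg.Agent.H13.U3d

/-! Local analysis of large subgroups of `SU₃(q)`. -/

set_option autoImplicit false
set_option linter.unusedSectionVars false

namespace Cfsg.Agent.H13.U3
open MulAction Subgroup H12 Module Projectivization
open scoped LinearAlgebra.Projectivization MatrixGroups

theorem card_eq_map_mul {G G' : Type*} [Group G] [Group G'] (φ : G →* G') (T : Subgroup G) :
    Nat.card T = Nat.card (T.map φ) * Nat.card (T ⊓ φ.ker : Subgroup G) := by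
  rw [card_eq_card_range_mul_card_ker (φ.domRestrict T), MonoidHom.domRestrict_range, MonoidHom.ker_domRestrict,
    card_subgroupOf_eq]

theorem ncard_pow_le {F : Type*} [Field F] {n : ℕ} (hn : 0 < n) : {x : F | x ^ n = 1}.ncard ≤ n := by
  classical
  rw [show {x : F | x ^ n = 1} = (Polynomial.nthRoots n (1 : F)).toFinset by ext; simp [Polynomial.mem_nthRoots hn],
    Set.ncard_coe_finset]
  exact (Multiset.toFinset_card_le _).trans (Polynomial.card_nthRoots n 1)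

variable {F V : Type*} [Field F] [AddCommGroup V] [Module F V] {σ : F →+* F} {B : V →ₛₗ[σ] V →ₗ[F] F} {e w f : V}
  [hC : C3 B] [FiniteDimensional F V] [Finite F] [Finite V] {H : Subgroup (UG B)}

theorem card_le_of_pow {T : Subgroup Fˣ} {n : ℕ} (hn : 0 < n) (h : ∀ l ∈ T, (l : F) ^ n = 1) : Nat.card T ≤ n :=
  (Nat.card_le_card_of_injective (fun l : T => (⟨l.1, h _ l.2⟩ : {x : F | x ^ n = 1}))
    fun _ _ h => Subtype.ext (Units.ext (congrArg Subtype.val h))).trans (ncard_pow_le hn)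

theorem card_le_q {A : AddSubgroup F} (a : F) (h0 : a ≠ 0) (h : ∀ c ∈ A, σ (c / a) = c / a) : Nat.card A ≤ q0 σ :=
  Nat.card_le_card_of_injective (fun c : A => (⟨_, h _ c.2⟩ : {a // σ a = a}))
    fun _ _ h => Subtype.ext ((div_left_inj' h0).1 (congrArg Subtype.val h))

theorem pow_f {g : UG B} {n b : F} (h1 : g.1 e = n • e) (h2 : g.1 f = (b * n) • e + n • f) (k : ℕ) :
    (g ^ k).1 f = (k * b * n ^ k) • e + n ^ k • f := by
  induction k with
  | zero => simp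
  | succ k ih => rw [pow_succ', UG_mul_apply, ih]; simp only [map_add, map_smul, h1, h2]; push_cast; module

theorem mul_mem_SS (hH : H ≤ SUG B) (h : Fr B e w f) {l : Fˣ} (hl : l ∈ TT H e) {a : F} (ha : a ∈ SS H h) :
    σ l * σ l / l * a ∈ SS H h := by
  obtain ⟨g, hg, hl⟩ := hl
  obtain ⟨c, hA, hc⟩ := ha
  have h1 := mul_mem (mul_mem hg hc) (inv_mem hg)
  obtain ⟨a', c', hA', h2⟩ := h.eq_rho (hH h1) (by
    rw [UG_mul_apply, UG_mul_apply, UG_inv_apply_eq (x := (l⁻¹ : F) • e) (by simp [hl, smul_smul])]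
    simp [rho_apply_self hC.sd, hl, smul_smul])
  obtain ⟨-, x, y, z, h3, h4⟩ := h.borel (hH hg) hl
  have h5 := congrArg (fun k : UG B => B w ((k * g).1 f)) h2
  simp [h3, h4, hl, h.rho_f hA, rho_apply hC.sd hA', h.we, h.wf, h.ew, h.ee, h.ef] at h5
  have := hC.sd.σ_ne_zero l.ne_zero
  have := h.ww
  rw [show σ l * σ l / l * a = a' by field_simp at h5 ⊢; linear_combination h5]
  exact ⟨c', hA', h2 ▸ h1⟩

theorem mul_mem_AA (he : B e e = 0) {l : Fˣ} (hl : l ∈ TT H e) {c : F} (hc : c ∈ AA H he) :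
    c * (l * σ l) ∈ AA H he := by
  obtain ⟨g, hg, hl⟩ := hl
  refine ⟨by simp [hc.1, hC.sd.invol, mul_comm], ?_⟩
  rw [← tv_smul hC.sd he hc.1, ← hl, ← conj_tv hC.sd]
  exact mul_mem (mul_mem hg hc.2) (inv_mem hg)

theorem comm_mem (h : Fr B e w f) {a b : F} (ha : a ∈ SS H h) (hb : b ∈ SS H h) :
    (σ a * b - a * σ b) * B w w ∈ AA H h.ee := by
  obtain ⟨c, hA, hc⟩ := ha
  obtain ⟨d, hB, hd⟩ := hb
  have : B (a • w) (b • w) + σ (B (a • w) (b • w)) = (σ a * b - a * σ b) * B w w := by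
    simp [hC.sd.invol, hC.sd.σ_map]; ring
  refine ⟨by simp [hC.sd.invol, hC.sd.σ_map]; ring, ?_⟩
  rw [← this, ← commutator_rho hC.sd hA hB]
  exact mul_mem (mul_mem (mul_mem hc hd) (inv_mem hc)) (inv_mem hd)

theorem sq_mem [CharP F 2] (h : Fr B e w f) {a : F} (ha : a ∈ SS H h) : σ a * a * B w w ∈ AA H h.ee := by
  obtain ⟨c, hA, hc⟩ := ha
  refine ⟨by simp [hC.sd.invol, hC.sd.σ_map, CharTwo.neg_eq, mul_comm], ?_⟩
  have := mul_mem hc hc
  rw [rho_mul hC.sd hA hA, ← add_smul, CharTwo.add_self_eq_zero, CharTwo.add_self_eq_zero] at this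
  simpa [tv, mul_comm, mul_left_comm, mul_assoc] using this

theorem tv_mem (hT : Tra H 0) (he : B e e = 0) (h0 : e ≠ 0) {v : V} (hv : B v v = 0) (h1 : v ≠ 0) :
    ∃ a : F, a ≠ 0 ∧ ∀ c ∈ AA H he, tv B v (c * (a * σ a)) ∈ H := by
  obtain ⟨g, hg, a, ha⟩ := hT.vec he (by simp) h0 hv (by simp) h1
  refine ⟨a, fun h => UG_ne_zero g h0 (by simp [ha, h]), fun c hc => ?_⟩
  rw [← tv_smul hC.sd hv hc.1, ← ha, ← conj_tv hC.sd]
  exact mul_mem (mul_mem hg hc.2) (inv_mem hg)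

theorem top_of (h3 : 3 ≤ q0 σ) (hT : Tra H 0) (he : B e e = 0) (h0 : e ≠ 0) (h : Nat.card (AA H he) = q0 σ) :
    SUG B ≤ H := by
  have h1 : (AA H he : Set F) = {a | σ a = a} := Set.eq_of_subset_of_ncard_le (fun _ h => h.1) h.ge
  rw [← hC.sd.TG_eq_SUG hC.sd.ns (.inl (exists_fix_ne_of_three_le h3)), TG, closure_le]
  rintro _ ⟨v, c, rfl⟩
  by_cases h2 : B v v = 0 ∧ σ c = c
  · by_cases h4 : v = 0
    · rw [h4, tv_zero_left hC.sd]; exact one_mem _
    obtain ⟨a, ha, h5⟩ := tv_mem hT he h0 h2.1 h4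
    have := h5 (c / (a * σ a)) (h1.ge (by simp [h2.2, hC.sd.invol, mul_comm]))
    rwa [div_mul_cancel₀ _ (by simp [ha])] at this
  · rw [tv_of_not h2]; exact one_mem _

variable (p : ℕ) [hp : Fact p.Prime] [CharP F p]

theorem dk_AA (h3 : 3 ≤ q0 σ) (hH : H ≤ SUG B) (hT : Tra H 0) (h : Fr B e w f) (h1 : AA H h.ee ≠ ⊥) :
    Nat.card (AA H h.ee) = q0 σ ∨ (p = 2 ∧ Nat.card (AA H h.ee) = 2) ∨ (q0 σ = 9 ∧ Nat.card (AA H h.ee) = 3) := by
  have hw : ∀ g ∈ H ⊓ stabilizer (UG B) w, ∃ m : F, g.1 w = m • w := fun g hg => ⟨1, hg.2.trans (one_smul F w).symm⟩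
  obtain ⟨X, h4, -, h5⟩ := exists_X h hw (tra_of p (inf_le_left.trans hH) hw (.inr h.ww) fun v h0 hv hv' => by
    obtain ⟨⟨c, hc⟩, hc0⟩ := (AddSubgroup.ne_bot_iff_exists_ne_zero).1 h1
    obtain ⟨a, ha, h5⟩ := tv_mem hT h.ee h.ne_left hv h0
    exact ⟨_, ⟨h5 c hc, tv_apply_of_perp hC.sd _ (hC.sd.comm0 hv')⟩, hC.sd.tv_ne_one hv h0
      (by simp [hc.1, hC.sd.invol, mul_comm]) (by simpa [ha] using hc0), tv_apply_of_perp hC.sd _ hv⟩)
  have h6 : transl X = AA H h.ee := by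
    ext b
    rw [mem_transl, h5]
    refine ⟨fun ⟨g, hg, n, e1, e2⟩ => ?_, fun hb => ⟨_, ⟨hb.2, tv_apply_of_perp hC.sd _ h.ew⟩, 1,
      by simp [tv_apply_of_perp hC.sd _ h.ee], by simp [tv_apply hC.sd h.ee hb.1, h.ef, add_comm]⟩⟩
    rw [Units.val_one, one_mul] at e1
    obtain ⟨h0, x, y, z, e3, e4⟩ := h.borel (hH hg.1) e1
    have e5 := (h.coef (a := 0) (b := 1) (c := 0) (a' := x) (b' := σ n / n) (c' := 0) (by simpa using hg.2.symm.trans e3)).2.1
    have e6 := (h.coef (a := b * n) (b := 0) (c := n) (by simpa using e2.symm.trans e4)).2.2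
    rw [eq_div_iff h0, one_mul] at e5
    have e7 : n ^ (p + 1) = 1 := by
      have : n ^ 2 = 1 := by rw [sq]; nth_rw 1 [e6]; rw [← e5, inv_mul_cancel₀ h0]
      obtain rfl | h := hp.out.eq_two_or_odd'
      · rw [pow_succ, this, one_mul]
        simpa [CharTwo.neg_eq] using sq_eq_one_iff.1 this
      · obtain ⟨k, hk⟩ := h.add_one
        rw [hk, ← two_mul, pow_mul, this, one_pow]
    have e8 := pow_f e1 e2 (p + 1)
    have e9 : σ b = b := by
      have := UG_map (g ^ (p + 1)) f f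
      rw [e8] at this
      simp [e7, h.ee, h.ef, h.fe', h.ff] at this
      linear_combination this
    refine ⟨e9, (h.ext ?_ ?_ ?_ : g ^ (p + 1) = tv B e b) ▸ pow_mem hg.1 _⟩
    · rw [pow_apply e1, e7, one_smul, tv_apply_of_perp hC.sd _ h.ee]
    · rw [tv_apply_of_perp hC.sd _ h.ew]; exact (pow_mem hg _).2
    · rw [e8]; simp [e7, tv_apply hC.sd h.ee e9, h.ef, add_comm]
  obtain ⟨m, -, hm⟩ := exists_q (B := B) p
  exact h6 ▸ dk_unip p X hm h3 h4 (h6 ▸ (AddSubgroup.one_lt_card_iff_ne_bot _).2 h1)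
    (h6 ▸ card_le_q 1 one_ne_zero fun c hc => by simpa using hc.1)

variable (σ) in
/-- the norm -/
def nm : Fˣ →* Fˣ := Units.map σ.toMonoidHom * .id _

theorem Tra.card' (hH : H ≤ SUG B) (h : Fr B e w f) {u : V} (hT : Tra H u) (hu : ∀ g ∈ H, ∃ m : F, g.1 u = m • u)
    (he : B u e = 0) : Nat.card H = (OL B u).ncard * (Nat.card (TT H e) * (Nat.card (SS H h) * Nat.card (AA H h.ee))) := by
  rw [hT.card hu ((mk_mem_OL h.ne_left).2 ⟨h.ee, he⟩), card_stab_pt, card_stab_vec hH h]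

include hp in
theorem refl (h3 : 3 ≤ q0 σ) (hH : H ≤ SUG B) (hT : Tra H 0) (h : Fr B e w f) (h1 : AA H h.ee = ⊥) {g : UG B} {l m : F}
    (e1 : g.1 e = l • e) (e2 : g.1 f = l • f) (e3 : g.1 w = m • w) (hm : m ≠ l)
    (hc : ∀ k ∈ H, g.1 (k.1 e) = l • k.1 e → ∃ k' ∈ H, g * k' = k' * g ∧ k'.1 e = k.1 e) :
    ∃ n, Nat.card (TT H e) ≤ n * Nat.card (TT H e ⊓ N1 σ : Subgroup _) ∧ (q0 σ + 1) * n ∣ Nat.card H ∧
      (n ≤ 2 ∨ (q0 σ + 1) * n = 12 ∨ (q0 σ + 1) * n = 24 ∨ (q0 σ + 1) * n = 60) := by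
  set K := H ⊓ centralizer {g}
  have hK : K ≤ SUG B := inf_le_left.trans hH
  have hw : ∀ k ∈ K, ∃ m : F, k.1 w = m • w := fun k hk => by
    obtain ⟨a, b, c, h2⟩ := h.span (k.1 w)
    have := congrArg (fun x : UG B => x.1 w) (hk.2 g rfl)
    simp only [UG_mul_apply, h2, e3, map_add, map_smul, e1, e2, smul_add, smul_smul] at this
    obtain ⟨h4, -, h5⟩ := h.coef this
    rw [mul_comm, mul_eq_mul_right_iff] at h4 h5
    exact ⟨b, by simp [h2, h4.resolve_left hm.symm, h5.resolve_left hm.symm]⟩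
  have h2 : ∀ y ∈ OL B w, ∃ k ∈ K, k • Projectivization.mk F e h.ne_left = y := fun y hy => by
    induction y using Projectivization.ind with | h v hv => ?_
    rw [mk_mem_OL] at hy
    obtain ⟨k, hk, a, ha⟩ := hT.vec h.ee (by simp) h.ne_left hy.1 (by simp) hv
    obtain ⟨k', h4, h5, h6⟩ := hc k hk (by
      rw [ha, h.eq_of_perp hy.2]; simp only [map_smul, map_add, e1, e2]; module)
    exact ⟨k', ⟨h4, mem_centralizer_singleton_iff.2 h5.symm⟩, (smul_mk_eq _ _).2 ⟨a, h6.trans ha⟩⟩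
  have hT' : Tra K w := fun x hx y hy => by
    obtain ⟨a, ha, rfl⟩ := h2 x hx
    obtain ⟨b, hb, rfl⟩ := h2 y hy
    exact ⟨b * a⁻¹, mul_mem hb (inv_mem ha), by simp [mul_smul]⟩
  obtain ⟨X, h4, h5, h6⟩ := exists_X h hw hT'
  have h7 := hT'.card' hK h hw h.we
  rw [show SS K h = ⊥ from eq_bot_iff.2 fun a ⟨c, hA, hc⟩ => by
      obtain ⟨x, hx⟩ := hw _ hc
      simpa [rho_apply hC.sd hA, h.ew, h.fw, h.fe', h.ww] using congrArg (B f) hx,
    show AA K h.ee = ⊥ from eq_bot_iff.2 fun c hc => h1.le ⟨hc.1, hc.2.1⟩, ncard_OL h.ww] at h7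
  obtain ⟨j, hj, hq⟩ := exists_q (B := B) p
  have h8 : ¬ p ∣ Nat.card X := fun h => by
    have e1 : p ∣ q0 σ := hq ▸ dvd_pow_self p hj
    have e2 := card_units_F (B := B) ▸ card_subgroup_dvd_card (TT K e)
    simp only [AddSubgroup.card_bot, mul_one] at h7
    refine hp.out.not_dvd_one ((hp.out.dvd_mul.1 (h7 ▸ h.trans h5)).elim (Nat.dvd_add_right e1).1 fun h => ?_)
    have := Nat.dvd_sub (dvd_pow e1 two_ne_zero) (h.trans e2)
    rwa [Nat.sub_sub_self (Nat.one_le_pow _ _ (by omega))] at this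
  have h9 := card_eq_orb X
  rw [h4, card_transl, show X ⊓ unip (inf F) = ⊥ from by_contra fun h => h8 (dvd_of_unip p X h), card_bot, one_mul] at h9
  refine ⟨_, ?_, h9 ▸ h5.trans (card_dvd_of_le inf_le_left), h9 ▸ dk_coprime p X (by omega) h8⟩
  rw [card_eq_map_mul (nm σ) (TT H e), show (nm σ).ker = N1 σ from Subgroup.ext fun a => by simp [nm, mem_N1, Units.ext_iff]]
  refine Nat.mul_le_mul_right _ (card_le_of_le ?_)
  rintro _ ⟨a, ⟨k, hk, ha⟩, rfl⟩
  obtain ⟨k', h10, h11, h12⟩ := hc k hk (by rw [ha, map_smul, e1, smul_comm])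
  have hk' : k' ∈ K := ⟨h10, mem_centralizer_singleton_iff.2 h11.symm⟩
  obtain ⟨h0, x, y, z, e4, e5⟩ := h.borel (hK hk') (h12.trans ha)
  obtain ⟨u, hu⟩ := hw _ hk'
  obtain rfl : y = 0 := by
    have : u ≠ 0 := by rintro rfl; exact UG_ne_zero k' (x := w) (fun h' => h.ww (by simp [h'])) (by simpa using hu)
    simpa [hu, e5, h.we, h.wf, h.ww, this] using UG_map k' w f
  exact ⟨z * σ a, (h6 _ _).2 ⟨k', hk', (σ a)⁻¹, by simp [h12, ha, nm, mul_right_comm _ a.1], by simp [e5]⟩⟩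

omit hp in
theorem exists_fr_eig (he : B e e = 0) (h0 : e ≠ 0) {g : UG B} (hg : g ∈ SUG B) {l : F} (hl : g.1 e = l • e)
    (h : σ l / l ≠ l) : ∃ w f, ∃ c : F, Fr B e w f ∧ g.1 w = (σ l / l) • w ∧ g.1 f = c • e + (σ l)⁻¹ • f := by
  obtain ⟨w, f, hF⟩ := exists_fr0 he h0
  obtain ⟨h1, a, -, -, h2, -⟩ := hF.borel hg hl
  obtain ⟨f, hF'⟩ := exists_fr' he h0 (w := w + (a / (σ l / l - l)) • e) (by simp [hF.ew, he])
    (by simp [hF.ew, he, hF.we, hF.ww])
  have h3 : g.1 (w + (a / (σ l / l - l)) • e) = (σ l / l) • (w + (a / (σ l / l - l)) • e) := by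
    have := sub_ne_zero.2 h
    rw [map_add, map_smul, hl, h2]
    generalize σ l / l = m at *
    match_scalars
    · field_simp; ring
    · ring
  obtain ⟨-, -, b, c, -, h4⟩ := hF'.borel hg hl
  generalize w + (a / (σ l / l - l)) • e = w at *
  obtain rfl : b = 0 := by simpa [h3, h4, hF'.we, hF'.wf, hF'.ww, h1] using UG_map g w f
  exact ⟨w, f, c, hF', h3, by simpa using h4⟩

omit hp in
theorem card_TT_le (hH : H ≤ SUG B) (h : Fr B e w f) (h1 : SS H h ≠ ⊥) :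
    Nat.card (TT H e) ≤ (Nat.card (SS H h) - 1) * Nat.gcd 3 (q0 σ + 1) := by
  obtain ⟨⟨a, ha⟩, h0⟩ := (AddSubgroup.ne_bot_iff_exists_ne_zero).1 h1
  replace h0 : a ≠ 0 := by simpa using h0
  rw [card_eq_map_mul (Units.map σ.toMonoidHom * Units.map σ.toMonoidHom / .id _) (TT H e), ← card_N1 hC.ne hC.sd.invol,
    ← card_N1_pow_eq_one]
  refine Nat.mul_le_mul ?_ ?_
  · rw [← SetLike.coe_sort_coe (SS H h), Nat.card_coe_set_eq, ← Set.ncard_diff_singleton_of_mem (zero_mem _)]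
    exact Nat.card_le_card_of_injective (fun l => (⟨l.1 * a, by
      obtain ⟨_, l, hl, rfl⟩ := l
      simpa using mul_mem_SS hH h hl ha, by simp [h0]⟩ : ((SS H h : Set F) \ {0} : Set F)))
      fun _ _ h => Subtype.ext (Units.ext (mul_right_cancel₀ h0 (congrArg Subtype.val h)))
  · have : ∀ l : Fˣ, σ l * σ l = l → σ l * l = 1 ∧ (l : F) ^ 3 = 1 := fun l h => by
      have h2 := congrArg σ h
      rw [map_mul, hC.sd.invol] at h2
      have : (l : F) ^ 3 = 1 := mul_left_cancel₀ l.ne_zero (by rw [← h2] at h; linear_combination h)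
      exact ⟨by rw [← h2, ← this]; ring, this⟩
    have h2 : ∀ l ∈ (Units.map σ.toMonoidHom * Units.map σ.toMonoidHom / .id _ : Fˣ →* Fˣ).ker, σ l * σ l = l :=
      fun l hl => by simpa [Units.ext_iff, div_eq_one_iff_eq] using hl
    exact Nat.card_le_card_of_injective (fun l => (⟨⟨l.1, mem_N1.2 (this _ (h2 _ l.2.2)).1⟩,
      Subtype.ext (Units.ext (by simpa using (this _ (h2 _ l.2.2)).2))⟩ : {a : N1 σ // a ^ 3 = 1}))
      fun _ _ h => Subtype.ext (congrArg (fun x => x.1.1) h)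

end Cfsg.Agent.H13.U3
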