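import Cfsg.Agent.H13.U3e

/-! A subgroup of index at most `q³` in `SU₃(q)` is the whole group (`q ≥ 3`, `q ≠ 5`). -/

set_option autoImplicit false
set_option linter.unusedSectionVars false

namespace Cfsg.Agent.H13.U3
open MulAction Subgroup H12 Module Projectivization
open scoped LinearAlgebra.Projectivization MatrixGroups

theorem num7 {n c e : ℕ} (h1 : n % 7 = 1) (h2 : e ∣ 6) (h3 : 7 ∣ c) (h4 : n * (c * e) = 224) (h5 : c ∣ 91) : False := by
  obtain rfl : c = 7 := Nat.dvd_antisymm ((Nat.dvd_gcd h5 (h4 ▸ (dvd_mul_right c e).mul_left n)).trans (by norm_num)) h3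
  have := Nat.le_of_dvd (by norm_num) h2
  interval_cases e <;> omega

theorem num19 {n c e : ℕ} (h1 : n % 19 = 1) (h2 : e ∣ 18) (h3 : 19 ∣ 3 * c) (h4 : n * (3 * c * e) = 513 * 72)
    (h5 : c ∣ 4161) : Even e := by
  have h6 : c ∣ 57 := (Nat.dvd_gcd h5 (h4 ▸ ((dvd_mul_left c 3).mul_right e).mul_left n)).trans (by norm_num)
  have := Nat.le_of_dvd (by norm_num) h2
  have := Nat.le_of_dvd (by norm_num) h6
  obtain rfl | rfl : c = 19 ∨ c = 57 := by clear h4; interval_cases c <;> omega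
  all_goals rw [Nat.even_iff]; interval_cases e <;> omega

theorem num37 {n c e t : ℕ} (h1 : n % 37 = 1) (h2 : e ∣ 36) (h3 : 37 ∣ 3 * c) (h4 : n * (3 * c * e) = 1332 * (t * 11))
    (h5 : c ∣ 14763) (h6 : t ∣ 120) (h7 : t ≤ 30) (h8 : 120 ≤ t * 11) : e = 1 := by
  have h9 : c ∣ 111 := (Nat.dvd_gcd h5 ((((dvd_mul_left c 3).mul_right e).mul_left n).trans (h4.dvd.trans
    (Nat.mul_dvd_mul_left _ (Nat.mul_dvd_mul_right h6 _))))).trans (by norm_num)
  have := Nat.le_of_dvd (by norm_num) h2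
  have := Nat.le_of_dvd (by norm_num) h9
  obtain rfl | rfl : c = 37 ∨ c = 111 := by clear h4; interval_cases c <;> omega
  all_goals
    obtain rfl | rfl | rfl | rfl | rfl : t = 12 ∨ t = 15 ∨ t = 20 ∨ t = 24 ∨ t = 30 := by
      interval_cases t <;> omega
    all_goals interval_cases e <;> omega

theorem num73 {n c e t s : ℕ} (h1 : n % 73 = 1) (h2 : e ∣ 72) (h3 : 73 ∣ c) (h4 : n * (c * e) = 730 * (t * (s * 3)))
    (h5 : c ∣ 6643) (h6 : t ∣ 80) (h7 : s ∣ 81) (h8 : 80 ≤ t * (s * 3)) : e = 1 := by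
  obtain rfl : c = 73 := Nat.dvd_antisymm ((Nat.dvd_gcd h5 (((dvd_mul_right c e).mul_left n).trans (h4.dvd.trans
    (Nat.mul_dvd_mul_left _ (Nat.mul_dvd_mul h6 (Nat.mul_dvd_mul_right h7 _)))))).trans (by norm_num)) h3
  have e1 := Nat.mem_divisors.2 ⟨h2, by norm_num⟩
  have e2 := Nat.mem_divisors.2 ⟨h6, by norm_num⟩
  have e3 := Nat.mem_divisors.2 ⟨h7, by norm_num⟩
  rw [show Nat.divisors 72 = {1, 2, 3, 4, 6, 8, 9, 12, 18, 24, 36, 72} by decide] at e1
  rw [show Nat.divisors 80 = {1, 2, 4, 5, 8, 10, 16, 20, 40, 80} by decide] at e2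
  rw [show Nat.divisors 81 = {1, 3, 9, 27, 81} by decide] at e3
  fin_cases e2 <;> fin_cases e3 <;> first | omega | (fin_cases e1 <;> omega)

variable {F V : Type*} [Field F] [AddCommGroup V] [Module F V] {σ : F →+* F} {B : V →ₛₗ[σ] V →ₗ[F] F} {e w f : V}
  [hC : C3 B] [FiniteDimensional F V] [Finite F] [Finite V] {H : Subgroup (UG B)}
  (p : ℕ) [hp : Fact p.Prime] [CharP F p] (hH : H ≤ SUG B) (hZ : ∀ g ∈ center (SUG B), g.1 ∈ H) (h3 : 3 ≤ q0 σ)
  (h5 : q0 σ ≠ 5) (hc : (q0 σ ^ 3 + 1) * (q0 σ ^ 2 - 1) ≤ Nat.card H)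
include hp hH hc

theorem nums (h : Fr B e w f) : Nat.card H = (q0 σ ^ 3 + 1) * (Nat.card (TT H e) * (Nat.card (SS H h) *
    Nat.card (AA H h.ee))) ∧ q0 σ ^ 2 - 1 ≤ Nat.card (TT H e) * (Nat.card (SS H h) * Nat.card (AA H h.ee)) ∧
    Nat.card (TT H e) ∣ q0 σ ^ 2 - 1 ∧ Nat.card (SS H h) ∣ q0 σ ^ 2 := by
  have := (tra_of_card p hH hc).card' hH h (by simp) (by simp)
  rw [ncard_Om] at this
  exact ⟨this, Nat.le_of_mul_le_mul_left (this ▸ hc) (by positivity), card_units_F (B := B) ▸ card_subgroup_dvd_card _,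
    card_F (B := B) ▸ AddSubgroup.card_addSubgroup_dvd_card _⟩

theorem all_fix (h : Fr B e w f) (h1 : Nat.card (SS H h) * Nat.card (AA H h.ee) ≠ 1) (v : V) (h0 : v ≠ 0)
    (hv : B v v = 0) (_ : B 0 v = 0) : ∃ u ∈ H, u ≠ 1 ∧ u.1 v = v := by
  rw [← card_stab_vec hH h, Ne, card_eq_one] at h1
  obtain ⟨⟨u, hu⟩, h2⟩ := ne_bot_iff_exists_ne_one.1 h1
  obtain ⟨k, hk, a, ha⟩ := (tra_of_card p hH hc).vec hv (by simp) h0 h.ee (by simp) h.ne_left
  refine ⟨k⁻¹ * u * k, mul_mem (mul_mem (inv_mem hk) hu.1) hk, by simpa [mul_eq_one_iff_eq_inv] using h2, ?_⟩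
  rw [UG_mul_apply, UG_mul_apply, UG_inv_apply_eq]
  rw [ha, map_smul, show u.1 e = e from hu.2]

include hZ h3

theorem case_AA (h : Fr B e w f) (h1 : AA H h.ee ≠ ⊥) : SUG B ≤ H := by
  have hT := tra_of_card p hH hc
  obtain ⟨n1, n2, n3, n4⟩ := nums p hH hc h
  have hf := all_fix p hH hc h fun h => h1 (AddSubgroup.card_eq_one.1 (Nat.eq_one_of_mul_eq_one_left h))
  rcases dk_AA p h3 hH hT h h1 with h2 | ⟨rfl, h2⟩ | ⟨hq, h2⟩
  · exact top_of h3 hT _ h.ne_left h2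
  · obtain ⟨⟨c, hc⟩, h4, h6⟩ := (Nat.card_eq_two_iff' (0 : AA H h.ee)).1 h2
    replace h4 : c ≠ 0 := by simpa using h4
    replace h6 : ∀ d ∈ AA H h.ee, d ≠ 0 → d = c := fun d hd h => congrArg Subtype.val (h6 ⟨d, hd⟩ (by simpa using h))
    have h7 : Nat.card (TT H e) ∣ q0 σ + 1 := card_N1 hC.ne hC.sd.invol ▸ card_dvd_of_le fun l hl => mem_N1.2 (by
      rw [mul_comm]; exact mul_left_cancel₀ h4 ((h6 _ (mul_mem_AA h.ee hl hc) (by simp [h4])).trans (mul_one c).symm))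
    have h8 := Nat.le_of_dvd (by omega) h7
    obtain ⟨m, hm, hq⟩ := exists_q (B := B) 2
    have h9 : 2 ∣ q0 σ := hq ▸ dvd_pow_self 2 hm
    rw [h2] at n1 n2
    by_cases h10 : SS H h = ⊥
    · rw [h10, AddSubgroup.card_bot] at n2
      have : q0 σ ^ 2 ≥ 4 * q0 σ := by nlinarith [show 4 ≤ q0 σ by omega]
      omega
    have h11 := card_TT_le hH h h10
    have h12 : Nat.card (SS H h) ≤ 4 := by
      obtain ⟨⟨a, ha⟩, h0⟩ := (AddSubgroup.ne_bot_iff_exists_ne_zero).1 h10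
      replace h0 : a ≠ 0 := by simpa using h0
      have e1 : ∀ b ∈ SS H h, b ≠ 0 → σ b * b = σ a * a := fun b hb h' => mul_right_cancel₀ h.ww
        ((h6 _ (sq_mem h hb) (by simp [h', h.ww])).trans (h6 _ (sq_mem h ha) (by simp [h0, h.ww])).symm)
      refine (Nat.card_le_card_of_injective (fun b : SS H h => (⟨b / a, ?_⟩ : (insert 0 {x : F | x ^ 3 = 1} : Set F)))
        fun _ _ h => Subtype.ext ((div_left_inj' h0).1 (congrArg Subtype.val h))).trans
        ((Set.ncard_insert_le _ _).trans (Nat.succ_le_succ (ncard_pow_le three_pos)))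
      by_cases hb : b.1 = 0
      · simp [hb]
      by_cases hab : b.1 + a = 0
      · simp [CharTwo.add_eq_zero.1 hab, h0]
      have e2 := e1 _ b.2 hb
      have e3 := e1 _ (add_mem b.2 ha) hab
      have e4 := hC.sd.σ_ne_zero h0
      refine .inr ((div_pow _ _ _).trans (div_eq_one_iff_eq (pow_ne_zero _ h0) |>.2 (mul_left_cancel₀ e4 ?_)))
      rw [map_add] at e3
      linear_combination (b.1 - a) * b.1 * e3 - (b.1 - a) * (b.1 + a) * e2
    have h13 := Nat.gcd_le_left (q0 σ + 1) three_pos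
    have h14 : Nat.card (TT H e) * (Nat.card (SS H h) * 2) ≤ 3 * Nat.gcd 3 (q0 σ + 1) * (4 * 2) := by
      gcongr; exact h11.trans (Nat.mul_le_mul_right _ (by omega))
    have h15 : q0 σ ≤ 8 := by
      by_contra h
      have : 9 ^ 2 ≤ q0 σ ^ 2 := by gcongr; omega
      omega
    obtain hq | hq | hq : q0 σ = 4 ∨ q0 σ = 6 ∨ q0 σ = 8 := by omega
    all_goals rw [hq] at n1 n2 h7 h8 h11 h14; norm_num at h11 h14
    · generalize Nat.card (TT H e) = t at *
      interval_cases t <;> omega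
    · omega
    have h16 : Nat.card (TT H e) * (Nat.card (SS H h) * 2) = 72 := by
      generalize Nat.card (TT H e) = t at *
      interval_cases t <;> omega
    rw [h16] at n1
    obtain ⟨n, c, e, h1, h2, h3, h4, h5, h6, -⟩ := syl 2 hH hZ (r := 19) (by norm_num) (by rw [hq]; norm_num)
      (by rw [hq]; norm_num) (by rw [n1]; norm_num) (by rw [n1]; norm_num)
    rw [hq] at h3 h4 h5
    exact absurd (num19 h1 h2 h4 (h5.trans n1) h3) (Nat.not_even_iff_odd.2 (h6 rfl))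
  · rw [h2, hq] at n1 n2
    rw [hq] at n3 n4
    obtain ⟨n, c, e, h1, h2, h3, h4, h5, -, h6⟩ := syl p hH hZ (r := 73) (by norm_num) (by rw [hq]; norm_num)
      (by rw [hq]; norm_num) (n1 ▸ Dvd.dvd.mul_right (by norm_num) _) fun h => absurd (h.trans (n1.dvd.trans
        (Nat.mul_dvd_mul_left _ (Nat.mul_dvd_mul n3 (Nat.mul_dvd_mul_right n4 _))))) (by norm_num)
    rw [hq] at h3 h4 h5
    exact absurd (num73 h1 h2 (by simpa using h4) (by simpa [n1] using h5) h3 n3 n4 n2) (h6 hf)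

include h5

theorem case_one (h : Fr B e w f) (h1 : Nat.card (SS H h) * Nat.card (AA H h.ee) = 1) : False := by
  obtain ⟨n1, n2, n3, -⟩ := nums p hH hc h
  have hq := card_units_F (B := B)
  rw [h1, mul_one] at n1 n2
  have h2 : TT H e = ⊤ := eq_top_of_le_card _ (hq ▸ n2)
  rw [← card_stab_vec hH h, card_eq_one] at h1
  have h4 : ∀ g ∈ H, g.1 e = e → g = 1 := fun g hg h => h1.le ⟨hg, h⟩
  obtain ⟨l, hl, h6⟩ : ∃ l ∈ N1 σ, (l : F) ^ 3 ≠ 1 := by
    by_contra! h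
    have := card_N1 hC.ne hC.sd.invol ▸ card_le_of_pow three_pos h
    omega
  obtain ⟨g, hg, h7⟩ := h2.ge (mem_top l)
  have h8 : σ l = (l : F)⁻¹ := eq_inv_of_mul_eq_one_left hl
  have h9 : σ l / l ≠ l := fun h => h6 (by rw [h8] at h; field_simp at h; exact h.symm)
  obtain ⟨w, f, c, hF, h10, h11⟩ := exists_fr_eig h.ee h.ne_left (hH hg) h7 h9
  rw [h8, inv_inv, ← div_mul_cancel₀ c l.ne_zero] at h11
  have h12 : (l : F) ^ (q0 σ + 1) = 1 := by
    simpa [card_N1 hC.ne hC.sd.invol, Units.ext_iff] using congrArg Subtype.val (pow_card_eq_one' (x := (⟨l, hl⟩ : N1 σ)))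
  have h13 := pow_f h7 h11 (q0 σ + 1)
  obtain ⟨m, hm, hq'⟩ := exists_q (B := B) p
  rw [h4 _ (pow_mem hg _) (by rw [pow_apply h7, h12, one_smul]), h12] at h13
  simp [hq', hm, h.ne_left] at h13
  obtain ⟨n, h14, h15, h16⟩ := refl p h3 hH (tra_of_card p hH hc) hF (eq_bot_iff.2 fun c hc => by
    by_contra h0; exact hC.sd.tv_ne_one h.ee h.ne_left hc.1 h0 (h4 _ hc.2 (tv_apply_of_perp hC.sd _ h.ee)))
    h7 (by simpa [h13] using h11) h10 h9 fun k hk h => ⟨k, hk, by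
      have := h4 (k⁻¹ * g * k * g⁻¹) (mul_mem (mul_mem (mul_mem (inv_mem hk) hg) hk) (inv_mem hg)) (by
        rw [UG_mul_apply, UG_inv_apply_eq (x := (l⁻¹ : F) • e) (by simp [h7, smul_smul])]
        simp [h, smul_smul])
      rwa [mul_inv_eq_one, mul_assoc, inv_mul_eq_iff_eq_mul] at this, rfl⟩
  rw [h2, top_inf_eq, card_N1 hC.ne hC.sd.invol, card_top, hq] at h14
  rw [h2, card_top, hq] at n1
  have h17 : q0 σ ≤ n + 1 := by
    rw [show q0 σ ^ 2 - 1 = (q0 σ - 1) * (q0 σ + 1) by rw [mul_comm, ← Nat.sq_sub_sq]] at h14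
    have := Nat.le_of_mul_le_mul_right h14 (by omega); omega
  have h18 : q0 σ ≤ 7 := by rcases h16 with h | h | h | h <;> nlinarith
  rw [n1] at h15
  obtain hq | hq : q0 σ = 3 ∨ q0 σ ≠ 3 := em _
  · rw [hq] at n1
    obtain ⟨n, c, e, h1, h2, h3, h4, h5, -⟩ := syl p hH hZ (r := 7) (by norm_num) (by rw [hq]; norm_num)
      (by rw [hq]; norm_num) (by rw [n1]; norm_num) (by rw [n1]; norm_num)
    rw [hq] at h3 h4 h5
    exact num7 h1 h2 (by simpa using h4) (by simpa [n1] using h5) h3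
  · generalize q0 σ = q at *
    rcases h16 with h | h | h | h <;> (try rw [h] at h15) <;> interval_cases q <;> omega

theorem le_of_card : SUG B ≤ H := by
  by_cases hA : ∃ (e w f : V) (h : Fr B e w f), AA H h.ee ≠ ⊥
  · obtain ⟨e, w, f, h, h1⟩ := hA
    exact case_AA p hH hZ h3 hc h h1
  push Not at hA
  have hS : ∀ {e w f : V} (h : Fr B e w f), SS H h ≠ ⊥ := fun h h1 => case_one p hH hZ h3 h5 hc h (by simp [h1, hA _ _ _ h])
  obtain ⟨e, he0, he⟩ := hC.sd.exists_iso hC.sd.ns (by simp [hC.dim])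
  obtain ⟨w, f, h⟩ := exists_fr0 he he0
  obtain ⟨m, hm, hq⟩ := exists_q (B := B) p
  have hp2 : p ≠ 2 := by
    rintro rfl
    obtain ⟨⟨a, ha⟩, h0⟩ := (AddSubgroup.ne_bot_iff_exists_ne_zero).1 (hS h)
    have := sq_mem h ha
    rw [hA _ _ _ h] at this
    simp_all [h.ww]
  have ho := hp.out.odd_of_ne_two hp2
  have hqo : Odd (q0 σ) := hq ▸ ho.pow
  obtain ⟨⟨j, hj⟩, h1⟩ := exists_prime_orderOf_dvd_card' (G := H) 2 ((nums p hH hc h).1 ▸
    (hqo.pow.add_one.two_dvd).mul_right _)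
  rw [orderOf_mk] at h1
  have h2 : j * j = 1 := by rw [← sq, ← h1, pow_orderOf_eq_one]
  obtain ⟨e, h4, he0, he⟩ : ∃ v ∈ Eg j (-1), v ≠ 0 ∧ B v v = 0 := by
    obtain h | h : 2 ≤ finrank F (Eg j 1) ∨ 2 ≤ finrank F (Eg j (-1)) := by have := three_le_Eg h2; omega
    · obtain ⟨v, hv, h0, h6⟩ := exists_iso_mem (B := B) h
      have := orderOf_dvd_of_pow_eq_one (pow_sq_eq_one p h6 h0 (hH hj) (by simpa [mem_Eg] using hv))
      rw [h1] at this
      exact absurd this ho.pow.not_two_dvd_nat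
    · exact exists_iso_mem h
  rw [mem_Eg] at h4
  have h20 : (2 : F) ≠ 0 := two_ne_zero_of_char_ne p hp2
  have h6 : σ (-1) / (-1) ≠ -1 := fun h => h20 (by simp at h; linear_combination h)
  obtain ⟨w, f, c, h, h7, h8⟩ := exists_fr_eig he he0 (hH hj) h4 h6
  obtain rfl : c = 0 := by
    have : j.1 (j.1 f) = f := by rw [← UG_mul_apply, h2, UG_one_apply]
    have := congrArg (B f) this
    simp [h8, h4, h.fe', h.ff] at this
    exact (mul_eq_zero.1 ((two_mul c).trans this)).resolve_left h20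
  obtain ⟨n, h9, -, h10⟩ := refl p h3 hH (tra_of_card p hH hc) h (hA _ _ _ h) h4 (by simpa using h8) h7 h6
    fun k hk hk' => by
      have e1 : (j * (k⁻¹ * j * k)).1 e = e := by simp [hk', h4]
      have e2 := mul_mem hj (mul_mem (mul_mem (inv_mem hk) hj) hk)
      obtain ⟨m, hm⟩ := exists_conj_of_odd h2 (by simp [mul_assoc, ← mul_assoc j j, h2]) ho.pow
        (pow_sq_eq_one p he he0 (hH e2) e1)
      exact ⟨k * _, mul_mem hk (pow_mem e2 m), by rw [mul_assoc k, hm]; simp [mul_assoc], by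
        rw [UG_mul_apply, pow_apply (l := 1) (by simpa using e1)]; simp⟩
  obtain ⟨⟨a, ha⟩, h0⟩ := (AddSubgroup.ne_bot_iff_exists_ne_zero).1 (hS h)
  replace h0 : a ≠ 0 := by simpa using h0
  have h11 : ∀ b ∈ SS H h, σ (b / a) = b / a := fun b hb => by
    have := hA _ _ _ h ▸ comm_mem h ha hb
    have e1 := hC.sd.σ_ne_zero h0
    simp [h.ww] at this
    rw [map_div₀]; field_simp; linear_combination -this
  have h12 := card_le_q a h0 h11
  have h13 : Nat.card (TT H e ⊓ N1 σ : Subgroup _) ≤ 6 := card_le_of_pow (by norm_num) fun l hl => by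
    have := h11 _ (mul_mem_SS hH h hl.1 ha)
    rw [mul_div_cancel_right₀ _ h0, map_div₀, map_mul, hC.sd.invol, show σ l = (l : F)⁻¹ from
      eq_inv_of_mul_eq_one_left hl.2] at this
    field_simp at this
    exact this
  have h14 := card_TT_le hH h (hS h)
  obtain ⟨n1, n2, n3, n4⟩ := nums p hH hc h
  have h15 := (AddSubgroup.one_lt_card_iff_ne_bot _).2 (hS h)
  have hf := all_fix p hH hc h (by rw [hA _ _ _ h, AddSubgroup.card_bot]; omega)
  rw [hA _ _ _ h, AddSubgroup.card_bot, mul_one] at n1 n2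
  have h16 : q0 σ ≤ Nat.card (TT H e) := by
    have := n2.trans (Nat.mul_le_mul_left _ h12)
    by_contra! h
    have : Nat.card (TT H e) * q0 σ + q0 σ ≤ q0 σ ^ 2 := by nlinarith
    omega
  have h17 : 3 ∣ q0 σ + 1 := by_contra fun h => by
    rw [(Nat.prime_three.coprime_iff_not_dvd.2 h).gcd_eq_one] at h14; omega
  rw [Nat.gcd_eq_left h17] at h14
  have h18 : q0 σ ≤ n * 6 := h16.trans (h9.trans (Nat.mul_le_mul_left _ h13))
  have h19 : q0 σ ≤ 18 := by rcases h10 with h | h | h | h <;> nlinarith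
  have hq : q0 σ = 11 := by
    rw [Nat.odd_iff] at hqo
    generalize q0 σ = q at *
    interval_cases q <;> omega
  rw [hq] at n1 n2 n3 n4 h12
  have h21 : Nat.card (SS H h) = 11 := by
    generalize Nat.card (SS H h) = s at *
    interval_cases s <;> omega
  rw [h21] at n1 n2 h14
  obtain ⟨n, c, e, h1, h2, h3, h4, h5, -, h6⟩ := syl p hH hZ (r := 37) (by norm_num) (by rw [hq]; norm_num)
    (by rw [hq]; norm_num) (n1 ▸ Dvd.dvd.mul_right (by norm_num) _) fun h => absurd (h.trans (n1.dvd.trans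
      (Nat.mul_dvd_mul_left _ (Nat.mul_dvd_mul_right n3 _)))) (by norm_num)
  rw [hq] at h3 h4 h5
  exact absurd (num37 h1 h2 h4 (h5.trans n1) h3 n3 h14 n2) (h6 hf)

end Cfsg.Agent.H13.U3
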