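import Cfsg.Agent.H13.AltM

/-! Linear algebra for the degrees of projective representations of alternating groups. -/

set_option autoImplicit false

namespace Cfsg.Agent.H13.Wag

open Module

variable {k V : Type*} [Field k] [AddCommGroup V] [Module k V]

theorem exists_common_eig [IsAlgClosed k] [FiniteDimensional k V] {I : Type*} (T : I → End k V)
    (hT : ∀ i j, Commute (T i) (T j)) {W : Submodule k V} (hW : W ≠ ⊥)
    (hinv : ∀ i, ∀ w ∈ W, T i w ∈ W) :
    ∃ w ∈ W, w ≠ 0 ∧ ∃ β : I → k, ∀ i, T i w = β i • w := by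
  obtain ⟨U, ⟨h1, h2, h3⟩, hmin⟩ := (wellFounded_lt (α := Submodule k V)).has_min
    {U | U ≠ ⊥ ∧ U ≤ W ∧ ∀ i, ∀ w ∈ U, T i w ∈ U} ⟨W, hW, le_rfl, hinv⟩
  have : Nontrivial U := Submodule.nontrivial_iff_ne_bot.2 h1
  have key : ∀ i, ∃ μ : k, ∀ w ∈ U, T i w = μ • w := fun i => by
    obtain ⟨μ, hμ⟩ := End.exists_eigenvalue ((T i).restrict (h3 i))
    obtain ⟨v, hv⟩ := hμ.exists_hasEigenvector
    have hv1 : T i v = μ • (v : V) := congrArg Subtype.val hv.apply_eq_smul
    have hle : U ⊓ (T i).eigenspace μ = U := by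
      by_contra hne
      refine hmin (U ⊓ (T i).eigenspace μ) ⟨fun hb => ?_, inf_le_left.trans h2, fun j w hw => ?_⟩
        (lt_of_le_of_ne inf_le_left hne)
      · have : (v : V) ∈ U ⊓ (T i).eigenspace μ := ⟨v.2, End.mem_eigenspace_iff.2 hv1⟩
        rw [hb, Submodule.mem_bot] at this
        exact hv.2 (Subtype.ext this)
      · refine ⟨h3 j w hw.1, End.mem_eigenspace_iff.2 ?_⟩
        have := End.mem_eigenspace_iff.1 hw.2
        rw [← End.mul_apply, (hT i j).eq, End.mul_apply, this, map_smul]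
    exact ⟨μ, fun w hw => End.mem_eigenspace_iff.1 (hle.ge hw).2⟩
  choose β hβ using key
  obtain ⟨w, hw, hw0⟩ := (Submodule.ne_bot_iff U).1 h1
  exact ⟨w, h2 hw, hw0, β, fun i => hβ i w hw⟩

theorem ne_of_mem_range {T : End k V} {q : ℕ} (hq : (q : k) ≠ 0) (hT : T ^ q = 1) {w : V}
    (hw : w ∈ LinearMap.range (T - 1)) (h0 : w ≠ 0) : T w ≠ w := by
  intro h
  obtain ⟨v, rfl⟩ := hw
  have e : (∑ i ∈ Finset.range q, T ^ i) * (T - 1) = 0 := by rw [geom_sum_mul, hT, sub_self]
  have e2 : ∀ i : ℕ, (T ^ i) ((T - 1) v) = (T - 1) v := fun i => by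
    induction i with
    | zero => simp
    | succ i ih => rw [pow_succ, End.mul_apply, h, ih]
  have e3 := congrArg (fun S : End k V => S v) e
  simp only [End.mul_apply, LinearMap.sum_apply, e2, Finset.sum_const, Finset.card_range,
    LinearMap.zero_apply] at e3
  rw [← Nat.cast_smul_eq_nsmul k, smul_eq_zero] at e3
  tauto

theorem indep_of_sep {ι : Type*} (v : ι → V) (hv : ∀ i, v i ≠ 0)
    (h : ∀ i j, i ≠ j → ∃ (T : End k V) (μ : ι → k), (∀ l, T (v l) = μ l • v l) ∧ μ i ≠ μ j) :
    LinearIndependent k v := by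
  classical
  rw [linearIndependent_iff']
  intro s
  induction s using Finset.induction_on with
  | empty => simp
  | insert a s ha ih =>
    intro g hg
    rw [Finset.sum_insert ha] at hg
    have key : ∀ i ∈ s, g i = 0 := fun i hi => by
      obtain ⟨T, μ, h1, h2⟩ := h i a (fun e => ha (e ▸ hi))
      have := ih (fun l => g l * (μ l - μ a)) (by
        have e := congrArg (fun x => T x - μ a • x) hg
        simp only [map_add, map_smul, map_sum, h1, smul_add, Finset.smul_sum, map_zero, smul_zero,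
          sub_zero] at e
        rw [← e, smul_comm (μ a) (g a), add_sub_add_left_eq_sub, ← Finset.sum_sub_distrib]
        refine Finset.sum_congr rfl fun l _ => ?_
        rw [smul_smul, smul_smul, ← sub_smul]; congr 1; ring) i hi
      exact (mul_eq_zero.1 this).resolve_right (sub_ne_zero.2 h2)
    intro i hi
    rcases Finset.mem_insert.1 hi with rfl | hi
    · rw [Finset.sum_eq_zero (fun l hl => by rw [key l hl, zero_smul]), add_zero] at hg
      exact (smul_eq_zero.1 hg).resolve_right (hv _)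
    · exact key i hi

theorem card_le_of_sep [FiniteDimensional k V] {ι : Type*} [Finite ι] (v : ι → V)
    (hv : ∀ i, v i ≠ 0)
    (h : ∀ i j, i ≠ j → ∃ (T : End k V) (μ : ι → k), (∀ l, T (v l) = μ l • v l) ∧ μ i ≠ μ j) :
    Nat.card ι ≤ finrank k V := by
  have := Fintype.ofFinite ι
  rw [Nat.card_eq_fintype_card]
  exact (indep_of_sep v hv h).fintype_card_le_finrank

variable {G : Type*} [Group G]

theorem ne_zero_of (ρ : G →* End k V) (g : G) {v : V} (hv : v ≠ 0) : ρ g v ≠ 0 := fun h => by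
  have : ρ g⁻¹ (ρ g v) = v := by rw [← End.mul_apply, ← map_mul]; simp
  rw [h, map_zero] at this
  exact hv this.symm

theorem pow_apply_eig {T : End k V} {v : V} {a : k} (h : T v = a • v) (n : ℕ) :
    (T ^ n) v = a ^ n • v := by
  induction n with
  | zero => simp
  | succ n ih => rw [pow_succ, End.mul_apply, h, map_smul, ih, smul_smul, pow_succ']

theorem orbit2 [FiniteDimensional k V] (ρ : G →* End k V) {q : ℕ} (hq : 0 < q) {A B : G} {v : V}
    (hv : v ≠ 0)
    {a : k} (ha : IsPrimitiveRoot a q) {t : ℕ} (hA : ρ A v = a • v) (hB : ρ B v = a ^ t • v)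
    {m : ℕ} (g : Fin m → G) (i j i' j' : Fin m → ℕ)
    (h1 : ∀ s, A * g s = g s * (A ^ i s * B ^ j s))
    (h2 : ∀ s, B * g s = g s * (A ^ i' s * B ^ j' s))
    (sep : ∀ s s', s ≠ s' → (i s + t * j s) % q ≠ (i s' + t * j s') % q ∨
      (i' s + t * j' s) % q ≠ (i' s' + t * j' s') % q) : m ≤ finrank k V := by
  have e : ∀ (C : G) (s : Fin m) (x y : ℕ), C * g s = g s * (A ^ x * B ^ y) →
      ρ C (ρ (g s) v) = a ^ (x + t * y) • ρ (g s) v := fun C s x y h => by
    rw [← End.mul_apply, ← map_mul, h, map_mul, map_mul, map_pow, map_pow, End.mul_apply,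
      End.mul_apply, pow_apply_eig hB, map_smul, pow_apply_eig hA, smul_smul, map_smul, ← pow_mul,
      ← pow_add, add_comm]
  have ne : ∀ x y : ℕ, x % q ≠ y % q → a ^ x ≠ a ^ y := fun x y h e => by
    apply h
    refine ha.pow_inj (Nat.mod_lt _ hq) (Nat.mod_lt _ hq) ?_
    rw [← pow_eq_pow_mod _ ha.pow_eq_one, ← pow_eq_pow_mod _ ha.pow_eq_one, e]
  have := card_le_of_sep (k := k) (fun s => ρ (g s) v) (fun s => ne_zero_of ρ _ hv) fun s s' hs => by
    rcases sep s s' hs with h | h
    · exact ⟨ρ A, _, fun l => e A l _ _ (h1 l), ne _ _ h⟩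
    · exact ⟨ρ B, _, fun l => e B l _ _ (h2 l), ne _ _ h⟩
  simpa using this

/-- restriction of a representation to an invariant subspace -/
def res (ρ : G →* End k V) (W : Submodule k V) (h : ∀ g, ∀ w ∈ W, ρ g w ∈ W) : G →* End k W where
  toFun g := (ρ g).restrict (h g)
  map_one' := by ext; simp
  map_mul' a b := by ext; simp

theorem res_eq_one {ρ : G →* End k V} {W : Submodule k V} {h : ∀ g, ∀ w ∈ W, ρ g w ∈ W} {g : G} :
    res ρ W h g = 1 ↔ ∀ w ∈ W, ρ g w = w :=
  ⟨fun e w hw => congrArg Subtype.val (LinearMap.congr_fun e ⟨w, hw⟩),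
    fun e => LinearMap.ext fun w => Subtype.ext (e w w.2)⟩

/-- the representation on the quotient by an invariant subspace -/
def quo (ρ : G →* End k V) (W : Submodule k V) (h : ∀ g, ∀ w ∈ W, ρ g w ∈ W) :
    G →* End k (V ⧸ W) where
  toFun g := W.mapQ W (ρ g) (h g)
  map_one' := by ext; simp
  map_mul' a b := by ext; simp

theorem quo_eq_one {ρ : G →* End k V} {W : Submodule k V} {h : ∀ g, ∀ w ∈ W, ρ g w ∈ W} {g : G}
    (e : quo ρ W h g = 1) (v : V) : ρ g v - v ∈ W := by
  have := LinearMap.congr_fun e (Submodule.Quotient.mk v)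
  rw [← Submodule.Quotient.eq]
  exact this

theorem base_change {F : Type*} [Field F] (φ : F →+* k) {U : Type*} [AddCommGroup U] [Module F U]
    [FiniteDimensional F U] (ρ : G →* End F U) :
    ∃ ρ' : G →* End k (Fin (finrank F U) → k), ∀ g, ρ' g = 1 ↔ ρ g = 1 := by
  let b := Module.finBasis F U
  let f : End F U →+* End k (Fin (finrank F U) → k) :=
    (Matrix.toLinAlgEquiv' (R := k) (n := Fin (finrank F U))).toRingEquiv.toRingHom.comp
      (φ.mapMatrix.comp (LinearMap.toMatrixAlgEquiv b).toRingEquiv.toRingHom)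
  have hf : Function.Injective f :=
    (Matrix.toLinAlgEquiv' (R := k) (n := Fin (finrank F U))).injective.comp
      ((Matrix.map_injective φ.injective).comp (LinearMap.toMatrixAlgEquiv b).injective)
  exact ⟨f.toMonoidHom.comp ρ, fun g => ⟨fun h => hf (h.trans (map_one f).symm),
    fun h => by simp [h]⟩⟩

end Cfsg.Agent.H13.Wag
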