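import Cfsg.Agent.H13.Wag1

/-! Double covers of alternating groups: lifts of elements of odd order, pull-backs. -/

set_option autoImplicit false

namespace Cfsg.Agent.H13.Wag

open Module Equiv Equiv.Perm L0

variable {α : Type*} [Fintype α] [DecidableEq α] {G : Type*} [Group G] {π : G →* Perm α}

/-- `π` maps onto the alternating group -/
structure Sur (π : G →* Perm α) : Prop where
  surj : ∀ σ, sign σ = 1 → ∃ g, π g = σ
  sgn : ∀ g, sign (π g) = 1

/-- `π` maps onto the alternating group with central kernel of exponent two -/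
structure Cov (π : G →* Perm α) : Prop extends Sur π where
  cen : ∀ z, π z = 1 → ∀ g, Commute g z
  sq : ∀ z, π z = 1 → z ^ 2 = 1

theorem exists_even {ι : Type*} [Fintype ι] {a b : ι → α} (ha : Function.Injective a)
    (hb : Function.Injective b) (h : Fintype.card ι + 2 ≤ Fintype.card α) :
    ∃ σ : Perm α, sign σ = 1 ∧ ∀ i, σ (a i) = b i := by
  obtain ⟨σ, hσ⟩ := Perm.exists_extending_pair _ _ ha hb
  rcases Int.units_eq_one_or (sign σ) with h1 | h1
  · exact ⟨σ, h1, hσ⟩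
  have c1 : (Finset.univ.image a).card ≤ Fintype.card ι := Finset.card_image_le
  obtain ⟨u, hu⟩ := exists_notMem (Finset.univ.image a) (by omega)
  obtain ⟨v, hv⟩ := exists_notMem (insert u (Finset.univ.image a))
    (lt_of_le_of_lt (Finset.card_insert_le _ _) (by omega))
  simp only [Finset.mem_insert, Finset.mem_image, Finset.mem_univ, true_and, not_or,
    not_exists] at hu hv
  refine ⟨σ * swap u v, by simp [h1, Ne.symm hv.1], fun i => ?_⟩
  rw [mul_apply, swap_apply_of_ne_of_ne (hu i) (hv.2 i), hσ]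

theorem Sur.exists_map (h : Sur π) {ι : Type*} [Fintype ι] {a b : ι → α}
    (ha : Function.Injective a) (hb : Function.Injective b)
    (hc : Fintype.card ι + 2 ≤ Fintype.card α) : ∃ g, ∀ i, π g (a i) = b i := by
  obtain ⟨σ, h1, h2⟩ := exists_even ha hb hc
  obtain ⟨g, rfl⟩ := h.surj σ h1
  exact ⟨g, h2⟩

theorem Sur.normal (h : Sur π) (h5 : 5 ≤ Fintype.card α) {N : Subgroup G} [hN : N.Normal] {g : G}
    (hg : g ∈ N) (h1 : π g ≠ 1) {σ : Perm α} (hσ : sign σ = 1) : ∃ n ∈ N, π n = σ := by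
  have := alternatingGroup.isSimpleGroup (α := α) (by simpa using h5)
  let f : G →* alternatingGroup α := π.codRestrict _ h.sgn
  have hf : Function.Surjective f := fun s => by
    obtain ⟨x, hx⟩ := h.surj s s.2
    exact ⟨x, Subtype.ext hx⟩
  rcases (hN.map f hf).eq_bot_or_eq_top with e | e
  · have : f g ∈ N.map f := ⟨g, hg, rfl⟩
    rw [e, Subgroup.mem_bot] at this
    exact absurd (congrArg Subtype.val this) h1
  · obtain ⟨n, hn, e'⟩ : (⟨σ, hσ⟩ : alternatingGroup α) ∈ N.map f := e ▸ trivial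
    exact ⟨n, hn, congrArg Subtype.val e'⟩

theorem Cov.pow_succ_eq (h : Cov π) {a b : G} (e : π a = π b) {q : ℕ} (hq : Odd q)
    (hb : b ^ q = 1) : a ^ (q + 1) = b := by
  obtain ⟨z, hz, rfl⟩ := H27.eq_mul_ker e.symm
  obtain ⟨m, hm⟩ := hq.add_one.two_dvd
  rw [(h.cen z hz b).mul_pow, pow_succ, hb, hm, pow_mul, h.sq z hz]; simp

theorem Cov.exists_lift (h : Cov π) {σ : Perm α} (hσ : sign σ = 1) {q : ℕ} (hq : Odd q)
    (h1 : σ ^ q = 1) : ∃ g, π g = σ ∧ g ^ q = 1 := by
  obtain ⟨g, rfl⟩ := h.surj σ hσ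
  have hz : π (g ^ q) = 1 := by rw [map_pow, h1]
  obtain ⟨m, hm⟩ := hq.add_one.two_dvd
  refine ⟨g * g ^ q, by rw [map_mul, hz, mul_one], ?_⟩
  rw [(h.cen _ hz g).mul_pow, ← pow_succ', hm, pow_mul, h.sq _ hz, one_pow]

theorem Cov.odd_eq (h : Cov π) {a b : G} (e : π a = π b) {q : ℕ} (hq : Odd q) (ha : a ^ q = 1)
    (hb : b ^ q = 1) : a = b := by
  rw [← h.pow_succ_eq e hq hb, pow_succ, ha, one_mul]

theorem Cov.conj_eq (h : Cov π) {a b g : G} (e : π a * π g = π g * π b) {q : ℕ} (hq : Odd q)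
    (ha : a ^ q = 1) (hb : b ^ q = 1) : a * g = g * b := by
  rw [h.odd_eq (a := a) (b := g * b * g⁻¹) (by simp [← e]) hq ha (by rw [conj_pow, hb]; simp)]
  simp

theorem Cov.commute (h : Cov π) {a g : G} (e : Commute (π a) (π g)) {q : ℕ} (hq : Odd q)
    (ha : a ^ q = 1) : Commute a g := h.conj_eq e hq ha ha

theorem Cov.lift3 (h : Cov π) {a b c : α} (h1 : a ≠ c) (h2 : a ≠ b) (h3 : b ≠ c) :
    ∃ x, π x = c3 a b c ∧ x ^ 3 = 1 :=
  h.exists_lift (c3_sign h1 h2) (by decide) (c3_cube h1 h2 h3)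

variable {β : Type*} [Fintype β] [DecidableEq β]

theorem sign_via (e : β ↪ α) (σ : Perm β) : sign (viaEmbeddingHom e σ) = sign σ := by
  rw [viaEmbeddingHom_apply, viaEmbedding]
  convert sign_extendDomain σ _

omit [Fintype α] [Fintype β] in
theorem via_swap (e : β ↪ α) (a b : β) : viaEmbeddingHom e (swap a b) = swap (e a) (e b) := by
  ext x
  rw [viaEmbeddingHom_apply]
  by_cases hx : x ∈ Set.range e
  · obtain ⟨y, rfl⟩ := hx
    rw [viaEmbedding_apply, e.injective.swap_apply]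
  · rw [viaEmbedding_apply_of_notMem _ _ _ hx, swap_apply_of_ne_of_ne]
    · rintro rfl; exact hx ⟨_, rfl⟩
    · rintro rfl; exact hx ⟨_, rfl⟩

omit [Fintype α] [Fintype β] in
theorem via_c3 (e : β ↪ α) (a b c : β) : viaEmbeddingHom e (c3 a b c) = c3 (e a) (e b) (e c) := by
  simp only [c3, map_mul, via_swap]

/-- the pull-back of `π` along an embedding -/
def pb (π : G →* Perm α) (e : β ↪ α) : Subgroup (G × Perm β) where
  carrier := {x | π x.1 = viaEmbeddingHom e x.2 ∧ sign x.2 = 1}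
  one_mem' := by simp
  mul_mem' := fun ha hb => ⟨by simp [ha.1, hb.1], by simp [ha.2, hb.2]⟩
  inv_mem' := fun ha => ⟨by simp [ha.1], by simp [ha.2]⟩

/-- the first projection of the pull-back -/
def pb1 (π : G →* Perm α) (e : β ↪ α) : pb π e →* G := (MonoidHom.fst _ _).comp (pb π e).subtype

/-- the second projection of the pull-back -/
def pb2 (π : G →* Perm α) (e : β ↪ α) : pb π e →* Perm β :=
  (MonoidHom.snd _ _).comp (pb π e).subtype

theorem pb_eq (e : β ↪ α) (g : pb π e) : π (pb1 π e g) = viaEmbeddingHom e (pb2 π e g) := g.2.1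

theorem Cov.pb (h : Cov π) (e : β ↪ α) : Cov (pb2 π e) where
  surj σ hσ := by
    obtain ⟨g, hg⟩ := h.surj (viaEmbeddingHom e σ) (by rw [sign_via, hσ])
    exact ⟨⟨(g, σ), hg, hσ⟩, rfl⟩
  sgn g := g.2.2
  cen z hz g := by
    have h1 : π z.1.1 = 1 := by rw [z.2.1, show z.1.2 = 1 from hz, map_one]
    exact Subtype.ext (Prod.ext (h.cen _ h1 g.1.1).eq (by
      simp [show z.1.2 = 1 from hz]))
  sq z hz := by
    have h1 : π z.1.1 = 1 := by rw [z.2.1, show z.1.2 = 1 from hz, map_one]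
    exact Subtype.ext (Prod.ext (h.sq _ h1) (by simp [show z.1.2 = 1 from hz]))

theorem pb_ker (e : β ↪ α) {g : pb π e} (h : π (pb1 π e g) = 1) : pb2 π e g = 1 :=
  viaEmbeddingHom_injective e (by rw [← pb_eq, h, map_one])

theorem pb_fix (e : β ↪ α) (g : pb π e) {t : α} (ht : t ∉ Set.range e) : π (pb1 π e g) t = t := by
  rw [pb_eq, viaEmbeddingHom_apply, viaEmbedding_apply_of_notMem _ _ _ ht]

/-- lower bound `m` for the degrees of the representations of double covers -/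
def CBd (k : Type) [Field k] (β : Type) [Fintype β] [DecidableEq β] (m : ℕ) : Prop :=
  ∀ (G : Type) [Group G] [Finite G] (π : G →* Perm β), Cov π → ∀ (V : Type) [AddCommGroup V]
    [Module k V] [FiniteDimensional k V] (ρ : G →* End k V), (∀ g, ρ g = 1 → π g = 1) →
      m ≤ finrank k V

theorem CBd.mono {k : Type} [Field k] {α β : Type} [Fintype α] [DecidableEq α] [Fintype β]
    [DecidableEq β] {m : ℕ} (h : CBd k β m) (hc : Fintype.card β ≤ Fintype.card α) :
    CBd k α m := by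
  intro G _ _ π hπ V _ _ _ ρ hρ
  obtain ⟨e⟩ := Function.Embedding.nonempty_of_card_le hc
  exact h _ _ (hπ.pb e) V (ρ.comp (pb1 π e)) fun g hg => pb_ker e (hρ _ hg)

variable {k V : Type*} [Field k] [AddCommGroup V] [Module k V]

/-- the pointwise stabilizer of a set of vectors -/
def fixS (ρ : G →* End k V) (W : Set V) : Subgroup G where
  carrier := {g | ∀ w ∈ W, ρ g w = w}
  one_mem' := by simp
  mul_mem' := fun ha hb w hw => by simp [hb w hw, ha w hw]
  inv_mem' := fun {g} ha w hw => by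
    conv_lhs => rw [← ha w hw]
    rw [← End.mul_apply, ← map_mul]; simp

theorem mem_fixS {ρ : G →* End k V} {W : Set V} {g : G} : g ∈ fixS ρ W ↔ ∀ w ∈ W, ρ g w = w :=
  Iff.rfl

theorem mem_fixS_range {ρ : G →* End k V} {T : End k V} {g : G} :
    g ∈ fixS ρ (LinearMap.range T) ↔ (ρ g - 1) * T = 0 := by
  simp [mem_fixS, LinearMap.ext_iff, sub_eq_zero]

/-- lifts of disjoint 3-cycles annihilate each other -/
def HA (π : G →* Perm α) (ρ : G →* End k V) : Prop :=
  ∀ (a : Fin 6 → α), Function.Injective a → ∀ x y : G, x ^ 3 = 1 → y ^ 3 = 1 →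
    π x = c3 (a 0) (a 1) (a 2) → π y = c3 (a 3) (a 4) (a 5) → (ρ y - 1) * (ρ x - 1) = 0

theorem Cov.ha (h : Cov π) (h8 : 8 ≤ Fintype.card α) {ρ : G →* End k V} {a : Fin 6 → α}
    (ha : Function.Injective a) {x y : G} (hx : x ^ 3 = 1) (hy : y ^ 3 = 1)
    (h1 : π x = c3 (a 0) (a 1) (a 2)) (h2 : π y = c3 (a 3) (a 4) (a 5))
    (h3 : (ρ y - 1) * (ρ x - 1) = 0) : HA π ρ := by
  intro b hb x' y' hx' hy' h1' h2'
  obtain ⟨g, hg⟩ := h.exists_map ha hb (by simpa using h8)
  have e1 : x' * g = g * x := h.conj_eq (by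
    rw [h1, h1', ← hg, ← hg, ← hg, ← c3_conj]; simp) (by decide) hx' hx
  have e2 : y' * g = g * y := h.conj_eq (by
    rw [h2, h2', ← hg, ← hg, ← hg, ← c3_conj]; simp) (by decide) hy' hy
  have f1 : (ρ x' - 1) * ρ g = ρ g * (ρ x - 1) := by
    rw [sub_mul, mul_sub, ← map_mul, ← map_mul, e1]; simp
  have f2 : (ρ y' - 1) * ρ g = ρ g * (ρ y - 1) := by
    rw [sub_mul, mul_sub, ← map_mul, ← map_mul, e2]; simp
  have : (ρ y' - 1) * (ρ x' - 1) * ρ g * ρ g⁻¹ = 0 := by
    rw [mul_assoc (ρ y' - 1), f1, ← mul_assoc, f2, mul_assoc (ρ g), h3]; simp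
  rwa [mul_assoc, ← map_mul, mul_inv_cancel, map_one, mul_one] at this

end Cfsg.Agent.H13.Wag
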