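import Cfsg.Agent.H13.Wag2

/-! The natural module of an alternating group, from annihilating 3-cycles. -/

set_option autoImplicit false

namespace Cfsg.Agent.H13.Wag

open Module Equiv Equiv.Perm L0

variable {α : Type*} [Fintype α] [DecidableEq α] {G : Type*} [Group G] {π : G →* Perm α}
  {k V : Type*} [Field k] [AddCommGroup V] [Module k V]

theorem ex7 (h : 8 ≤ Fintype.card α) (a b c d e f g : α) :
    ∃ t, t ≠ a ∧ t ≠ b ∧ t ≠ c ∧ t ≠ d ∧ t ≠ e ∧ t ≠ f ∧ t ≠ g := by
  simpa using exists_notMem {a, b, c, d, e, f, g} (lt_of_le_of_lt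
    (List.toFinset_card_le [a, b, c, d, e, f, g] |>.trans_eq' (by simp)) (by simp; omega))

omit [Fintype α] in
theorem inj6 {a b c d e f : α} (h : [a, b, c, d, e, f].Nodup) :
    Function.Injective ![a, b, c, d, e, f] := by
  rw [← List.nodup_ofFn]; simpa using h

omit [Fintype α] in
theorem inj4' {a b c d : α} (h : [a, b, c, d].Nodup) : Function.Injective ![a, b, c, d] := by
  rw [← List.nodup_ofFn]; simpa using h

omit [Fintype α] in
theorem inj3 {a b c : α} (h : [a, b, c].Nodup) : Function.Injective ![a, b, c] := by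
  rw [← List.nodup_ofFn]; simpa using h

omit [Fintype α] in
theorem inj2 {a b : α} (h : a ≠ b) : Function.Injective ![a, b] := by
  rw [← List.nodup_ofFn]; simpa using h

theorem HA.apply {ρ : G →* End k V} (h : HA π ρ) {a b c d e f : α} (hn : [a, b, c, d, e, f].Nodup)
    {x y : G} (hx : x ^ 3 = 1) (hy : y ^ 3 = 1) (h1 : π x = c3 a b c) (h2 : π y = c3 d e f)
    (v : V) : ρ y ((ρ x - 1) v) = (ρ x - 1) v := by
  have := LinearMap.congr_fun (h _ (inj6 hn) x y hx hy h1 h2) v
  rwa [End.mul_apply, LinearMap.sub_apply, LinearMap.zero_apply, sub_eq_zero] at this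

theorem fix_of (h : Sur π) (hi : Function.Injective π) {ρ : G →* End k V} {w : V} {p q : α}
    (hpq : p ≠ q) (Ω : Set α) (hw : ∀ i ∈ Ω, i ≠ p → i ≠ q → ∃ y, π y = c3 p q i ∧ ρ y w = w)
    {g : G} (hg : ∀ t, t ∉ Ω → π g t = t) : ρ g w = w := by
  obtain ⟨g', h1, h2⟩ := alt_le hpq (L := (fixS ρ {w}).map π) Ω (fun i a b c => by
    obtain ⟨y, y1, y2⟩ := hw i a b c
    exact ⟨y, fun w' hw' => by rw [hw', y2], y1⟩) (show π g ∈ AltOn Ω from ⟨h.sgn g, hg⟩)
  rw [← hi h2]
  exact h1 w rfl

omit [Fintype α] in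
theorem c3_rot {a b c : α} (h1 : a ≠ c) (h2 : a ≠ b) (h3 : b ≠ c) : c3 b c a = c3 a b c := by
  ext t; simp only [c3, mul_apply, swap_apply_def]; grind

theorem bound_of_fam [FiniteDimensional k V] (p : ℕ) [CharP k p] (v : α → V)
    (hv : ∀ a : α → k, ∑ i, a i = 0 → ∑ i, a i • v i = 0 → ∀ i j, a i = a j) :
    Fintype.card α - 1 - (if p ∣ Fintype.card α then 1 else 0) ≤ finrank k V := by
  let φ : (α → k) →ₗ[k] k × V := (∑ i, LinearMap.proj i).prod (Fintype.linearCombination k v)
  have h1 := φ.finrank_range_add_finrank_ker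
  have h2 := Submodule.finrank_le (LinearMap.range φ)
  rw [finrank_prod, finrank_self] at h2
  rw [finrank_fintype_fun_eq_card] at h1
  have hk : ∀ a ∈ LinearMap.ker φ, ∑ i, a i = 0 ∧ ∀ i j, a i = a j := fun a ha => by
    have e1 := congrArg Prod.fst ha
    have e2 := congrArg Prod.snd ha
    simp only [φ, LinearMap.prod_apply, Function.prod, LinearMap.sum_apply, LinearMap.proj_apply,
      Fintype.linearCombination_apply, Prod.fst_zero, Prod.snd_zero] at e1 e2
    exact ⟨e1, hv a e1 e2⟩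
  split_ifs with hp
  · have : LinearMap.ker φ ≤ Submodule.span k {fun _ => 1} := fun a ha => by
      rcases isEmpty_or_nonempty α with _ | ⟨⟨o⟩⟩
      · rw [Subsingleton.elim a 0]; exact zero_mem _
      · exact Submodule.mem_span_singleton.2 ⟨a o, funext fun i => by simp [(hk a ha).2 i o]⟩
    have h3 := (Submodule.finrank_mono this).trans (finrank_span_le_card _)
    simp at h3
    omega
  · have : LinearMap.ker φ = ⊥ := (Submodule.eq_bot_iff _).2 fun a ha => funext fun o => by
      obtain ⟨e1, e2⟩ := hk a ha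
      rw [Finset.sum_congr rfl fun i _ => e2 i o, Finset.sum_const, Finset.card_univ, nsmul_eq_mul,
        mul_eq_zero, CharP.cast_eq_zero_iff k p] at e1
      exact e1.resolve_left hp
    rw [this, finrank_bot] at h1
    omega

set_option maxHeartbeats 2000000 in
theorem Cov.natural [FiniteDimensional k V] (p : ℕ) [CharP k p] (h : Cov π)
    (hi : Function.Injective π) (h8 : 8 ≤ Fintype.card α) {ρ : G →* End k V}
    (hρ : ∀ g, ρ g = 1 → π g = 1) (hA : HA π ρ) :
    Fintype.card α - 1 - (if p ∣ Fintype.card α then 1 else 0) ≤ finrank k V := by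
  have ex := ex7 h8
  obtain ⟨a, b, c, d, e, x, y, n, x1, x3, y1, y3, hne⟩ : ∃ (a b c d e : α) (x y : G),
      [a, b, c, d, e].Nodup ∧ π x = c3 a b c ∧ x ^ 3 = 1 ∧ π y = c3 c d e ∧ y ^ 3 = 1 ∧
        (ρ y - 1) * (ρ x - 1) ≠ 0 := by
    by_contra! H
    obtain ⟨a⟩ : Nonempty α := Fintype.card_pos_iff.1 (by omega)
    obtain ⟨b, _, -⟩ := ex a a a a a a a
    obtain ⟨c, _, _, -⟩ := ex a b a a a a a
    obtain ⟨d, _, _, _, -⟩ := ex a b c a a a a
    obtain ⟨e, _, _, _, _, -⟩ := ex a b c d a a a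
    obtain ⟨x, x1, x3⟩ := h.lift3 (a := a) (b := b) (c := c) (by grind) (by grind) (by grind)
    obtain ⟨y, y1, y3⟩ := h.lift3 (a := c) (b := d) (c := e) (by grind) (by grind) (by grind)
    have e1 := H a b c d e x y (by simp; grind) x1 x3 y1 y3
    have e2 := H d e c a b y x (by simp; grind)
      (y1.trans (c3_rot (by grind) (by grind) (by grind)).symm) y3 (by rw [x1, c3_rot] <;> grind) x3
    have e3 : ρ x * ρ y = ρ y * ρ x := by
      rw [← sub_eq_zero, ← sub_zero (0 : End k V)]
      nth_rewrite 1 [← e2]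
      rw [← e1]; noncomm_ring
    have e4 := hρ (x * y * (y * x)⁻¹) (by
      rw [map_mul, map_mul, e3, ← map_mul, ← map_mul, mul_inv_cancel, map_one])
    rw [map_mul, map_inv, mul_inv_eq_one, map_mul, map_mul, x1, y1] at e4
    have := congrArg (fun s : Perm α => s b) e4
    simp only [c3, mul_apply, swap_apply_def] at this
    grind
  simp only [List.nodup_cons, List.mem_cons, List.not_mem_nil, or_false, not_or, List.nodup_nil,
    and_true, not_false_eq_true] at n
  obtain ⟨v, hv⟩ : ∃ v, ρ y ((ρ x - 1) v) - (ρ x - 1) v ≠ 0 := by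
    by_contra! H
    exact hne (LinearMap.ext fun v => H v)
  obtain ⟨w, hw⟩ : ∃ w, w = (ρ x - 1) v := ⟨_, rfl⟩
  rw [← hw] at hv
  have fw : ∀ g, π g a = a → π g b = b → π g c = c → ρ g w = w := fun g a1 a2 a3 =>
    fix_of h.toSur hi (p := d) (q := e) (by grind) {t | t ≠ a ∧ t ≠ b ∧ t ≠ c}
      (fun i ⟨_, _, _⟩ _ _ => by
        obtain ⟨z, z1, z3⟩ := h.lift3 (a := d) (b := e) (c := i) (by grind) (by grind) (by grind)
        exact ⟨z, z1, hw ▸ hA.apply (by simp; grind) x3 z3 x1 z1 v⟩)
      (fun t ht => by simp only [Set.mem_ofPred_eq] at ht; grind)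
  have ω : ∀ g g', π g a = π g' a → π g b = π g' b → π g c = π g' c → ρ g w = ρ g' w :=
    fun g g' a1 a2 a3 => by
      have := fw (g'⁻¹ * g) (by simp [a1]) (by simp [a2]) (by simp [a3])
      rw [← this, ← End.mul_apply (ρ g'), ← map_mul, this]; simp
  obtain ⟨u, hu⟩ : ∃ u, u = ρ y w - w := ⟨_, rfl⟩
  have ya : π y a = a := by rw [y1, c3_fix] <;> grind
  have yb : π y b = b := by rw [y1, c3_fix] <;> grind
  have yc : π y c = d := by rw [y1, c3_p] <;> grind
  have fu : ∀ g, π g c = c → π g d = d → ρ g u = u := fun g a1 a2 =>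
    fix_of h.toSur hi (p := a) (q := b) (by grind) {t | t ≠ c ∧ t ≠ d}
      (fun i ⟨_, _⟩ _ _ => by
        obtain ⟨t, _, _, _, _, _, -⟩ := ex a b c d i i i
        obtain ⟨z, z1, z3⟩ := h.lift3 (a := a) (b := b) (c := i) (by grind) (by grind) (by grind)
        obtain ⟨s, s1, s3⟩ := h.lift3 (a := c) (b := d) (c := t) (by grind) (by grind) (by grind)
        have : u = (ρ s - 1) w := by
          rw [hu, ω y s (by rw [ya, s1, c3_fix] <;> grind) (by rw [yb, s1, c3_fix] <;> grind)
            (by rw [yc, s1, c3_p] <;> grind)]; rfl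
        exact ⟨z, z1, this ▸ hA.apply (by simp; grind) s3 z3 s1 z1 w⟩)
      (fun t ht => by simp only [Set.mem_ofPred_eq] at ht; grind)
  have ωu : ∀ g g', π g c = π g' c → π g d = π g' d → ρ g u = ρ g' u := fun g g' a1 a2 => by
    have := fu (g'⁻¹ * g) (by simp [a1]) (by simp [a2])
    rw [← this, ← End.mul_apply (ρ g'), ← map_mul, this]; simp
  have : ∀ i j : α, ∃ g, i ≠ j → π g c = i ∧ π g d = j := fun i j => by
    by_cases hij : i = j
    · exact ⟨1, fun e => absurd hij e⟩
    obtain ⟨g, hg⟩ := h.exists_map (inj2 (a := c) (b := d) (by grind)) (inj2 hij) (by simp; omega)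
    exact ⟨g, fun _ => ⟨hg 0, hg 1⟩⟩
  choose γ hγ using this
  obtain ⟨U, hU⟩ : ∃ U : α → α → V, U = fun i j => if i = j then 0 else ρ (γ i j) u := ⟨_, rfl⟩
  have U0 : ∀ i, U i i = 0 := fun i => by simp [hU]
  have Ug : ∀ g i j, ρ g (U i j) = U (π g i) (π g j) := fun g i j => by
    by_cases hij : i = j
    · rw [hij, U0, U0, map_zero]
    have hij' : π g i ≠ π g j := (π g).injective.ne hij
    simp only [hU, if_neg hij, if_neg hij']
    rw [← End.mul_apply, ← map_mul]
    exact ωu _ _ (by simp [(hγ _ _ hij).1, (hγ _ _ hij').1]) (by simp [(hγ _ _ hij).2, (hγ _ _ hij').2])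
  have Une : ∀ i j, i ≠ j → U i j ≠ 0 := fun i j hij => by
    simp only [hU, if_neg hij]
    exact ne_zero_of ρ _ (hu ▸ hv)
  have Uω : ∀ g g', π g a = π g' a → π g b = π g' b → U (π g c) (π g' c) = ρ g' w - ρ g w :=
    fun g g' a1 a2 => by
      by_cases hij : π g c = π g' c
      · rw [hij, U0, ω g g' a1 a2 hij, sub_self]
      obtain ⟨s, hs⟩ := h.exists_map (inj4' (a := a) (b := b) (c := c) (d := d) (by simp; grind))
        (inj4' (a := π g a) (b := π g b) (c := π g c) (d := π g' c) (by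
          have := (π g).injective
          have := (π g').injective
          simp; grind)) (by simp; omega)
      have s0 : π s a = π g a := hs 0
      have s1 : π s b = π g b := hs 1
      have s2 : π s c = π g c := hs 2
      have s3 : π s d = π g' c := hs 3
      simp only [hU, if_neg hij]
      rw [ωu _ s (by rw [(hγ _ _ hij).1, s2]) (by rw [(hγ _ _ hij).2, s3]), hu, map_sub,
        ← End.mul_apply, ← map_mul, ω s g s0 s1 s2, ω (s * y) g' (by simp [ya, s0, a1])
          (by simp [yb, s1, a2]) (by simp [yc, s3])]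
  have Uc : ∀ o i j, U i j = U o j - U o i := fun o i j => by
    obtain ⟨s, _, _, _, -⟩ := ex o i j j j j j
    obtain ⟨t, _, _, _, _, -⟩ := ex o i j s j j j
    have : ∀ l, l ≠ s → l ≠ t → ∃ g, π g a = s ∧ π g b = t ∧ π g c = l := fun l _ _ => by
      obtain ⟨g, hg⟩ := h.exists_map (inj3 (a := a) (b := b) (c := c) (by simp; grind))
        (inj3 (a := s) (b := t) (c := l) (by simp; grind)) (by simp; omega)
      exact ⟨g, hg 0, hg 1, hg 2⟩
    obtain ⟨g0, a0, b0, rfl⟩ := this o (by grind) (by grind)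
    obtain ⟨g1, a1, b1, rfl⟩ := this i (by grind) (by grind)
    obtain ⟨g2, a2, b2, rfl⟩ := this j (by grind) (by grind)
    rw [Uω _ _ (a1.trans a2.symm) (b1.trans b2.symm), Uω _ _ (a0.trans a2.symm) (b0.trans b2.symm),
      Uω _ _ (a0.trans a1.symm) (b0.trans b1.symm)]
    abel
  refine bound_of_fam p (U a) fun f f1 f2 i j => ?_
  by_contra hij
  have hij' : i ≠ j := fun e => hij (e ▸ rfl)
  have F : ∀ g, ∑ t, f t • U a (π g t) = 0 := fun g => by
    have := congrArg (ρ g) f2
    simp only [map_sum, map_smul, Ug, map_zero, Uc a (π g a), smul_sub, Finset.sum_sub_distrib,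
      ← Finset.sum_smul, f1, zero_smul, sub_zero] at this
    exact this
  obtain ⟨m, _, _, -⟩ := ex i j j j j j j
  obtain ⟨l, _, _, _, -⟩ := ex i j m j j j j
  obtain ⟨l', _, _, _, _, -⟩ := ex i j m l j j j
  obtain ⟨z, z1, -⟩ := h.lift3 (a := i) (b := j) (c := m) (by grind) (by grind) (by grind)
  obtain ⟨s, s1, -⟩ := h.lift3 (a := j) (b := l) (c := l') (by grind) (by grind) (by grind)
  have key : ∑ t, f t • (U a (π (s * z) t) - U a (π s t) - U a (π z t) + U a t) = 0 := by
    simp only [smul_add, smul_sub, Finset.sum_add_distrib, Finset.sum_sub_distrib, F, f2]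
    simp
  rw [Fintype.sum_eq_add i j hij' fun t ht => by
    rw [map_mul, mul_apply, z1, s1]
    by_cases htm : t = m
    · rw [htm, c3_i (by grind) (by grind), c3_fix (by grind) (by grind) (by grind),
        c3_fix (by grind) (by grind) (by grind)]
      simp
    · rw [c3_fix (t := t) (by grind) (by grind) (by grind)]
      simp] at key
  rw [map_mul, mul_apply, mul_apply, z1, s1, c3_p (by grind) (by grind), c3_p (by grind) (by grind),
    c3_q, c3_fix (t := i) (by grind) (by grind) (by grind),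
    c3_fix (t := m) (by grind) (by grind) (by grind)] at key
  have : (f i - f j) • U j l = 0 := by
    rw [← key, Uc a j l]; module
  exact (smul_eq_zero.1 this).elim (sub_ne_zero.2 hij) (Une j l (by grind))

end Cfsg.Agent.H13.Wag
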