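import Cfsg.Agent.H13.Wag3

/-! The doubling step for projective representations of alternating groups. -/

set_option autoImplicit false

namespace Cfsg.Agent.H13.Wag

open Module Equiv Equiv.Perm L0

section
variable {α : Type*} [Fintype α] [DecidableEq α] {G : Type*} [Group G] {π : G →* Perm α}
  {k V : Type*} [Field k] [AddCommGroup V] [Module k V]

/-- no proper subgroup maps onto the alternating group -/
def Mn (π : G →* Perm α) : Prop :=
  ∀ H : Subgroup G, (∀ σ, sign σ = 1 → ∃ g ∈ H, π g = σ) → H = ⊤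

/-- irreducibility -/
def Irr (ρ : G →* End k V) : Prop :=
  ∀ W : Submodule k V, (∀ g, ∀ w ∈ W, ρ g w ∈ W) → W = ⊥ ∨ W = ⊤

theorem Irr.scalar {ρ : G →* End k V} (hI : Irr ρ) {T : End k V} (hT : ∀ g, Commute (ρ g) T)
    {w : V} (hw : w ≠ 0) {μ : k} (h : T w = μ • w) (v : V) : T v = μ • v := by
  rcases hI (T.eigenspace μ) (fun g u hu => by
    rw [End.mem_eigenspace_iff] at hu ⊢
    rw [← End.mul_apply, ← (hT g).eq, End.mul_apply, hu, map_smul]) with e | e
  · exact absurd ((Submodule.eq_bot_iff _).1 e w (End.mem_eigenspace_iff.2 h)) hw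
  · exact End.mem_eigenspace_iff.1 (e ▸ trivial)

theorem Cov.inj_of_HA (h : Cov π) (hm : Mn π) (h8 : 8 ≤ Fintype.card α) {ρ : G →* End k V}
    (hρ : Function.Injective ρ) (hI : Irr ρ) (hA : HA π ρ) : Function.Injective π := by
  have ex := ex7 h8
  obtain ⟨p⟩ : Nonempty α := Fintype.card_pos_iff.1 (by omega)
  obtain ⟨q, hq, -⟩ := ex p p p p p p p
  have : ∀ i, ∃ x, i ≠ p → i ≠ q → π x = c3 p q i ∧ x ^ 3 = 1 := fun i => by
    by_cases hi : i ≠ p ∧ i ≠ q
    · obtain ⟨x, hx⟩ := h.lift3 hi.1.symm hq.symm hi.2.symm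
      exact ⟨x, fun _ _ => hx⟩
    · exact ⟨1, fun a b => absurd ⟨a, b⟩ hi⟩
  choose x hx using this
  have key := carm_inj hq.symm π {i | i ≠ p ∧ i ≠ q} (x := x)
    (fun i hi => ⟨hi.1, hi.2, (hx i hi.1 hi.2).1⟩) (fun i hi => (hx i hi.1 hi.2).2)
    fun i ⟨i1, i2⟩ j ⟨j1, j2⟩ hij => by
      obtain ⟨a, _, _, _, _, -⟩ := ex p q i j j j j
      obtain ⟨b, _, _, _, _, _, -⟩ := ex p q i j a j j
      obtain ⟨c, _, _, _, _, _, _, -⟩ := ex p q i j a b j
      obtain ⟨y, y1, y3⟩ := h.lift3 (a := a) (b := b) (c := c) (by grind) (by grind) (by grind)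
      have hz : π ((x i * x j) ^ 2) = 1 := by
        rw [map_pow, map_mul, (hx i i1 i2).1, (hx j j1 j2).1,
          c3_pair i1.symm hq.symm i2.symm j1.symm j2.symm hij]
      have m : ∀ l, l ≠ p → l ≠ q → l ≠ a → l ≠ b → l ≠ c →
          x l ∈ fixS ρ (LinearMap.range (ρ y - 1)) := fun l l1 l2 _ _ _ => by
        rintro _ ⟨v, rfl⟩
        exact hA.apply (by simp; grind) y3 (hx l l1 l2).2 y1 (hx l l1 l2).1 v
      have m2 := pow_mem (mul_mem (m i i1 i2 (by grind) (by grind) (by grind))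
        (m j j1 j2 (by grind) (by grind) (by grind))) 2
      obtain ⟨v, hv⟩ : ∃ v, (ρ y - 1) v ≠ 0 := by
        by_contra! H
        have : y = 1 := hρ (by rw [map_one, ← sub_eq_zero]; exact LinearMap.ext H)
        have e := congrArg (fun s : Perm α => s a) y1
        simp only [this, map_one, c3, mul_apply, swap_apply_def, one_apply] at e
        grind
      refine hρ (LinearMap.ext fun u => ?_)
      rw [hI.scalar (fun g => (h.cen _ hz g).map ρ) hv (μ := 1) (by
        rw [one_smul]; exact m2 _ ⟨v, rfl⟩)]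
      simp
  rw [hm (Subgroup.closure (x '' {i | i ≠ p ∧ i ≠ q})) fun σ hσ => carm_surj hq.symm π
    (Ω := Set.univ) (I := {i | i ≠ p ∧ i ≠ q}) (fun i _ a b => ⟨⟨a, b⟩, (hx i a b).1⟩)
      ⟨hσ, by simp⟩] at key
  exact (injective_iff_map_eq_one π).2 fun g hg => key g trivial hg

omit [Fintype α] [DecidableEq α] in
theorem exists_via {P : α → Prop} (τ : Perm α) (h : ∀ t, ¬ P t → τ t = t) :
    ∃ σ : Perm {t // P t}, viaEmbeddingHom (Function.Embedding.subtype P) σ = τ := by
  have h' : ∀ x, P (τ x) ↔ P x := fun x => by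
    constructor <;> intro hx <;> by_contra hn
    · exact hn (h x hn ▸ hx)
    · exact hn ((τ.injective (h _ hn)).symm ▸ hx)
  refine ⟨τ.subtypePerm h', Equiv.ext fun t => ?_⟩
  rw [viaEmbeddingHom_apply]
  by_cases ht : P t
  · exact viaEmbedding_apply _ (Function.Embedding.subtype P) ⟨t, ht⟩
  · rw [viaEmbedding_apply_of_notMem _ _ _ (by simpa using ht), h t ht]

omit [Fintype α] in
theorem c3_commute {a b c : α} {τ : Perm α} (h1 : τ a = a) (h2 : τ b = b) (h3 : τ c = c) :
    Commute (c3 a b c) τ := by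
  have := c3_conj τ a b c
  rw [h1, h2, h3, mul_inv_eq_iff_eq_mul] at this
  exact this.symm

omit [Fintype α] in
theorem c3_inv {a b c : α} (n1 : a ≠ c) (n2 : a ≠ b) (n3 : b ≠ c) {τ : Perm α} (h1 : τ a = b)
    (h2 : τ b = a) (h3 : τ c = c) :
    c3 a b c * τ = τ * c3 a b c ^ 2 ∧ c3 a b c ^ 2 * τ = τ * c3 a b c := by
  have e : c3 b a c = c3 a b c ^ 2 := by rw [c3_swap n1 n2 n3, sq, cube_inv (c3_cube n1 n2 n3)]
  have e1 := c3_conj τ a b c
  have e2 := c3_conj τ b a c
  rw [h1, h2, h3, mul_inv_eq_iff_eq_mul, e] at e1 e2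
  exact ⟨e2.symm, e1.symm⟩

end

variable {α : Type} [Fintype α] [DecidableEq α] {G : Type} [Group G] [Finite G] {π : G →* Perm α}
  {k V : Type} [Field k] [AddCommGroup V] [Module k V] [FiniteDimensional k V]

theorem Cov.bd (h : Cov π) (h8 : 8 ≤ Fintype.card α) {ρ : G →* End k V} {m : ℕ}
    (hm : ∀ (β : Type) [Fintype β] [DecidableEq β], Fintype.card β + 3 = Fintype.card α → CBd k β m)
    {a b c : α} (hn : [a, b, c].Nodup) {x : G} (x1 : π x = c3 a b c) (x3 : x ^ 3 = 1)
    (W : Submodule k V) (hW : ∀ g, Commute g x → ∀ w ∈ W, ρ g w ∈ W) {g : G} (g1 : π g a = a)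
    (g2 : π g b = b) (g3 : π g c = c) (hg : ∀ n, π n = π g → n ∉ fixS ρ W) : m ≤ finrank k W := by
  let P : α → Prop := fun t => ¬ t ∈ ({a, b, c} : Finset α)
  let e := Function.Embedding.subtype P
  have hc : Fintype.card {t // P t} + 3 = Fintype.card α := by
    rw [Fintype.card_subtype_compl, Fintype.card_coe,
      Finset.card_eq_three.2 ⟨a, b, c, by grind, by grind, by grind, rfl⟩]
    omega
  have hW' : ∀ s, ∀ w ∈ W, (ρ.comp (pb1 π e)) s w ∈ W := fun s => hW _ (h.commute (by
    rw [x1]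
    exact c3_commute (pb_fix e s (by simp [e, P])) (pb_fix e s (by simp [e, P]))
      (pb_fix e s (by simp [e, P]))) (by decide) x3).symm
  refine hm _ hc _ _ (h.pb e) W (res _ W hW') fun s hs => ?_
  by_contra hne
  obtain ⟨σ, hσ⟩ := exists_via (P := P) (π g) (fun t ht => by
    simp only [P, not_not, Finset.mem_insert, Finset.mem_singleton] at ht
    rcases ht with rfl | rfl | rfl <;> assumption)
  obtain ⟨n, n1, n2⟩ := (h.pb e).normal (by convert (by omega : 5 ≤ Fintype.card {t // P t})) (N := (res _ W hW').ker) hs hne (σ := σ)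
    (by rw [← sign_via e, hσ, h.sgn])
  exact hg (pb1 π e n) (by rw [pb_eq, n2, hσ]) ((res_eq_one (h := hW')).1 n1)

theorem Cov.double [IsAlgClosed k] (h : Cov π) (h8 : 8 ≤ Fintype.card α) {ρ : G →* End k V}
    (hρ : ∀ g, ρ g = 1 → π g = 1) (hA : ¬ HA π ρ) {m : ℕ}
    (hm : ∀ (β : Type) [Fintype β] [DecidableEq β], Fintype.card β + 3 = Fintype.card α →
      CBd k β m) : 2 * m ≤ finrank k V := by
  simp only [HA, not_forall] at hA
  obtain ⟨s, hs, x, y, x3, y3, x1, y1, hA⟩ := hA
  obtain ⟨a, b, c, d, e, f, n, x1, y1⟩ : ∃ a b c d e f : α, [a, b, c, d, e, f].Nodup ∧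
      π x = c3 a b c ∧ π y = c3 d e f :=
    ⟨s 0, s 1, s 2, s 3, s 4, s 5, by simp [hs.eq_iff], x1, y1⟩
  simp only [List.nodup_cons, List.mem_cons, List.not_mem_nil, or_false, not_or, List.nodup_nil,
    and_true, not_false_eq_true] at n
  have bd := h.bd h8 (ρ := ρ) hm (a := a) (b := b) (c := c) (by simp; grind) x1 x3
  have bdy : ∀ W : Submodule k V, (∀ g, Commute g x → ∀ w ∈ W, ρ g w ∈ W) → y ∉ fixS ρ W →
      m ≤ finrank k W := fun W hW hy =>
    bd W hW (g := y) (by rw [y1, c3_fix] <;> grind) (by rw [y1, c3_fix] <;> grind)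
      (by rw [y1, c3_fix] <;> grind) fun n n1 n2 =>
        hy (h.pow_succ_eq n1 (by decide) y3 ▸ pow_mem n2 _)
  have X3 : ρ x ^ 3 = 1 := by rw [← map_pow, x3, map_one]
  by_cases h3 : (3 : k) = 0
  · have h3' : (3 : End k V) = 0 := by
      rw [← map_ofNat (algebraMap k (End k V)) 3, h3, map_zero]
    have cube : ∀ T : End k V, (T - 1) ^ 3 = T ^ 3 - 1 := fun T => by
      rw [show (T - 1) ^ 3 = T ^ 3 - 1 - 3 * (T ^ 2 - T) by noncomm_ring, h3', zero_mul, sub_zero]
    have cm : ∀ g, Commute g x → ∀ v, ρ g ((ρ x - 1) v) = (ρ x - 1) (ρ g v) := fun g hg v => by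
      rw [← End.mul_apply, ((hg.map ρ).sub_right (Commute.one_right _)).eq, End.mul_apply]
    have b1 := bdy (LinearMap.range (ρ x - 1)) (fun g hg _ ⟨v, hv⟩ => ⟨ρ g v, by rw [← hv, cm g hg]⟩)
      (fun hy => hA (mem_fixS_range.1 hy))
    obtain ⟨t, _, _, _, _, _, _, -⟩ := ex7 h8 a b c d e f f
    obtain ⟨g, hg⟩ := h.surj (swap d e * swap f t) (by
      simp [show d ≠ e by grind, show f ≠ t by grind])
    have ga : π g a = a := by simp only [hg, mul_apply, swap_apply_def]; grind
    have gb : π g b = b := by simp only [hg, mul_apply, swap_apply_def]; grind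
    have gc : π g c = c := by simp only [hg, mul_apply, swap_apply_def]; grind
    have b2 := bd (LinearMap.ker (ρ x - 1)) (fun g hg w hw => by
      rw [LinearMap.mem_ker] at hw ⊢
      rw [← cm g hg, hw, map_zero]) ga gb gc fun s s1 s2 => by
        have cs : Commute s x := (h.commute (by rw [x1, s1]; exact c3_commute ga gb gc)
          (by decide) x3).symm
        have f1 : ∀ w, (ρ x - 1) w = 0 → (ρ s - 1) w = 0 := fun w hw => by
          rw [LinearMap.sub_apply, s2 w hw]; simp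
        have f2 : ∀ w, (ρ x - 1) ((ρ s - 1) w) = (ρ s - 1) ((ρ x - 1) w) := fun w => by
          rw [LinearMap.sub_apply (ρ s), LinearMap.sub_apply (ρ s), map_sub, cm s cs]; rfl
        have f3 : (ρ s - 1) ^ 3 = 0 := LinearMap.ext fun v => by
          have e0 := LinearMap.congr_fun (cube (ρ x)) v
          rw [X3, sub_self, pow_three, End.mul_apply, End.mul_apply] at e0
          rw [pow_three, End.mul_apply, End.mul_apply]
          refine f1 _ ?_
          rw [f2]
          refine f1 _ ?_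
          rw [f2, f2]
          exact f1 _ e0
        rw [cube, sub_eq_zero, ← map_pow] at f3
        have f4 := congrArg (fun s : Perm α => s d) (hρ _ f3)
        simp only [map_mul, s1, hg, pow_three, mul_apply, swap_apply_def, one_apply] at f4
        grind
    have := (ρ x - 1).finrank_range_add_finrank_ker
    omega
  obtain ⟨ω, hω⟩ := IsAlgClosed.exists_root (Polynomial.X ^ 2 + Polynomial.X + 1 : Polynomial k) (by
    rw [show (Polynomial.X ^ 2 + Polynomial.X + 1 : Polynomial k).degree = 2 by compute_degree!]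
    decide)
  have hω : ω ^ 2 + ω + 1 = 0 := by simpa using hω
  obtain ⟨g, hg⟩ := h.surj (swap a b * swap d e) (by
    simp [show d ≠ e by grind, show a ≠ b by grind])
  have gx : x * g = g * x ^ 2 := h.conj_eq (by
    rw [map_pow, x1]
    refine (c3_inv (by grind) (by grind) (by grind) ?_ ?_ ?_).1 <;>
      simp only [hg, mul_apply, swap_apply_def] <;> grind)
    (by decide) x3 (by rw [← pow_mul, mul_comm, pow_mul, x3, one_pow])
  have gy : y ^ 2 * g = g * y := h.conj_eq (by
    rw [map_pow, y1]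
    refine (c3_inv (by grind) (by grind) (by grind) ?_ ?_ ?_).2 <;>
      simp only [hg, mul_apply, swap_apply_def] <;> grind)
    (by decide) (by rw [← pow_mul, mul_comm, pow_mul, y3, one_pow]) y3
  have inv : ∀ ε : k, ∀ g, Commute g x → ∀ w ∈ (ρ x).eigenspace ε, ρ g w ∈ (ρ x).eigenspace ε :=
    fun ε g hg w hw => by
      rw [End.mem_eigenspace_iff] at hw ⊢
      rw [← End.mul_apply, ← (hg.map ρ).eq, End.mul_apply, hw, map_smul]
  have sw : ∀ ε ε' : k, ε' ^ 2 = ε → y ∈ fixS ρ ((ρ x).eigenspace ε) →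
      y ∈ fixS ρ ((ρ x).eigenspace ε') := fun ε ε' e hy w hw => by
    have h1 : ρ g w ∈ (ρ x).eigenspace ε := by
      rw [End.mem_eigenspace_iff, ← End.mul_apply, ← map_mul, gx, map_mul, End.mul_apply, map_pow,
        pow_apply_eig (End.mem_eigenspace_iff.1 hw), map_smul, e]
    have h2 := pow_mem hy 2 _ h1
    rw [← End.mul_apply, ← map_mul, gy, map_mul, End.mul_apply, ← sub_eq_zero, ← map_sub] at h2
    by_contra hne
    exact ne_zero_of ρ g (sub_ne_zero.2 hne) h2
  have hne : ω - ω ^ 2 ≠ 0 := fun e => h3 (by linear_combination 4 * hω - (2 * ω + 1) * (e + hω))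
  have key : ¬ (y ∈ fixS ρ ((ρ x).eigenspace ω) ∧ y ∈ fixS ρ ((ρ x).eigenspace (ω ^ 2))) :=
    fun ⟨h1, h2⟩ => hA (mem_fixS_range.1 (by
      rintro _ ⟨v, rfl⟩
      obtain ⟨u, hu⟩ : ∃ u, u = (ρ x - 1) v := ⟨_, rfl⟩
      have e0 : ρ x (ρ x u) + ρ x u + u = 0 := by
        have := LinearMap.congr_fun X3 v
        rw [pow_three, End.mul_apply, End.mul_apply] at this
        simp only [hu, LinearMap.sub_apply, map_sub, this, End.one_apply]; abel
      have e1 := h1 (ρ x u - ω ^ 2 • u) (End.mem_eigenspace_iff.2 (by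
        rw [map_sub, map_smul]
        linear_combination (norm := module) e0 - hω • ρ x u + ((ω - 1) * hω) • u))
      have e2 := h2 (ρ x u - ω • u) (End.mem_eigenspace_iff.2 (by
        rw [map_sub, map_smul]
        linear_combination (norm := module) e0 - hω • ρ x u + ((ω - 1) * hω) • u))
      rw [← hu]
      refine smul_right_injective V hne ?_
      rw [map_sub, map_smul] at e1 e2
      linear_combination (norm := module) e1 - e2))
  have w4 : (ω ^ 2) ^ 2 = ω := by linear_combination (ω ^ 2 - ω) * hω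
  have b1 := bdy _ (inv ω) fun hy => key ⟨hy, sw _ _ w4 hy⟩
  have b2 := bdy _ (inv (ω ^ 2)) fun hy => key ⟨sw _ _ rfl hy, hy⟩
  have := Submodule.finrank_add_finrank_le_of_disjoint (s := (ρ x).eigenspace ω)
    (t := (ρ x).eigenspace (ω ^ 2)) (Submodule.disjoint_def.2 fun w h1 h2 => by
      rw [End.mem_eigenspace_iff] at h1 h2
      exact (smul_eq_zero.1 (by rw [sub_smul, ← h1, ← h2, sub_self])).resolve_left hne)
  omega

end Cfsg.Agent.H13.Wag
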