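import Cfsg.Agent.H13.Wag4

/-! Small alternating groups: weights of the subgroups `3^2`, `2^3` and `5^2`. -/

set_option autoImplicit false

namespace Cfsg.Agent.H13.Wag

open Module Equiv Equiv.Perm L0

section
variable {α : Type*} [Fintype α] [DecidableEq α] {G : Type*} [Group G] {π : G →* Perm α}
  {k V : Type*} [Field k] [AddCommGroup V] [Module k V]

theorem eig_pow {T : End k V} {q : ℕ} (hT : T ^ q = 1) {v : V} (hv : v ≠ 0) {a : k}
    (h : T v = a • v) : a ^ q = 1 := by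
  have := pow_apply_eig h q
  rw [hT, End.one_apply] at this
  exact smul_left_injective k hv (this.symm.trans (one_smul k v).symm)

theorem Cov.orbit [FiniteDimensional k V] (h : Cov π) (ρ : G →* End k V) {q : ℕ} (hq : q.Prime)
    (ho : Odd q) {A B : G} (A1 : A ^ q = 1) (B1 : B ^ q = 1) (hc : Commute A B) {v : V}
    (hv : v ≠ 0) {a b : k} (hA : ρ A v = a • v) (ha : a ≠ 1) (hB : ρ B v = b • v) {m : ℕ}
    (pg : Fin m → Perm α) (hs : ∀ s, sign (pg s) = 1) (i j i' j' : Fin m → ℕ)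
    (h1 : ∀ s, π A * pg s = pg s * (π A ^ i s * π B ^ j s))
    (h2 : ∀ s, π B * pg s = pg s * (π A ^ i' s * π B ^ j' s))
    (sep : ∀ t < q, a ^ t = b → ∀ s s', s ≠ s' → (i s + t * j s) % q ≠ (i s' + t * j s') % q ∨
      (i' s + t * j' s) % q ≠ (i' s' + t * j' s') % q) : m ≤ finrank k V := by
  have := Fact.mk hq
  have : NeZero q := ⟨hq.ne_zero⟩
  have pa : IsPrimitiveRoot a q := by
    have := IsPrimitiveRoot.orderOf a
    rwa [orderOf_eq_prime (eig_pow (by rw [← map_pow, A1, map_one]) hv hA) ha] at this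
  obtain ⟨t, ht, rfl⟩ := pa.eq_pow_of_pow_eq_one (eig_pow (by rw [← map_pow, B1, map_one]) hv hB)
  choose g hg using fun s => h.surj _ (hs s)
  have e : ∀ x y : ℕ, (A ^ x * B ^ y) ^ q = 1 := fun x y => by
    rw [(hc.pow_pow x y).mul_pow, ← pow_mul, ← pow_mul, mul_comm x, mul_comm y, pow_mul, pow_mul,
      A1, B1]; simp
  exact orbit2 ρ hq.pos hv pa hA hB g i j i' j'
    (fun s => h.conj_eq (by simp [hg, h1]) ho A1 (e _ _))
    (fun s => h.conj_eq (by simp [hg, h2]) ho B1 (e _ _)) (sep t ht rfl)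

theorem eig2 [IsAlgClosed k] [FiniteDimensional k V] (ρ : G →* End k V) {A B : G}
    (hc : Commute A B) {T : End k V} (hT : T ≠ 0) (h1 : Commute (ρ A) T) (h2 : Commute (ρ B) T) :
    ∃ v ∈ LinearMap.range T, v ≠ 0 ∧ ∃ a b : k, ρ A v = a • v ∧ ρ B v = b • v := by
  obtain ⟨v, hv, h0, β, hβ⟩ := exists_common_eig (fun i : Bool => if i then ρ A else ρ B)
    (by simp [hc.map ρ, hc.symm.map ρ]) (W := LinearMap.range T)
    (fun e => hT (LinearMap.range_eq_bot.1 e)) (by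
      rintro (_ | _) _ ⟨w, rfl⟩
      · exact ⟨ρ B w, (LinearMap.congr_fun h2.eq w).symm⟩
      · exact ⟨ρ A w, (LinearMap.congr_fun h1.eq w).symm⟩)
  exact ⟨v, hv, h0, β true, β false, hβ true, hβ false⟩

theorem Cov.step (h : Cov π) (ρ : G →* End k V) {A B X H : G} {q : ℕ} (ho : Odd q) (A1 : A ^ q = 1)
    (h0 : (ρ B - 1) * (ρ A - 1) = 0) (h1 : Commute (π A) (π H)) (h2 : Commute (π A) (π X))
    (X3 : X ^ 3 = 1) (h3 : π B * (π H * π B * (π H)⁻¹) = π X) : (ρ A - 1) * (ρ X - 1) = 0 := by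
  have c1 := ((h.commute h1 ho A1).inv_right.map ρ).sub_left (Commute.one_left _)
  have c2 : Commute (ρ A - 1) (ρ X - 1) :=
    (((h.commute h2 ho A1).map ρ).sub_left (Commute.one_left _)).sub_right (Commute.one_right _)
  have m1 : H * B * H⁻¹ ∈ fixS ρ (LinearMap.range (ρ A - 1)) := mem_fixS_range.2 (by
    have : ρ (H * B * H⁻¹) - 1 = ρ H * (ρ B - 1) * ρ H⁻¹ := by
      rw [mul_sub, sub_mul, mul_one, ← map_mul, ← map_mul, ← map_mul, mul_inv_cancel, map_one]
    rw [this, mul_assoc, ← c1.eq, mul_assoc, ← mul_assoc (ρ B - 1), h0]; simp)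
  have m2 := pow_mem (mul_mem (mem_fixS_range.2 h0) m1) (3 + 1)
  rw [h.pow_succ_eq (b := X) (by simp [← h3]) (by decide +kernel) X3] at m2
  rw [c2.eq, mem_fixS_range.1 m2]

/-- a product of transpositions -/
def pr {n : ℕ} (l : List (Fin n × Fin n)) : Perm (Fin n) := (l.map fun t => swap t.1 t.2).prod

theorem b3_aux [IsAlgClosed k] [FiniteDimensional k V] (h5 : (5 : k) ≠ 0)
    {π : G →* Perm (Fin 10)} (h : Cov π) (ρ : G →* End k V) :
    16 ≤ finrank k V ∨ ∃ x y : G, x ^ 3 = 1 ∧ y ^ 3 = 1 ∧ π x = c3 1 4 2 ∧ π y = c3 6 9 7 ∧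
      (ρ y - 1) * (ρ x - 1) = 0 := by
  obtain ⟨A, A1, A5⟩ := h.exists_lift (σ := pr [(0, 1), (1, 2), (2, 3), (3, 4)]) (by decide +kernel)
    (q := 5) (by decide +kernel) (by decide +kernel)
  obtain ⟨B, B1, B5⟩ := h.exists_lift (σ := pr [(5, 6), (6, 7), (7, 8), (8, 9)]) (by decide +kernel)
    (q := 5) (by decide +kernel) (by decide +kernel)
  have hc : Commute A B := h.commute (by rw [A1, B1, Commute, SemiconjBy]; decide +kernel) (by decide +kernel) A5
  have c1 : Commute (ρ A) (ρ B - 1) := (hc.map ρ).sub_right (Commute.one_right _)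
  have c2 : Commute (ρ B) (ρ A - 1) := (hc.symm.map ρ).sub_right (Commute.one_right _)
  have c0 : ∀ T : End k V, Commute T (T - 1) := fun T =>
    (Commute.refl T).sub_right (Commute.one_right _)
  by_cases hT : (ρ B - 1) * (ρ A - 1) = 0
  · obtain ⟨x, x1, x3⟩ := h.lift3 (a := 1) (b := 4) (c := 2) (by decide +kernel) (by decide +kernel) (by decide +kernel)
    obtain ⟨y, y1, y3⟩ := h.lift3 (a := 6) (b := 9) (c := 7) (by decide +kernel) (by decide +kernel) (by decide +kernel)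
    obtain ⟨s, s1, -⟩ := h.lift3 (a := 0) (b := 1) (c := 3) (by decide +kernel) (by decide +kernel) (by decide +kernel)
    obtain ⟨t, t1, -⟩ := h.lift3 (a := 5) (b := 6) (c := 8) (by decide +kernel) (by decide +kernel) (by decide +kernel)
    refine Or.inr ⟨x, y, x3, y3, x1, y1, h.step ρ (B := A) (H := s) (by decide +kernel) y3
      (h.step ρ (H := t) (by decide +kernel) A5 hT ?_ ?_ y3 ?_) ?_ ?_ x3 ?_⟩ <;>
      simp only [A1, B1, x1, y1, s1, t1, Commute, SemiconjBy] <;> decide +kernel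
  obtain ⟨v, hv, h0, a, b, hA, hB⟩ := eig2 ρ hc hT (c1.mul_right (c0 _)) ((c0 _).mul_right c2)
  have ha : a ≠ 1 := fun e => ne_of_mem_range (T := ρ A) (q := 5) (by exact_mod_cast h5)
    (by rw [← map_pow, A5, map_one]) (by
      rw [(c2.sub_left (Commute.one_left _)).eq] at hv
      exact LinearMap.range_comp_le_range _ _ hv) h0 (by rw [hA, e, one_smul])
  have hb : b ≠ 1 := fun e => ne_of_mem_range (T := ρ B) (q := 5) (by exact_mod_cast h5)
    (by rw [← map_pow, B5, map_one]) (LinearMap.range_comp_le_range _ _ hv) h0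
    (by rw [hB, e, one_smul])
  refine Or.inl (h.orbit ρ Nat.prime_five (by decide +kernel) A5 B5 hc h0 hA ha hB (fun s => pr (![[],
      [(6, 9), (7, 8)],
      [(1, 2), (2, 4), (3, 4), (6, 7), (7, 9), (8, 9)],
      [(1, 2), (2, 4), (3, 4), (6, 8), (7, 8), (8, 9)],
      [(1, 4), (2, 3)],
      [(1, 4), (2, 3), (6, 9), (7, 8)],
      [(1, 3), (2, 3), (3, 4), (6, 7), (7, 9), (8, 9)],
      [(1, 3), (2, 3), (3, 4), (6, 8), (7, 8), (8, 9)],
      [(0, 5), (1, 6), (2, 7), (3, 8), (4, 9), (6, 7), (7, 9), (8, 9)],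
      [(0, 5), (1, 6), (2, 7), (3, 8), (4, 9), (6, 8), (7, 8), (8, 9)],
      [(0, 5), (1, 7), (2, 9), (3, 6), (4, 8), (6, 7), (7, 9), (8, 9)],
      [(0, 5), (1, 7), (2, 9), (3, 6), (4, 8), (6, 8), (7, 8), (8, 9)],
      [(0, 5), (1, 9), (2, 8), (3, 7), (4, 6), (6, 8), (7, 8), (8, 9)],
      [(0, 5), (1, 9), (2, 8), (3, 7), (4, 6), (6, 7), (7, 9), (8, 9)],
      [(0, 5), (1, 8), (2, 6), (3, 9), (4, 7), (6, 8), (7, 8), (8, 9)],
      [(0, 5), (1, 8), (2, 6), (3, 9), (4, 7), (6, 7), (7, 9), (8, 9)]] s)) (by decide +kernel)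
    ![1, 1, 3, 3, 4, 4, 2, 2, 0, 0, 0, 0, 0, 0, 0, 0] ![0, 0, 0, 0, 0, 0, 0, 0, 3, 2, 1, 4, 3, 2, 1, 4]
    ![0, 0, 0, 0, 0, 0, 0, 0, 1, 1, 3, 3, 4, 4, 2, 2] ![1, 4, 3, 2, 1, 4, 3, 2, 0, 0, 0, 0, 0, 0, 0, 0]
    (by rw [A1, B1]; decide +kernel) (by rw [A1, B1]; decide +kernel) fun t ht e => ?_)
  have h0 : t ≠ 0 := by rintro rfl; exact hb (by rw [← e, pow_zero])
  clear e
  revert t
  decide +kernel

theorem Cov.b3 [IsAlgClosed k] [FiniteDimensional k V] (h5 : (5 : k) ≠ 0) (h : Cov π)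
    (h10 : 10 ≤ Fintype.card α) (ρ : G →* End k V) : 16 ≤ finrank k V ∨ HA π ρ := by
  obtain ⟨e⟩ := Function.Embedding.nonempty_of_card_le (α := Fin 10) (β := α) (by simpa)
  refine (b3_aux h5 (h.pb e) (ρ.comp (pb1 π e))).imp_right fun ⟨x, y, x3, y3, x1, y1, h0⟩ => ?_
  exact h.ha (by omega) (a := e ∘ ![1, 4, 2, 6, 9, 7]) (e.injective.comp (by decide +kernel))
    (x := pb1 π e x) (y := pb1 π e y) (by rw [← map_pow, x3, map_one])
    (by rw [← map_pow, y3, map_one]) (by rw [pb_eq, x1, via_c3]; rfl)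
    (by rw [pb_eq, y1, via_c3]; rfl) h0

end

variable {k : Type} [Field k] [IsAlgClosed k]

theorem b1 (h3 : (3 : k) ≠ 0) : CBd k (Fin 9) 8 := by
  intro G _ _ π h V _ _ _ ρ hρ
  obtain ⟨A, A1, A3⟩ := h.exists_lift (σ := pr [(0, 3), (1, 4), (2, 5), (3, 6), (4, 7), (5, 8)])
    (by decide +kernel) (q := 3) (by decide +kernel) (by decide +kernel)
  obtain ⟨B, B1, B3⟩ := h.exists_lift (σ := pr [(0, 1), (1, 2), (3, 4), (4, 5), (6, 7), (7, 8)])
    (by decide +kernel) (q := 3) (by decide +kernel) (by decide +kernel)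
  have hc : Commute A B := h.commute (by rw [A1, B1, Commute, SemiconjBy]; decide +kernel) (by decide +kernel) A3
  obtain ⟨v, hv, h0, a, b, hA, hB⟩ := eig2 ρ hc (T := ρ A - 1) (fun e => by
      have := hρ A (sub_eq_zero.1 e)
      rw [A1] at this; revert this; decide +kernel)
    ((Commute.refl _).sub_right (Commute.one_right _))
    ((hc.symm.map ρ).sub_right (Commute.one_right _))
  have ha : a ≠ 1 := fun e => ne_of_mem_range (T := ρ A) (q := 3) (by exact_mod_cast h3)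
    (by rw [← map_pow, A3, map_one]) hv h0 (by rw [hA, e, one_smul])
  refine h.orbit ρ Nat.prime_three (by decide +kernel) A3 B3 hc h0 hA ha hB (fun s => pr (![
      [(1, 3), (2, 6), (3, 6), (4, 5), (5, 8), (7, 8)],
      [(1, 6), (2, 3), (3, 6), (4, 7), (5, 7), (7, 8)],
      [],
      [(1, 5), (2, 7), (3, 4), (4, 6), (5, 7), (6, 8)],
      [(1, 8), (2, 4), (3, 5), (4, 8), (5, 6), (6, 7)],
      [(1, 2), (3, 6), (4, 8), (5, 7)],
      [(1, 4), (2, 8), (3, 7), (4, 8), (5, 7), (6, 7)],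
      [(1, 7), (2, 5), (3, 8), (4, 8), (5, 7), (6, 8)]] s)) (by decide +kernel)
    ![0, 0, 1, 2, 2, 2, 1, 1] ![1, 2, 0, 2, 1, 0, 2, 1] ![2, 1, 0, 2, 1, 0, 2, 1]
    ![0, 0, 1, 1, 1, 2, 2, 2]
    (by rw [A1, B1]; decide +kernel) (by rw [A1, B1]; decide +kernel) fun t ht e => ?_
  clear e
  revert t
  decide +kernel

theorem b2 (h2 : (2 : k) ≠ 0) : CBd k (Fin 8) 7 := by
  intro G _ _ π h V _ _ _ ρ hρ
  obtain ⟨E, E1⟩ := h.surj (pr [(0, 1), (2, 3), (4, 5), (6, 7)]) (by decide +kernel)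
  obtain ⟨g, g1, g7⟩ := h.exists_lift (σ := pr [(1, 2), (2, 4), (3, 6), (4, 6), (5, 6), (6, 7)])
    (by decide +kernel) (q := 7) (by decide +kernel) (by decide +kernel)
  obtain ⟨F, hF⟩ : ∃ F : ℕ → G, ∀ i, F i = g ^ i * E * (g ^ i)⁻¹ := ⟨_, fun _ => rfl⟩
  have Fa : ∀ i j, F (i + j) = g ^ j * F i * (g ^ j)⁻¹ := fun i j => by rw [hF, hF]; group
  have cj : ∀ {z}, π z = 1 → ∀ s : G, s * z * s⁻¹ = z := fun hz s => by
    rw [(h.cen _ hz s).eq, mul_inv_cancel_right]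
  obtain ⟨z, hz, e3⟩ := H27.eq_mul_ker (σ := π) (a := F 0 * F 1) (a' := F 3) (by
    simp only [hF, map_mul, map_inv, map_pow, E1, g1]; decide +kernel)
  obtain ⟨c, hc, e1⟩ := H27.eq_mul_ker (σ := π) (a := F 1 * F 0) (a' := F 0 * F 1) (by
    simp only [hF, map_mul, map_inv, map_pow, E1, g1]; decide +kernel)
  have r3 : ∀ i, F (3 + i) = F (0 + i) * F (1 + i) * z := fun i => by
    rw [Fa, Fa, Fa, e3, conj_mul, ← conj_mul, cj hz]
  have r1 : ∀ i, F (0 + i) * F (1 + i) = F (1 + i) * F (0 + i) * c := fun i => by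
    rw [Fa, Fa, conj_mul, conj_mul, e1, ← conj_mul, cj hc]
  have c02 : Commute (F 0) (F 2) := by
    have a1 : F 1 * F 2 = F 2 * F 1 * c := r1 1
    have a2 : F 2 * F 3 = F 3 * F 2 * c := r1 2
    rw [e3, mul_assoc _ z, ← (h.cen _ hz _).eq, mul_assoc (F 0 * F 1), mul_assoc (F 2) z, ← mul_assoc,
      ← mul_assoc, ← mul_assoc (F 0 * F 1), mul_assoc (F 0) (F 1) (F 2), a1, ← (h.cen _ hz c).eq,
      ← mul_assoc, ← mul_assoc, mul_assoc _ c c, ← sq, h.sq _ hc, mul_one, ← mul_assoc] at a2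
    exact (mul_right_cancel (mul_right_cancel a2)).symm
  have cs : ∀ i j l, Commute (F i) (F j) → Commute (F (i + l)) (F (j + l)) := fun i j l e => by
    rw [Fa, Fa]; exact e.conj _
  have c01 : Commute (F 0) (F 1) := by
    have a1 : F 1 * F 3 = F 3 * F 1 := cs 0 2 1 c02
    rw [e3, mul_assoc _ z, ← (h.cen _ hz _).eq, ← mul_assoc, ← mul_assoc, ← mul_assoc] at a1
    exact (mul_right_cancel (mul_right_cancel a1)).symm
  have c0 : ∀ j, Commute (F 0) (F j) := fun j => by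
    induction j using Nat.strong_induction_on with
    | _ j ih =>
      match j with
      | 0 => exact Commute.refl _
      | 1 => exact c01
      | 2 => exact c02
      | j + 3 =>
        rw [add_comm, r3]
        exact ((ih _ (by omega)).mul_right (ih _ (by omega))).mul_right (h.cen _ hz _)
  have cc : ∀ i j, Commute (F i) (F j) := fun i j => by
    rcases le_total i j with e | e <;> obtain ⟨l, rfl⟩ := Nat.exists_eq_add_of_le' e
    · simpa using cs 0 l i (c0 l)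
    · simpa using (cs 0 l j (c0 l)).symm
  have cH : ∀ i, Commute (ρ (F i)) (ρ ((F 1)⁻¹ * F 0) - 1) := fun i =>
    (((cc i 1).inv_right.mul_right (cc i 0)).map ρ).sub_right (Commute.one_right _)
  obtain ⟨v, hv, h0, μ, hμ⟩ := exists_common_eig (fun i => ρ (F i)) (fun i j => (cc i j).map ρ)
    (W := LinearMap.range (ρ ((F 1)⁻¹ * F 0) - 1)) (fun e => by
      have := hρ _ (sub_eq_zero.1 (LinearMap.range_eq_bot.1 e))
      simp only [hF, map_mul, map_inv, map_pow, E1, g1] at this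
      revert this; decide +kernel) (by
      rintro i _ ⟨w, rfl⟩
      exact ⟨ρ (F i) w, (LinearMap.congr_fun (cH i).eq w).symm⟩)
  have h01 : μ 0 ≠ μ 1 := fun e => ne_of_mem_range (T := ρ ((F 1)⁻¹ * F 0)) (q := 2 * 2) (by
      rw [Nat.cast_mul]; exact mul_ne_zero h2 h2) (by
      rw [← map_pow, pow_mul, h.sq, map_one]
      simp only [hF, map_mul, map_inv, map_pow, E1, g1]; decide +kernel) hv h0 (by
      rw [map_mul, End.mul_apply, hμ, e, ← hμ, ← End.mul_apply, ← map_mul]; simp)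
  have p7 : Function.Periodic μ 7 := fun i => smul_left_injective k h0 (by
    simp only [← hμ]; rw [Fa, g7]; simp)
  have := card_le_of_sep (k := k) (fun s : Fin 7 => ρ (g ^ (s : ℕ))⁻¹ v)
    (fun s => ne_zero_of ρ _ h0) fun s s' hs => by
      by_contra! H
      have H' : ∀ i, μ (i + s) = μ (i + s') := fun i => H (ρ (F i)) (fun l => μ (i + l)) fun l => by
        rw [← map_smul, ← hμ, ← End.mul_apply, ← End.mul_apply, ← map_mul, ← map_mul, Fa]
        congr 2; group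
      have pd : Function.Periodic μ (s' + 7 - s) := fun i => by
        rw [show i + (s' + 7 - s) = i + 7 - s + s' by omega, ← H', ← p7 i]; congr 1; omega
      obtain ⟨u, -, hu⟩ := (by decide : ∀ s s' : Fin 7, s ≠ s' →
        ∃ u < 7, u * ((s' : ℕ) + 7 - s) % 7 = 1) s s' hs
      apply h01
      rw [← pd.nat_mul u 0, ← p7.map_mod_nat, zero_add, Nat.cast_id, hu]
  simpa using this

end Cfsg.Agent.H13.Wag
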