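import Cfsg.Agent.H13.Wag5

/-! The reduction of Feit and Tits for alternating sections of linear groups. -/

set_option autoImplicit false

namespace Cfsg.Agent.H13.Wag

open Module Equiv Equiv.Perm L0 Subgroup
open scoped commutatorElement

section
variable {α : Type*} [Fintype α] [DecidableEq α] {G : Type*} [Group G] {π : G →* Perm α}
  {k V : Type*} [Field k] [AddCommGroup V] [Module k V]

theorem Mn.top (hm : Mn π) (h : Sur π) (h5 : 5 ≤ Fintype.card α) {N : Subgroup G} [N.Normal]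
    {g : G} (hg : g ∈ N) (h1 : π g ≠ 1) : N = ⊤ := hm N fun _ hσ => h.normal h5 hg h1 hσ

theorem Sur.noncomm (h : Sur π) (h8 : 8 ≤ Fintype.card α) : ∃ a b : G, π ⁅a, b⁆ ≠ 1 := by
  obtain ⟨a⟩ : Nonempty α := Fintype.card_pos_iff.1 (by omega)
  obtain ⟨b, _, -⟩ := ex7 h8 a a a a a a a
  obtain ⟨c, _, _, -⟩ := ex7 h8 a b a a a a a
  obtain ⟨d, _, _, _, -⟩ := ex7 h8 a b c a a a a
  obtain ⟨x, hx⟩ := h.surj (c3 a b c) (c3_sign (by grind) (by grind))
  obtain ⟨y, hy⟩ := h.surj (c3 a b d) (c3_sign (by grind) (by grind))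
  refine ⟨x, y, fun e => ?_⟩
  rw [map_commutatorElement, commutatorElement_eq_one_iff_mul_comm, hx, hy] at e
  have := congrArg (fun s : Perm α => s a) e
  simp only [c3, mul_apply, swap_apply_def] at this
  grind

theorem Mn.perfect (hm : Mn π) (h : Sur π) (h8 : 8 ≤ Fintype.card α) : commutator G = ⊤ := by
  obtain ⟨a, b, e⟩ := h.noncomm h8
  exact hm.top h (by omega) (commutator_mem_commutator (mem_top a) (mem_top b)) e

theorem central_of_perfect (hp : commutator G = ⊤) {e : G}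
    (he : ∀ g, g * e * g⁻¹ * e⁻¹ ∈ center G) : e ∈ center G := by
  let f : G →* G := MonoidHom.mk' (fun g => g * e * g⁻¹ * e⁻¹) fun a b => by
    rw [show a * b * e * (a * b)⁻¹ * e⁻¹ = a * (b * e * b⁻¹ * e⁻¹) * (e * a⁻¹ * e⁻¹) by group,
      mul_assoc a, ← mem_center_iff.1 (he b)]
    group
  have : commutator G ≤ f.ker := commutator_le.2 fun a _ b _ => by
    rw [MonoidHom.mem_ker, map_commutatorElement, commutatorElement_eq_one_iff_mul_comm]
    exact mem_center_iff.1 (he b) _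
  refine mem_center_iff.2 fun g => ?_
  have h1 : g * e * g⁻¹ * e⁻¹ = 1 := this (hp ▸ mem_top g)
  rwa [mul_inv_eq_one, mul_inv_eq_iff_eq_mul] at h1

theorem Mn.ker_le [Finite G] (hm : Mn π) (h : Sur π) : π.ker ≤ frattini G :=
  le_iInf₂ fun M (hM : IsCoatom M) => by
    by_contra hn
    have e := hM.2 (π.ker ⊔ M) (lt_of_le_of_ne le_sup_right fun e => hn (e ▸ le_sup_left))
    refine hM.1 (hm M fun σ hσ => ?_)
    obtain ⟨g, rfl⟩ := h.surj σ hσ
    obtain ⟨z, hz, m, hm, rfl⟩ := mem_sup_of_normal_left.1 (e ▸ mem_top g : g ∈ π.ker ⊔ M)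
    exact ⟨m, hm, by rw [map_mul, show π z = 1 from hz, one_mul]⟩

theorem Mn.index_ge [Finite G] (hm : Mn π) (h : Sur π) (h5 : 5 ≤ Fintype.card α) {H : Subgroup G}
    (hH : H ≠ ⊤) : Fintype.card α ≤ H.index := by
  have h1 : (MulAction.toPermHom G (G ⧸ H)).ker ≤ π.ker := fun g hg => by
    by_contra hn
    have := hm.top h h5 hg hn
    rw [← normalCore_eq_ker] at this
    exact hH (top_le_iff.1 (this ▸ H.normalCore_le))
  have h2 := Nat.le_of_dvd (Nat.pos_of_ne_zero index_ne_zero_of_finite) (index_dvd_of_le h1)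
  have h3 : π.range = alternatingGroup α := by
    ext σ
    exact ⟨fun ⟨g, hg⟩ => hg ▸ h.sgn g, h.surj σ⟩
  rw [index_ker, index_ker, h3] at h2
  have h4 := h2.trans (card_le_card_group _)
  have : Nontrivial α := Fintype.one_lt_card_iff_nontrivial.1 (by omega)
  have h6 := two_mul_nat_card_alternatingGroup (α := α)
  rw [Nat.card_perm, Nat.card_eq_fintype_card (α := α)] at h6
  rw [Nat.card_perm, ← index_eq_card] at h4
  by_contra! hlt
  obtain ⟨r, hr⟩ : ∃ r, Fintype.card α = r + 1 := ⟨Fintype.card α - 1, by omega⟩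
  have h7 := Nat.factorial_le (show H.index ≤ r by omega)
  have h8 := Nat.factorial_pos r
  rw [hr, Nat.factorial_succ] at h6
  nlinarith

variable [IsAlgClosed k] [FiniteDimensional k V] {ρ : G →* End k V}

theorem abel_case [Finite G] [Nontrivial V] (hm : Mn π) (h : Sur π) (h5 : 5 ≤ Fintype.card α)
    (hi : Function.Injective ρ) (hI : Irr ρ) {E : Subgroup G} [hE : E.Normal]
    (hc : ∀ a ∈ E, ∀ b ∈ E, a * b = b * a) (hn : ¬ E ≤ center G) :
    Fintype.card α ≤ finrank k V := by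
  obtain ⟨v, -, h0, β, hβ⟩ := exists_common_eig (fun e : E => ρ e)
    (fun a b => Commute.map (hc _ a.2 _ b.2) ρ) (W := ⊤) top_ne_bot fun _ _ _ => trivial
  have cj : ∀ (g : G) (e : E), ρ e (ρ g v) = β ⟨_, hE.conj_mem' _ e.2 g⟩ • ρ g v := fun g e => by
    rw [← map_smul, ← hβ, ← End.mul_apply, ← End.mul_apply, ← map_mul, ← map_mul]
    congr 2; group
  let H : Subgroup G :=
    { carrier := {g | ∀ e : E, β ⟨_, hE.conj_mem' _ e.2 g⟩ = β e}
      one_mem' := fun e => by simp
      mul_mem' := fun {a b} ha hb e => by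
        rw [← ha e, ← hb ⟨_, hE.conj_mem' _ e.2 a⟩]; congr 2; group
      inv_mem' := fun {a} ha e => by
        rw [← ha ⟨_, hE.conj_mem' _ e.2 a⁻¹⟩]; congr 2; group }
  refine (hm.index_ge h h5 (H := H) fun hH => hn fun e he => ?_).trans ?_
  · have hs : Submodule.span k (Set.range fun g => ρ g v) = ⊤ := by
      refine (hI _ fun g w hw => ?_).resolve_left fun e => h0 ?_
      · refine Submodule.span_induction (p := fun w _ => ρ g w ∈ _) ?_ (by simp)
          (fun x y _ _ a b => by rw [map_add]; exact add_mem a b)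
          (fun c x _ a => by rw [map_smul]; exact Submodule.smul_mem _ _ a) hw
        rintro _ ⟨g', rfl⟩
        exact Submodule.subset_span ⟨g * g', by simp⟩
      · exact (Submodule.eq_bot_iff _).1 e v (Submodule.subset_span ⟨1, by simp⟩)
    have e1 : ρ e = β ⟨e, he⟩ • (1 : End k V) := LinearMap.ext_on_range hs fun g => by
      rw [cj g ⟨e, he⟩, (hH ▸ mem_top g : g ∈ H) ⟨e, he⟩]; rfl
    exact mem_center_iff.2 fun g => hi (by simp [e1])
  · refine card_le_of_sep (k := k) (fun q : G ⧸ H => ρ q.out v) (fun q => ne_zero_of ρ _ h0)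
      fun q q' hq => ?_
    by_contra! H'
    refine hq (by
      rw [← q.out_eq', ← q'.out_eq', QuotientGroup.eq]
      intro e
      have := H' (ρ (q.out * e * q.out⁻¹)) _ fun l => cj l.out ⟨_, hE.conj_mem _ e.2 q.out⟩
      convert this.symm using 3 <;> group)

theorem nonab_case [Finite G] [Nontrivial V] (hi : Function.Injective ρ) (hI : Irr ρ)
    {E : Subgroup G} (h1 : ∀ a ∈ E, ∀ b ∈ E, a * b * a⁻¹ * b⁻¹ ∈ center G)
    (h2 : ∀ a ∈ E, (∀ b ∈ E, b * a = a * b) → a ∈ center G) :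
    Nat.card (E.map (QuotientGroup.mk' (center G))) ≤ finrank k V ^ 2 := by
  have sc : ∀ z ∈ center G, ∃ μ : k, ρ z = μ • (1 : End k V) := fun z hz => by
    obtain ⟨μ, hμ⟩ := End.exists_eigenvalue (ρ z)
    obtain ⟨v, hv⟩ := hμ.exists_hasEigenvector
    exact ⟨μ, LinearMap.ext (hI.scalar (fun g => Commute.map (mem_center_iff.1 hz g) ρ) hv.2
      hv.apply_eq_smul)⟩
  choose! μ hμ using sc
  choose x x1 x2 using fun q : E.map (QuotientGroup.mk' (center G)) => q.2
  rw [sq, ← Module.finrank_linearMap k k V V]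
  refine card_le_of_sep (k := k) (V := End k V) (fun q => ρ (x q))
    (fun q => ((Group.isUnit _).map ρ).ne_zero) fun q q' hq => ?_
  by_contra! H
  refine hq (Subtype.ext ?_)
  rw [← x2, ← x2]
  refine QuotientGroup.eq.2 (h2 _ (mul_mem (inv_mem (x1 q)) (x1 q')) fun b hb => ?_)
  have := H (LinearMap.mulLeft k (ρ b) ∘ₗ LinearMap.mulRight k (ρ b⁻¹))
    (fun l => μ (b * x l * b⁻¹ * (x l)⁻¹)) fun l => by
      rw [← one_mul (ρ (x l)), ← smul_mul_assoc, ← hμ _ (h1 _ hb _ (x1 l)), one_mul]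
      simp only [LinearMap.comp_apply, LinearMap.mulLeft_apply, LinearMap.mulRight_apply,
        ← map_mul]
      congr 1; group
  have e := hi ((hμ _ (h1 _ hb _ (x1 q))).trans (this ▸ (hμ _ (h1 _ hb _ (x1 q'))).symm))
  have e2 : x q' * b⁻¹ * (x q')⁻¹ = x q * b⁻¹ * (x q)⁻¹ :=
    mul_left_cancel (a := b) (by simpa [mul_assoc] using e.symm)
  calc b * ((x q)⁻¹ * x q') = (x q)⁻¹ * (x q * b⁻¹ * (x q)⁻¹)⁻¹ * x q' := by group
    _ = _ := by rw [← e2]; group

theorem rep_of_aut {A : Type*} [Group A] [Finite A] (l : ℕ) [Fact l.Prime]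
    (hc : ∀ a b : A, a * b = b * a) (h : ∀ a : A, a ^ l = 1) (ψ : G →* MulAut A) :
    ∃ (d : ℕ) (τ : G →* End (AlgebraicClosure (ZMod l)) (Fin d → AlgebraicClosure (ZMod l))),
      Nat.card A = l ^ d ∧ ∀ g, τ g = 1 ↔ ψ g = 1 := by
  letI : CommGroup A := { ‹Group A› with mul_comm := hc }
  letI : Module (ZMod l) (Additive A) := AddCommGroup.zmodModule (n := l) h
  let τ : G →* End (ZMod l) (Additive A) :=
    { toFun := fun g => (MonoidHom.toAdditive (ψ g).toMonoidHom).toZModLinearMap l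
      map_one' := by ext; simp
      map_mul' := fun a b => by ext; simp }
  obtain ⟨τ', h'⟩ := base_change (algebraMap (ZMod l) (AlgebraicClosure (ZMod l))) τ
  refine ⟨_, τ', ?_, fun g => (h' g).trans ⟨fun e => MulEquiv.ext fun a =>
    LinearMap.congr_fun e (Additive.ofMul a), fun e => by ext; simp [τ, e]⟩⟩
  have := Module.natCard_eq_pow_finrank (K := ZMod l) (V := Additive A)
  rwa [Nat.card_zmod] at this

theorem sq_le_two_pow {s : ℕ} (h : 7 ≤ s) : (s + 1) ^ 2 ≤ 2 ^ s := by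
  induction s, h using Nat.le_induction with
  | base => norm_num
  | succ s h ih => rw [pow_succ 2]; nlinarith

end

end Cfsg.Agent.H13.Wag
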