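import Cfsg.Agent.H13.Wag6

/-! Alternating sections of linear groups: the main induction. -/

set_option autoImplicit false

namespace Cfsg.Agent.H13.Wag

open Module Equiv Equiv.Perm L0 Subgroup
open scoped commutatorElement

/-- the bound for all faithful-enough representations of `G` -/
def Bd {α : Type} [Fintype α] {G : Type} [Group G] (π : G →* Perm α) : Prop :=
  ∀ (p : ℕ) [Fact p.Prime] (k : Type) [Field k] [CharP k p] [IsAlgClosed k] (V : Type)
    [AddCommGroup V] [Module k V] [FiniteDimensional k V] (ρ : G →* End k V),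
      (∀ g, ρ g = 1 → π g = 1) →
        Fintype.card α - 1 - (if p ∣ Fintype.card α then 1 else 0) ≤ finrank k V

variable {α : Type} [Fintype α] [DecidableEq α] {G : Type} [Group G] [Finite G] {π : G →* Perm α}

theorem proj (p : ℕ) [hp : Fact p.Prime] {k V : Type} [Field k] [CharP k p] [IsAlgClosed k]
    [AddCommGroup V] [Module k V] [FiniteDimensional k V] {ρ : G →* End k V} (h : Cov π)
    (hm : Mn π) (h9 : 9 ≤ Fintype.card α) (hi : Function.Injective ρ) (hI : Irr ρ)
    (ih : 12 ≤ Fintype.card α → ∀ (β : Type) [Fintype β] [DecidableEq β],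
      Fintype.card β + 3 = Fintype.card α → CBd k β (Fintype.card α - 5)) :
    Fintype.card α - 1 - (if p ∣ Fintype.card α then 1 else 0) ≤ finrank k V := by
  have hρ : ∀ g, ρ g = 1 → π g = 1 := fun g hg => by rw [hi (hg.trans ρ.map_one.symm), map_one]
  by_cases hA : HA π ρ
  · exact h.natural p (h.inj_of_HA hm (by omega) hi hI hA) (by omega) hρ hA
  have ne : ∀ q : ℕ, q.Prime → p ≠ q → (q : k) ≠ 0 := fun q hq e h0 =>
    e ((Nat.prime_dvd_prime_iff_eq hp.out hq).1 ((CharP.cast_eq_zero_iff k p q).1 h0))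
  have B1 : p ≠ 3 → 8 ≤ finrank k V := fun e =>
    (b1 (by exact_mod_cast ne 3 Nat.prime_three e)).mono (by simpa) G π h V ρ hρ
  have B2 : p ≠ 2 → ∀ (β : Type) [Fintype β] [DecidableEq β], 8 ≤ Fintype.card β → CBd k β 7 :=
    fun e β _ _ h8 => (b2 (by exact_mod_cast ne 2 Nat.prime_two e)).mono (by simpa)
  have B3 : p ≠ 5 → 10 ≤ Fintype.card α → 16 ≤ finrank k V := fun e h10 =>
    (h.b3 (by exact_mod_cast ne 5 Nat.prime_five e) h10 ρ).resolve_right hA
  by_cases h12 : 12 ≤ Fintype.card α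
  · have := h.double (by omega) hρ hA (ih h12)
    omega
  by_cases h5 : p = 5
  · subst h5
    have := B1 (by decide)
    by_cases h11 : Fintype.card α = 11
    · have := h.double (by omega) hρ hA fun β _ _ e => B2 (by decide) β (by omega)
      omega
    · split_ifs <;> omega
  by_cases h10 : 10 ≤ Fintype.card α
  · have := B3 h5 h10
    omega
  by_cases h3 : p = 3
  · subst h3
    have := B2 (by decide) α (by omega) G π h V ρ hρ
    split_ifs <;> omega
  · have := B1 h3
    omega

theorem noncentral (h : Sur π) (hm : Mn π) (h9 : 9 ≤ Fintype.card α) {k V : Type} [Field k]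
    [IsAlgClosed k] [AddCommGroup V] [Module k V] [FiniteDimensional k V] [Nontrivial V]
    {ρ : G →* End k V} (hi : Function.Injective ρ) (hI : Irr ρ) (hK : ¬ π.ker ≤ center G)
    (ih : ∀ (l : ℕ) [Fact l.Prime] (d : ℕ)
      (τ : G →* End (AlgebraicClosure (ZMod l)) (Fin d → AlgebraicClosure (ZMod l))),
        (∀ g, τ g = 1 → π g = 1) → ¬ Function.Injective τ → Fintype.card α - 2 ≤ d) :
    Fintype.card α - 1 ≤ finrank k V := by
  obtain ⟨E, ⟨hE, h1, h2⟩, hmin⟩ := (wellFounded_lt (α := Subgroup G)).has_min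
    {E | E.Normal ∧ E ≤ π.ker ∧ ¬ E ≤ center G} ⟨π.ker, inferInstance, le_rfl, hK⟩
  have small : ∀ N : Subgroup G, N.Normal → N < E → N ≤ center G := fun N a b => by
    by_contra c
    exact hmin N ⟨a, b.le.trans h1, c⟩ b
  by_cases hab : ∀ a ∈ E, ∀ b ∈ E, a * b = b * a
  · exact (Nat.sub_le _ _).trans (abel_case hm h (by omega) hi hI hab h2)
  have hne : E ≠ ⊥ := fun e => h2 (e ▸ bot_le)
  have c1 : ⁅E, E⁆ ≤ center G := small _ inferInstance (by
    have := frattini_nilpotent (G := G)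
    have : Group.IsSolvable E := solvable_of_solvable_injective
      (inclusion_injective (h1.trans (hm.ker_le h)))
    have : Nontrivial E := (nontrivial_iff_ne_bot E).2 hne
    rw [← E.range_subtype, MonoidHom.range_eq_map, ← map_commutator, map_subtype_lt_map_subtype]
    exact Group.IsSolvable.commutator_lt_top_of_nontrivial E)
  have c1' : ∀ a ∈ E, ∀ b ∈ E, a * b * a⁻¹ * b⁻¹ ∈ center G := fun a ha b hb =>
    c1 (commutator_mem_commutator ha hb)
  have c2 : E ⊓ centralizer E ≤ center G := small _ inferInstance (lt_of_le_of_ne inf_le_left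
    fun e => hab fun a ha b hb => (e.ge hb).2 a ha)
  have hcard := nonab_case hi hI c1' fun a ha hc => c2 ⟨ha, hc⟩
  let φ := QuotientGroup.mk' (center G)
  have hφ : ∀ a ∈ E, ∀ b ∈ E, Commute (φ a) (φ b) := fun a ha b hb => by
    rw [← commutatorElement_eq_one_iff_commute, ← map_commutatorElement]
    exact (QuotientGroup.eq_one_iff _).2 (c1' a ha b hb)
  have : (E.map φ).Normal := hE.map φ (QuotientGroup.mk'_surjective _)
  have hc : ∀ a b : E.map φ, a * b = b * a := by
    rintro ⟨_, a, ha, rfl⟩ ⟨_, b, hb, rfl⟩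
    exact Subtype.ext (hφ a ha b hb).eq
  obtain ⟨l, hl, hl'⟩ := Nat.exists_prime_and_dvd (n := Nat.card (E.map φ)) fun e => h2 (by
    rwa [card_eq_one, Subgroup.map_eq_bot_iff, QuotientGroup.ker_mk'] at e)
  have := Fact.mk hl
  obtain ⟨⟨_, x, hx, rfl⟩, ox⟩ := exists_prime_orderOf_dvd_card' l hl'
  let El : Subgroup G :=
    { carrier := {e | e ∈ E ∧ φ e ^ l = 1}
      one_mem' := ⟨one_mem _, by simp⟩
      mul_mem' := fun ha hb => ⟨mul_mem ha.1 hb.1, by
        rw [map_mul, (hφ _ ha.1 _ hb.1).mul_pow, ha.2, hb.2, one_mul]⟩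
      inv_mem' := fun ha => ⟨inv_mem ha.1, by rw [map_inv, inv_pow, ha.2, inv_one]⟩ }
  have hEl : El = E := by
    by_contra hn
    have := small El ⟨fun a ha g => ⟨hE.conj_mem _ ha.1 g, by
      rw [map_mul, map_mul, map_inv, conj_pow, ha.2]; simp⟩⟩ (lt_of_le_of_ne (fun a ha => ha.1) hn)
      (show x ∈ El from ⟨hx, congrArg Subtype.val (ox ▸ pow_orderOf_eq_one _ :
        (⟨φ x, x, hx, rfl⟩ : E.map φ) ^ l = 1)⟩)
    rw [show (⟨φ x, x, hx, rfl⟩ : E.map φ) = 1 from Subtype.ext ((QuotientGroup.eq_one_iff _).2 this),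
      orderOf_one] at ox
    exact hl.ne_one ox.symm
  obtain ⟨d, τ, e1, e2⟩ := rep_of_aut l hc (by
    rintro ⟨_, a, ha, rfl⟩
    exact Subtype.ext (hEl.ge ha).2) ((MulAut.conjNormal (H := E.map φ)).comp φ)
  have hd := ih l d τ (fun g hg => by
    by_contra hn
    have ht := hm.top h (by omega) (N := τ.ker) hg hn
    refine h2 fun e he => central_of_perfect (hm.perfect h (by omega)) fun s => ?_
    have := congrArg Subtype.val (MulEquiv.congr_fun ((e2 s).1 (ht ▸ mem_top s : s ∈ τ.ker))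
      ⟨φ e, e, he, rfl⟩)
    rw [← QuotientGroup.eq_one_iff]
    exact mul_inv_eq_one.2 this) fun hτ => hne ((eq_bot_iff_forall E).2 fun a ha =>
      hτ (((e2 a).2 (MulEquiv.ext ?_)).trans τ.map_one.symm))
  · have h3 : (Fintype.card α - 2 + 1) ^ 2 ≤ finrank k V ^ 2 :=
      (sq_le_two_pow (by omega)).trans (((Nat.pow_le_pow_right two_pos hd).trans
        (Nat.pow_le_pow_left hl.two_le d)).trans (e1 ▸ hcard))
    have := (Nat.pow_le_pow_iff_left two_ne_zero).1 h3
    omega
  · rintro ⟨_, b, hb, rfl⟩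
    exact Subtype.ext (mul_inv_eq_iff_eq_mul.2 (hφ a ha b hb).eq)

theorem bd_min (h : Sur π) (hm : Mn π) (h9 : 9 ≤ Fintype.card α)
    (ihr : 12 ≤ Fintype.card α → ∀ (β : Type) [Fintype β] [DecidableEq β],
      Fintype.card β + 3 = Fintype.card α → ∀ (G' : Type) [Group G'] [Finite G']
        (π' : G' →* Perm β), Sur π' → Bd π')
    (ihG : ∀ (G' : Type) [Group G'] [Finite G'] (π' : G' →* Perm α), Nat.card G' < Nat.card G →
      Sur π' → Bd π') : Bd π := by
  have ihN : ∀ (p : ℕ) [Fact p.Prime] (k : Type) [Field k] [CharP k p] [IsAlgClosed k] (V : Type)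
      [AddCommGroup V] [Module k V] [FiniteDimensional k V] (ρ : G →* End k V),
      (∀ g, ρ g = 1 → π g = 1) → ¬ Function.Injective ρ →
        Fintype.card α - 1 - (if p ∣ Fintype.card α then 1 else 0) ≤ finrank k V := by
    intro p _ k _ _ _ V _ _ _ ρ hρ hi
    refine ihG (G ⧸ ρ.ker) (QuotientGroup.lift _ π hρ) ?_ ⟨fun σ hσ => ?_, ?_⟩ p k V
      (QuotientGroup.lift _ ρ fun _ hg => hg) ?_
    · have h1 := ρ.ker.card_eq_card_quotient_mul_card_subgroup
      have h2 := (one_lt_card_iff_ne_bot ρ.ker).2 fun e => hi ((MonoidHom.ker_eq_bot_iff ρ).1 e)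
      have h3 := Nat.card_pos (α := G ⧸ ρ.ker)
      nlinarith
    · obtain ⟨g, hg⟩ := h.surj σ hσ
      exact ⟨g, hg⟩
    · rintro ⟨g⟩; exact h.sgn g
    · rintro ⟨g⟩; exact hρ g
  intro p _ k _ _ _ V _ _ _ ρ hρ
  induction hn : finrank k V using Nat.strong_induction_on generalizing V with
  | _ n ihn =>
  subst hn
  by_cases hi : ¬ Function.Injective ρ
  · exact ihN p k V ρ hρ hi
  rw [not_not] at hi
  obtain ⟨a, b, hab⟩ := h.noncomm (by omega)
  by_cases hI : ¬ Irr ρ
  · simp only [Irr, not_forall, not_or] at hI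
    obtain ⟨W, hW, w1, w2⟩ := hI
    have d1 := W.finrank_quotient_add_finrank
    have d2 := Submodule.finrank_lt w2
    have d3 : finrank k W ≠ 0 := fun e => w1 (Submodule.finrank_eq_zero.1 e)
    by_cases k1 : ∀ g, res ρ W hW g = 1 → π g = 1
    · exact (ihn _ d2 W _ k1 rfl).trans d2.le
    by_cases k2 : ∀ g, quo ρ W hW g = 1 → π g = 1
    · exact (ihn _ (by omega) (V ⧸ W) _ k2 rfl).trans (by omega)
    push Not at k1 k2
    obtain ⟨g1, g11, g12⟩ := k1
    obtain ⟨g2, g21, g22⟩ := k2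
    have t1 := hm.top h (by omega) (N := (res ρ W hW).ker) g11 g12
    have t2 := hm.top h (by omega) (N := (quo ρ W hW).ker) g21 g22
    have e : ∀ x y v, ρ x (ρ y v) = ρ x v + ρ y v - v := fun x y v => by
      have := res_eq_one.1 (t1 ▸ mem_top x : x ∈ (res ρ W hW).ker) _
        (quo_eq_one (t2 ▸ mem_top y : y ∈ (quo ρ W hW).ker) v)
      rw [map_sub, sub_eq_iff_eq_add] at this
      rw [this]; abel
    refine absurd ?_ hab
    rw [commutatorElement_eq_one_iff_mul_comm.2 (hi (LinearMap.ext fun v => by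
      simp only [map_mul, End.mul_apply, e, add_comm])), map_one]
  rw [not_not] at hI
  have : Nontrivial V := by
    by_contra hV
    rw [not_nontrivial_iff_subsingleton] at hV
    exact hab (hρ _ (Subsingleton.elim _ _))
  by_cases hK : π.ker ≤ center G
  · obtain ⟨w, w1, w2⟩ := alt_big h.surj h.sgn hK (by rw [hm.perfect h (by omega)]; exact le_top)
      (by omega)
    refine proj p ⟨h, fun z hz g => mem_center_iff.1 (hK hz) g, fun z hz => ?_⟩ hm h9 hi hI
      fun h12 β _ _ e G' _ _ π' h' V' _ _ _ ρ' hρ' => ?_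
    · obtain ⟨i, rfl⟩ := w2 hz
      simp only
      rw [← zpow_natCast, ← zpow_mul, mul_comm, zpow_mul, zpow_natCast, w1, one_zpow]
    · have := ihr h12 β e G' π' h'.toSur p k V' ρ' hρ'
      split_ifs at this <;> omega
  · refine (Nat.sub_le _ _).trans (noncentral h hm h9 hi hI hK fun l _ d τ t1 t2 => ?_)
    have := ihN l _ _ τ t1 t2
    rw [finrank_fin_fun] at this
    split_ifs at this <;> omega

theorem bd_all (r : ℕ) : ∀ (α : Type) [Fintype α] [DecidableEq α], Fintype.card α = r → 9 ≤ r →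
    ∀ (G : Type) [Group G] [Finite G] (π : G →* Perm α), Sur π → Bd π := by
  induction r using Nat.strong_induction_on with
  | _ r ihr =>
  intro α _ _ hr h9 G _ _ π h
  induction hN : Nat.card G using Nat.strong_induction_on generalizing G with
  | _ N ihG =>
  subst hN hr
  by_cases hm : Mn π
  · exact bd_min h hm h9 (fun h12 β _ _ e => ihr _ (by omega) β rfl (by omega))
      fun G' _ _ π' e h' => ihG _ e G' π' h' rfl
  simp only [Mn, not_forall] at hm
  obtain ⟨H, h1, h2⟩ := hm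
  intro p _ k _ _ _ V _ _ _ ρ hρ
  exact ihG _ ((card_le_card_group H).lt_of_ne fun e => h2 (eq_top_of_card_eq H e)) H
    (π.comp H.subtype) ⟨fun σ hσ => let ⟨g, a, b⟩ := h1 σ hσ; ⟨⟨g, a⟩, b⟩, fun g => h.sgn g⟩ rfl
    p k V (ρ.comp H.subtype) fun g => hρ g

end Cfsg.Agent.H13.Wag
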